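import Cfsg.Agent.Lib.H67.BlkOne5
import Cfsg.Agent.Lib.H20.LN
import Cfsg.Agent.Lib.H20.BrIdem
import Cfsg.Agent.Lib.H19.BrMap

/-!
Groups with a Sylow subgroup of order `p`: the blocks of positive defect and the characters of
the complement of the Sylow subgroup in its centralizer.
-/

set_option autoImplicit false
set_option linter.unusedSectionVars false
set_option linter.style.haveILetI false

namespace H78.DOne

open Finset Cfsg H18.CharBasic H18.CharOrtho H18.CharInd H67.Lat H67.DefOne H67.BlkOne H20.Loc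
open scoped ComplexConjugate

universe u

variable {p : ℕ} [hp : Fact p.Prime] {G : Type u} [Group G] {D : Dat p G} [Fintype G] [Fintype D.W]
variable {M : Ideal AlgInt}

theorem exists_psi (ψ : IrrCharacter (CC D)) :
    ∃ (θ : IrrCharacter D.W) (j : ZMod p), (ψ : CC D → ℂ) = psi D (θ : D.W → ℂ) j := by
  classical
  let _ : Fintype (CC D) := Fintype.ofFinite _
  have hc := isCharacter_resW D (isCharacter_of_isIrr ψ.2)
  have h0 : resW D (ψ : CC D → ℂ) ≠ 0 := by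
    intro h
    have h1 := congrFun h 1
    rw [resW_apply] at h1
    exact irr_one_ne_zero ψ.2 h1
  obtain ⟨θ, hθ, hne⟩ := H18.CharQuot.exists_constituent hc h0
  rw [← sum_inner_psi] at hne
  obtain ⟨j, _, hj⟩ := Finset.exists_ne_zero_of_sum_ne_zero hne
  refine ⟨⟨θ, hθ⟩, j, ?_⟩
  by_contra hcon
  exact hj (inner_irr_ne ψ.2 (isIrr_psi D hθ j) hcon)

/-- the character of the centralizer with the Sylow subgroup in its kernel -/
noncomputable def tl (θ : IrrCharacter D.W) : IrrCharacter (CC D) :=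
  ⟨psi D (θ : D.W → ℂ) 0, isIrr_psi D θ.2 0⟩

theorem tl_cmk (θ : IrrCharacter D.W) (i : ZMod p) (u : D.W) :
    (tl θ : CC D → ℂ) (cmk D i u) = (θ : D.W → ℂ) u := by
  show psi D (θ : D.W → ℂ) 0 (cmk D i u) = _
  rw [psi_cmk, zero_mul, ee_zero, one_mul]

theorem kerP_tl (θ : IrrCharacter D.W) : KerP D (tl θ : CC D → ℂ) := by
  intro x hx
  have h1 : ∃ i : ZMod p, x = cmk D i 1 := by
    obtain ⟨n, hn⟩ := Subgroup.mem_zpowers_iff.1 hx
    have hfin : IsOfFinOrder D.σ := isOfFinOrder_of_finite _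
    obtain ⟨m, hm⟩ := hfin.mem_powers_iff_mem_zpowers.2 hx
    refine ⟨m, Subtype.ext ?_⟩
    rw [cmk_coe]
    simp only [OneMemClass.coe_one, mul_one]
    rw [ZMod.val_natCast]
    have h2 := pow_mod_orderOf D.σ m
    rw [D.hσ] at h2
    rw [h2]
    exact hm.symm
  obtain ⟨i, rfl⟩ := h1
  have h2 : (1 : CC D) = cmk D 0 1 := by
    rw [cmk_zero]; rfl
  rw [tl_cmk, h2, tl_cmk]

theorem resW_tl (θ : IrrCharacter D.W) : resW D (tl θ : CC D → ℂ) = (θ : D.W → ℂ) := by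
  funext u
  rw [resW_apply, ← cmk_zero, tl_cmk]

theorem isPGroup_zp : IsPGroup p (Subgroup.zpowers D.σ) := by
  apply IsPGroup.of_card_dvd_pow (n := 1)
  rw [Nat.card_zpowers, pow_one]
  exact D.hσ.dvd

theorem zp_le : Subgroup.zpowers D.σ ≤ CC D := by
  rw [Subgroup.zpowers_le]
  exact (mem_CC D).2 rfl

theorem exists_block (hM : IsPModular p M) (θ : IrrCharacter D.W) :
    ∃ B, IsInducedBlock M (CC D) (blockOf M (tl θ : CC D → ℂ)) B :=
  H19.BrMap.exists_induced hM isPGroup_zp zp_le le_rfl (CC_le D) ⟨tl θ, rfl⟩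

theorem exists_theta_of (hM : IsPModular p M) {B : Set (IrrCharacter G)}
    (hB : ∃ b, IsInducedBlock M (CC D) b B) :
    ∃ θ : IrrCharacter D.W, IsInducedBlock M (CC D) (blockOf M (tl θ : CC D → ℂ)) B := by
  have := pm_isPrime hM
  obtain ⟨b, hb⟩ := hB
  obtain ⟨ψ, hψ⟩ := hb.1
  obtain ⟨θ, j, hj⟩ := exists_psi ψ
  refine ⟨θ, ?_⟩
  have h1 : ψ ∈ blockOf M (tl θ : CC D → ℂ) := by
    rw [mem_blockOf_iff hM (kerP_tl θ)]
    exact ⟨j, by rw [resW_tl]; exact hj⟩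
  have h2 : b = blockOf M (tl θ : CC D → ℂ) := by
    have h3 : IsPBlock M (blockOf M (tl θ : CC D → ℂ)) := ⟨tl θ, rfl⟩
    rw [H20.Blk.isPBlock_eq h3 h1, hψ]
  rw [← h2]
  exact hb

/-- a subgroup of order `p` is conjugate to the Sylow subgroup -/
theorem exists_conj_zp (hp2 : ¬ p ^ 2 ∣ Nat.card G) {E : Subgroup G} (hE : Nat.card E = p) :
    ∃ x : G, (Subgroup.zpowers D.σ).map (MulAut.conj x).toMonoidHom = E := by
  have hfac : (Nat.card G).factorization p = 1 := by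
    have h1 : p ∣ Nat.card G := hE ▸ E.card_subgroup_dvd_card
    have h2 := (hp.out.dvd_iff_one_le_factorization Nat.card_pos.ne').1 h1
    by_contra hne
    apply hp2
    exact (hp.out.pow_dvd_iff_le_factorization Nat.card_pos.ne').2 (by omega)
  let P₁ : Sylow p G := Sylow.ofCard (Subgroup.zpowers D.σ) (by rw [hfac, pow_one, Nat.card_zpowers, D.hσ])
  let P₂ : Sylow p G := Sylow.ofCard E (by rw [hfac, pow_one, hE])
  obtain ⟨x, hx⟩ := MulAction.exists_smul_eq G P₁ P₂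
  refine ⟨x, ?_⟩
  have h3 := congrArg (fun Q : Sylow p G => (Q : Subgroup G)) hx
  exact h3

theorem card_defect (hM : IsPModular p M) (hp2 : ¬ p ^ 2 ∣ Nat.card G) {B : Set (IrrCharacter G)}
    (hB : IsPBlock M B) (hd : 0 < blockDefect p B) {E : Subgroup G} (hE : IsDefectGroup p M B E) :
    Nat.card E = p := by
  have h1 := H20.Defect.card_defectGroup hM hB hE
  have h2 : blockDefect p B = 1 := by
    by_contra hne
    apply hp2
    have h3 : p ^ 2 ∣ Nat.card E := by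
      rw [h1]; exact pow_dvd_pow p (by omega)
    exact h3.trans E.card_subgroup_dvd_card
  rw [h1, h2, pow_one]

theorem exists_theta (hM : IsPModular p M) (hp2 : ¬ p ^ 2 ∣ Nat.card G) {B : Set (IrrCharacter G)}
    (hB : IsPBlock M B) (hd : 0 < blockDefect p B) :
    ∃ θ : IrrCharacter D.W, IsInducedBlock M (CC D) (blockOf M (tl θ : CC D → ℂ)) B := by
  apply exists_theta_of hM
  rw [H20.BrIdem.exists_induced_iff hM isPGroup_zp (sup_le zp_le le_rfl) (CC_le D) hB]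
  obtain ⟨E, hE⟩ := H20.DefGrp.exists_isDefectGroup hM hB
  obtain ⟨x, hx⟩ := exists_conj_zp (D := D) hp2 (card_defect hM hp2 hB hd hE)
  exact ⟨E, hE, x, hx.le⟩

theorem defectGroup_zp (hM : IsPModular p M) (hp2 : ¬ p ^ 2 ∣ Nat.card G) {B : Set (IrrCharacter G)}
    {b : Set (IrrCharacter (CC D))} (hb : IsInducedBlock M (CC D) b B) :
    IsDefectGroup p M B (Subgroup.zpowers D.σ) := by
  have hB := hb.2.1
  obtain ⟨E, hE, x, hx⟩ := (H20.BrIdem.exists_induced_iff hM isPGroup_zp (sup_le zp_le le_rfl)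
    (CC_le D) hB).1 ⟨b, hb⟩
  have h1 := H20.Defect.card_defectGroup hM hB hE
  have h2 : Nat.card ((Subgroup.zpowers D.σ).map (MulAut.conj x).toMonoidHom) = p := by
    rw [H20.DefGrp.card_map_conj, Nat.card_zpowers, D.hσ]
  have h3 : p ∣ Nat.card E := by
    have h4 := Subgroup.card_dvd_of_le hx
    rwa [h2] at h4
  have h4 : Nat.card E = p := by
    rw [h1] at h3 ⊢
    have h5 : 0 < blockDefect p B := by
      rcases Nat.eq_zero_or_pos (blockDefect p B) with h0 | h0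
      · rw [h0, pow_zero] at h3
        exact absurd (Nat.dvd_one.1 h3) hp.out.one_lt.ne'
      · exact h0
    rw [← h1]
    exact card_defect hM hp2 hB h5 hE
  have h5 : (Subgroup.zpowers D.σ).map (MulAut.conj x).toMonoidHom = E := by
    apply Subgroup.eq_of_le_of_card_ge hx
    rw [h2, h4]
  have h6 : Subgroup.zpowers D.σ = E.map (MulAut.conj x⁻¹).toMonoidHom := by
    rw [← h5, H20.DefGrp.map_conj_map_conj, inv_mul_cancel, H20.DefGrp.map_conj_one]
  rw [h6]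
  exact H20.DefGrp.isDefectGroup_map_conj hE _

theorem conj_of_eq (hM : IsPModular p M) {P K : Subgroup G} (hK : K = H20.LN.L P)
    {B : Set (IrrCharacter G)} (hB : IsPBlock M B)
    (hP : IsDefectGroup p M B P) {b b' : Set (IrrCharacter K)}
    (hb : IsInducedBlock M K b B) (hb' : IsInducedBlock M K b' B) :
    ∃ n ∈ Subgroup.normalizer (P : Set G), ∀ θ ∈ b, ∃ θ' ∈ b',
      ∀ x : K, ∀ hx : n * (x : G) * n⁻¹ ∈ K,
        (θ' : K → ℂ) x = (θ : K → ℂ) ⟨n * (x : G) * n⁻¹, hx⟩ := by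
  subst hK
  exact H20.LN.conj_L P hM hB hP hb hb'

/-- characters of `W` giving the same block are conjugate -/
theorem orbit (hM : IsPModular p M) (hp2 : ¬ p ^ 2 ∣ Nat.card G) {B : Set (IrrCharacter G)}
    {θ θ' : IrrCharacter D.W} (h : IsInducedBlock M (CC D) (blockOf M (tl θ : CC D → ℂ)) B)
    (h' : IsInducedBlock M (CC D) (blockOf M (tl θ' : CC D → ℂ)) B) :
    ∃ n : D.N₀, (θ' : D.W → ℂ) = cjW D n (θ : D.W → ℂ) := by
  have := pm_isPrime hM
  have hK : CC D = H20.LN.L (Subgroup.zpowers D.σ) :=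
    le_antisymm (le_sup_right) (sup_le zp_le le_rfl)
  obtain ⟨n, hn, hall⟩ := conj_of_eq hM hK h.2.1 (defectGroup_zp hM hp2 h) h h'
  obtain ⟨n₀, hn₀, y, hy, rfl⟩ := D.hsup n hn
  obtain ⟨ψ, hψ, hx⟩ := hall (tl θ) (H20.Blk.mem_blockOf_self (tl θ))
  obtain ⟨j, hj⟩ := (mem_blockOf_iff hM (kerP_tl θ') ψ).1 hψ
  rw [resW_tl] at hj
  refine ⟨⟨n₀, hn₀⟩, ?_⟩
  funext u
  have h1 := hx (cmk D 0 u)
  have hyu : y * (u : G) = (u : G) * y := by
    obtain ⟨m, rfl⟩ := Subgroup.mem_zpowers_iff.1 hy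
    have h3 : D.σ * (u : G) = (u : G) * D.σ := ((D.W_comm u.2)).symm
    exact Commute.zpow_left h3 m
  have h2 : n₀ * y * ((cmk D 0 u : CC D) : G) * (n₀ * y)⁻¹ = n₀ * u * n₀⁻¹ := by
    rw [cmk_coe, ZMod.val_zero, pow_zero, one_mul]
    calc n₀ * y * (u : G) * (n₀ * y)⁻¹ = n₀ * (y * u) * y⁻¹ * n₀⁻¹ := by group
      _ = n₀ * (u * y) * y⁻¹ * n₀⁻¹ := by rw [hyu]
      _ = _ := by group
  have h4 : n₀ * (u : G) * n₀⁻¹ ∈ D.W := conj_mem_W D ⟨n₀, hn₀⟩ u
  have h5 : n₀ * y * ((cmk D 0 u : CC D) : G) * (n₀ * y)⁻¹ ∈ CC D := by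
    rw [h2]; exact W_le_CC D h4
  have h6 := h1 h5
  have h7 : (⟨n₀ * y * ((cmk D 0 u : CC D) : G) * (n₀ * y)⁻¹, h5⟩ : CC D) =
      cmk D 0 ⟨n₀ * u * n₀⁻¹, h4⟩ := by
    apply Subtype.ext
    have h8 : ((cmk D 0 (⟨n₀ * u * n₀⁻¹, h4⟩ : D.W) : CC D) : G) = n₀ * u * n₀⁻¹ := by
      rw [cmk_coe, ZMod.val_zero, pow_zero, one_mul]
    exact h2.trans h8.symm
  rw [h7, tl_cmk, hj, psi_cmk, mul_zero, ee_zero, one_mul] at h6
  exact h6

end H78.DOne
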