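import Cfsg.Agent.Lib.H78.DOne1
import Cfsg.Agent.Lib.H78.Galois

/-!
Groups with a Sylow subgroup of order `p`: values on `p`-singular elements and Galois conjugation.
-/

set_option autoImplicit false
set_option linter.unusedSectionVars false
set_option linter.style.haveILetI false

namespace H78.DOne

open Finset Cfsg H18.CharBasic H18.CharOrtho H18.CharInd H67.Lat H67.DefOne H67.BlkOne H20.Loc
open scoped ComplexConjugate

universe u

variable {p : ℕ} [hp : Fact p.Prime] {G : Type u} [Group G] {D : Dat p G} [Fintype G] [Fintype D.W]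
variable {M : Ideal AlgInt}

theorem FF_cjW {χ : G → ℂ} (hχ : IsClassFunction G χ) (θ : D.W → ℂ) (n : D.N₀) (i : ZMod p) :
    FF D.W χ (cjW D n θ) (D.σ ^ i.val) = FF D.W χ θ (D.σ ^ (kk D n * i).val) := by
  rw [FF, FF]
  congr 1
  apply Fintype.sum_equiv (cAut D n).toEquiv
  intro u
  show χ (D.σ ^ i.val * u) * conj (θ ⟨n * u * (n : G)⁻¹, conj_mem_W D n u⟩) =
    χ (D.σ ^ (kk D n * i).val * (n * u * (n : G)⁻¹)) * conj (θ ⟨n * u * (n : G)⁻¹, conj_mem_W D n u⟩)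
  congr 1
  rw [← kk_conj, ← hχ (D.σ ^ i.val * u) n]
  congr 1
  group

theorem value {χ : G → ℂ} (hχ : IsClassFunction G χ) [Fintype (IrrCharacter D.W)] (i : ZMod p)
    (u : D.W) : χ (D.σ ^ i.val * u) =
      ∑ θ : IrrCharacter D.W, FF D.W χ (θ : D.W → ℂ) (D.σ ^ i.val) * (θ : D.W → ℂ) u := by
  have hcf : IsClassFunction D.W (fun u : D.W => χ (D.σ ^ i.val * u)) := by
    intro g h
    show χ (D.σ ^ i.val * (h * g * (h : G)⁻¹)) = χ (D.σ ^ i.val * g)
    rw [← hχ (D.σ ^ i.val * g) h]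
    congr 1
    have h1 : Commute (h : G) (D.σ ^ i.val) := (show Commute (h : G) D.σ from D.W_comm h.2).pow_right _
    calc D.σ ^ i.val * (h * g * (h : G)⁻¹) = (D.σ ^ i.val * h) * g * (h : G)⁻¹ := by group
      _ = (h * D.σ ^ i.val) * g * (h : G)⁻¹ := by rw [h1.eq]
      _ = _ := by group
  have h1 := congrFun (mem_classFun_expand hcf) u
  rw [Finset.sum_apply] at h1
  rw [h1]
  refine Finset.sum_congr rfl fun θ _ => ?_
  rw [Pi.smul_apply, smul_eq_mul]
  rfl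

theorem FF_off (hM : IsPModular p M) (hp2 : ¬ p ^ 2 ∣ Nat.card G) {B : Set (IrrCharacter G)}
    {θ θ' : IrrCharacter D.W} (h : IsInducedBlock M (CC D) (blockOf M (tl θ : CC D → ℂ)) B)
    (hno : ∀ n : D.N₀, (θ' : D.W → ℂ) ≠ cjW D n (θ : D.W → ℂ)) {χ : IrrCharacter G} (hχ : χ ∈ B)
    {i : ZMod p} (hi : i ≠ 0) : FF D.W χ (θ' : D.W → ℂ) (D.σ ^ i.val) = 0 := by
  have := pm_isPrime hM
  obtain ⟨B', hB'⟩ := exists_block (D := D) hM θ'
  by_cases hχ' : χ ∈ B'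
  · exfalso
    have h1 : B = B' := by
      rw [H20.Blk.isPBlock_eq h.2.1 hχ, H20.Blk.isPBlock_eq hB'.2.1 hχ']
    subst h1
    obtain ⟨n, hn⟩ := orbit hM hp2 h hB'
    exact hno n hn
  · have h1 := FF_eq_zero hM (kerP_tl θ') hB' χ hχ' hi
    rwa [resW_tl] at h1

theorem not_dvd_W (u : D.W) : ¬ p ∣ orderOf (u : G) := by
  intro h
  rw [Subgroup.orderOf_coe] at h
  exact not_dvd_card_W (D := D) (h.trans (orderOf_dvd_natCard u))

theorem exists_sing (hp2 : ¬ p ^ 2 ∣ Nat.card G) {g : G} (hg : p ∣ orderOf g) :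
    ∃ (i : ZMod p) (u : D.W), i ≠ 0 ∧ IsConj g (D.σ ^ i.val * u) := by
  obtain ⟨l, hl⟩ := hg
  have hl0 : l ≠ 0 := by
    rintro rfl
    rw [mul_zero] at hl
    exact (orderOf_pos g).ne' hl
  have hz : orderOf (g ^ l) = p := by
    rw [orderOf_pow_of_dvd hl0 (by rw [hl]; exact dvd_mul_left _ _), hl,
      Nat.mul_div_cancel _ (Nat.pos_of_ne_zero hl0)]
  obtain ⟨x, hx⟩ := exists_conj_zp (D := D) hp2 (E := Subgroup.zpowers (g ^ l)) (by
    rw [Nat.card_zpowers, hz])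
  have h1 : x⁻¹ * (g ^ l) * x ∈ Subgroup.zpowers D.σ := by
    have h2 : g ^ l ∈ (Subgroup.zpowers D.σ).map (MulAut.conj x).toMonoidHom := by
      rw [hx]; exact Subgroup.mem_zpowers _
    obtain ⟨y, hy, hy'⟩ := h2
    have h3 : x * y * x⁻¹ = g ^ l := hy'
    rw [← h3]
    have h4 : x⁻¹ * (x * y * x⁻¹) * x = y := by group
    rw [h4]
    exact hy
  have h2 : x⁻¹ * g * x ∈ CC D := by
    -- it centralizes a generator of the Sylow subgroup
    rw [CC, Subgroup.mem_centralizer_iff]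
    intro y hy
    have h3 : y ∈ Subgroup.zpowers (x⁻¹ * (g ^ l) * x) := by
      have h4 : Subgroup.zpowers (x⁻¹ * (g ^ l) * x) = Subgroup.zpowers D.σ := by
        apply Subgroup.eq_of_le_of_card_ge
        · rw [Subgroup.zpowers_le]; exact h1
        · rw [Nat.card_zpowers, Nat.card_zpowers, D.hσ]
          have h5 : x⁻¹ * (g ^ l) * x = MulAut.conj x⁻¹ (g ^ l) := by simp
          rw [h5, MulEquiv.orderOf_eq, hz]
      rw [h4]; exact hy
    obtain ⟨m, rfl⟩ := Subgroup.mem_zpowers_iff.1 h3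
    have h6 : Commute (x⁻¹ * (g ^ l) * x) (x⁻¹ * g * x) := by
      show x⁻¹ * (g ^ l) * x * (x⁻¹ * g * x) = x⁻¹ * g * x * (x⁻¹ * (g ^ l) * x)
      have h7 : g ^ l * g = g * g ^ l := (Commute.pow_self g l).eq
      calc x⁻¹ * (g ^ l) * x * (x⁻¹ * g * x) = x⁻¹ * (g ^ l * g) * x := by group
        _ = x⁻¹ * (g * g ^ l) * x := by rw [h7]
        _ = _ := by group
    exact (h6.zpow_left m).eq
  obtain ⟨i, u, hiu⟩ := cmk_surj D ⟨x⁻¹ * g * x, h2⟩
  have h3 : D.σ ^ i.val * (u : G) = x⁻¹ * g * x := by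
    rw [← cmk_coe, hiu]
  have hc : IsConj g (x⁻¹ * g * x) := isConj_iff.2 ⟨x⁻¹, by simp⟩
  refine ⟨i, u, ?_, ?_⟩
  · rintro rfl
    rw [ZMod.val_zero, pow_zero, one_mul] at h3
    apply not_dvd_W u
    rw [h3]
    have h5 : x⁻¹ * g * x = MulAut.conj x⁻¹ g := by simp
    rw [h5, MulEquiv.orderOf_eq, hl]
    exact dvd_mul_right _ _
  · rw [h3]; exact hc

/-- automorphisms fixing the `m`-th roots of unity fix the values at elements of order dividing `m` -/
theorem map_char_of_order {H : Type*} [Group H] [Finite H] {χ : H → ℂ} (hχ : IsCharacter H χ)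
    {τ : ℂ →+* ℂ} {m : ℕ} (hτ : ∀ z : ℂ, z ^ m = 1 → τ z = z) {g : H} (hg : g ^ m = 1) :
    τ (χ g) = χ g := by
  obtain ⟨s, hs⟩ := H18.CharBasic.exists_eigen hχ g
  have h1 : χ g = (s.map fun f => (f ⟨g, Subgroup.mem_zpowers g⟩ : ℂ)).sum :=
    hs ⟨g, Subgroup.mem_zpowers g⟩
  rw [h1, map_multiset_sum, Multiset.map_map]
  congr 1
  apply Multiset.map_congr rfl
  intro f _
  simp only [Function.comp]
  apply hτ
  rw [← Units.val_pow_eq_pow_val, ← map_pow]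
  have : (⟨g, Subgroup.mem_zpowers g⟩ : Subgroup.zpowers g) ^ m = 1 := by
    apply Subtype.ext
    exact hg
  rw [this, map_one, Units.val_one]

theorem pow_m_of_regular (hdiv : p ∣ Nat.card G) (hp2 : ¬ p ^ 2 ∣ Nat.card G) {g : G}
    (hg : ¬ p ∣ orderOf g) : g ^ (Nat.card G / p) = 1 := by
  rw [← orderOf_dvd_iff_pow_eq_one]
  have h1 : orderOf g ∣ p * (Nat.card G / p) := by
    rw [Nat.mul_div_cancel' hdiv]; exact orderOf_dvd_natCard g
  exact Nat.Coprime.dvd_of_dvd_mul_left ((hp.out.coprime_iff_not_dvd.2 hg).symm) h1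

theorem galois_eq (hM : IsPModular p M) (hp2 : ¬ p ^ 2 ∣ Nat.card G) {B : Set (IrrCharacter G)}
    {θ : IrrCharacter D.W} (h : IsInducedBlock M (CC D) (blockOf M (tl θ : CC D → ℂ)) B)
    {χ ψ : IrrCharacter G} (hχ : χ ∈ B) (hψ : ψ ∈ B) (τ : ℂ →+* ℂ)
    (hτ : ∀ z : ℂ, z ^ (Nat.card G / p) = 1 → τ z = z)
    (hreg : ∀ g : G, ¬ p ∣ orderOf g → (χ : G → ℂ) g = (ψ : G → ℂ) g)
    (hFF : ∀ i : ZMod p, i ≠ 0 → τ (FF D.W χ (θ : D.W → ℂ) (D.σ ^ i.val)) =
      FF D.W ψ (θ : D.W → ℂ) (D.σ ^ i.val)) (g : G) : τ ((χ : G → ℂ) g) = (ψ : G → ℂ) g := by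
  classical
  let _ : Fintype (IrrCharacter D.W) := Fintype.ofFinite _
  have hdiv : p ∣ Nat.card G := D.hσ ▸ orderOf_dvd_natCard D.σ
  have hχc := isClassFunction_of_isIrr χ.2
  have hψc := isClassFunction_of_isIrr ψ.2
  by_cases hg : p ∣ orderOf g
  · obtain ⟨i, u, hi, hc⟩ := exists_sing (D := D) hp2 hg
    rw [classFunction_isConj hχc hc, classFunction_isConj hψc hc, value hχc, value hψc, map_sum]
    refine Finset.sum_congr rfl fun θ' _ => ?_
    rw [map_mul]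
    have h1 : τ ((θ' : D.W → ℂ) u) = (θ' : D.W → ℂ) u := by
      apply map_char_of_order (isCharacter_of_isIrr θ'.2) hτ
      apply Subtype.ext
      rw [Subgroup.coe_pow, Subgroup.coe_one]
      exact pow_m_of_regular hdiv hp2 (not_dvd_W u)
    rw [h1]
    congr 1
    by_cases hno : ∀ n : D.N₀, (θ' : D.W → ℂ) ≠ cjW D n (θ : D.W → ℂ)
    · rw [FF_off hM hp2 h hno hχ hi, FF_off hM hp2 h hno hψ hi, map_zero]
    · push Not at hno
      obtain ⟨n, hn⟩ := hno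
      rw [hn, FF_cjW hχc, FF_cjW hψc]
      apply hFF
      have hk : kk D n ≠ 0 := by
        rw [← KK_apply]
        exact (KK D n).ne_zero
      exact mul_ne_zero hk hi
  · rw [map_char_of_order (isCharacter_of_isIrr χ.2) hτ (pow_m_of_regular hdiv hp2 hg)]
    exact hreg g hg

end H78.DOne
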