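import Cfsg.Agent.Lib.H78.DOne2

/-!
Groups with a Sylow subgroup of order `p`: the family of characters of a block of positive defect.
-/

set_option autoImplicit false
set_option linter.unusedSectionVars false
set_option linter.style.haveILetI false

namespace H78.DOne

open Finset Cfsg H18.CharBasic H18.CharOrtho H18.CharInd H67.Lat H67.DefOne H67.BlkOne H20.Loc
open scoped ComplexConjugate

universe u

variable {p : ℕ} [hp : Fact p.Prime] {G : Type u} [Group G] {D : Dat p G} [Fintype G] [Fintype D.W]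
variable {M : Ideal AlgInt}

open Classical in
theorem family (hM : IsPModular p M) (hp2 : ¬ p ^ 2 ∣ Nat.card G) [Fintype (IrrCharacter G)]
    {B : Set (IrrCharacter G)} {θ : IrrCharacter D.W}
    (h : IsInducedBlock M (CC D) (blockOf M (tl θ : CC D → ℂ)) B) :
    ∃ (s : ℤ) (y : (ZMod p)ˣ ⧸ HH D (θ : D.W → ℂ) → IrrCharacter G) (c : IrrCharacter G → ℤ),
      (s = 1 ∨ s = -1) ∧ Function.Injective y ∧ (∀ χ, c χ = 0 ∨ c χ = 1 ∨ c χ = -1) ∧
      (∀ q, c (y q) = 0) ∧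
      (∀ q, ∀ i : ZMod p, i ≠ 0 → FF D.W (y q) (θ : D.W → ℂ) (D.σ ^ i.val) =
        -(s : ℂ) * ∑ b ∈ (univ : Finset (ZMod p)ˣ).filter (fun b => QuotientGroup.mk b = q),
          ee ((b : ZMod p) * i)) ∧
      (∀ χ : IrrCharacter G, (∀ q, χ ≠ y q) → ∀ i : ZMod p, i ≠ 0 →
        FF D.W χ (θ : D.W → ℂ) (D.σ ^ i.val) = c χ) ∧
      (univ.filter (fun χ : IrrCharacter G => c χ ≠ 0)).card = Nat.card (HH D (θ : D.W → ℂ)) ∧
      (∀ g : G, ¬ p ∣ orderOf g → ∀ q, (s : ℂ) * conj ((y q : G → ℂ) g) +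
        ∑ χ : IrrCharacter G, (c χ : ℂ) * conj ((χ : G → ℂ) g) = 0) ∧
      B = {χ | c χ ≠ 0} ∪ Set.range y := by
  have := H20.Loc.pm_isPrime hM
  obtain ⟨s, y, c, hs, hy, hc, hcy, hyF, hcF, hcard, hreg⟩ := defect_one D hp2 θ.2
  refine ⟨s, y, c, hs, hy, hc, hcy, hyF, hcF, hcard, hreg, ?_⟩
  have hθb : tl θ ∈ blockOf M (tl θ : CC D → ℂ) := H20.Blk.mem_blockOf_self (tl θ)
  set e := Nat.card (HH D (θ : D.W → ℂ)) with he
  have hedvd : e ∣ p - 1 := card_HH_dvd _
  have hp1 : 0 < p - 1 := Nat.sub_pos_of_lt hp.out.one_lt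
  have hepos : 0 < e := Nat.pos_of_dvd_of_pos hedvd hp1
  have hep : ¬ p ∣ e := by
    intro hd
    have h1 := Nat.le_of_dvd hepos hd
    have h2 := Nat.le_of_dvd hp1 hedvd
    omega
  have hi : (1 : ZMod p) ≠ 0 := one_ne_zero
  have hsR : MemLocalRing M (-(s : ℂ)) := locR_neg (locR_intCast s)
  have hyF' : ∀ q, MemLocalIdeal M (FF D.W (y q) (θ : D.W → ℂ) (D.σ ^ (1 : ZMod p).val) - (-(s : ℂ) * e)) := by
    intro q
    rw [hyF q 1 hi, ← mul_sub]
    exact locI_mul_left hsR (sum_ee_coset hM _ q 1)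
  have hyne : ∀ q, FF D.W (y q) (θ : D.W → ℂ) (D.σ ^ (1 : ZMod p).val) ≠ 0 := by
    intro q h0
    have h1 := hyF' q
    rw [h0, zero_sub, ← neg_mul, neg_neg] at h1
    have h2 : (s : ℂ) * e = ((s * e : ℤ) : ℂ) := by push_cast; ring
    rw [h2, locI_intCast_iff hM] at h1
    apply hep
    rcases hs with rfl | rfl
    · rw [one_mul] at h1
      exact Int.natCast_dvd_natCast.1 h1
    · rw [neg_one_mul, dvd_neg] at h1
      exact Int.natCast_dvd_natCast.1 h1
  have hcy' : ∀ χ, c χ ≠ 0 → ∀ q, χ ≠ y q := by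
    rintro χ h1 q rfl
    exact h1 (hcy q)
  ext χ
  constructor
  · intro hχ
    by_cases hχY : ∃ q, y q = χ
    · exact Or.inr hχY
    · push Not at hχY
      have h1 := hcF χ (fun q h => hχY q h.symm) 1 hi
      have h2 := FF_ne_zero hM (kerP_tl θ) hθb h hχ hi
      rw [resW_tl, h1] at h2
      exact Or.inl (by exact_mod_cast h2)
  · intro hχ
    by_contra hχB
    have h0 := FF_eq_zero hM (kerP_tl θ) h χ hχB hi
    rw [resW_tl] at h0
    rcases hχ with hχ | ⟨q, rfl⟩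
    · have h1 := hcF χ (hcy' χ hχ) 1 hi
      rw [h0] at h1
      exact hχ (by exact_mod_cast h1.symm)
    · exact hyne q h0

/-- the action of an automorphism on the `p`-th roots of unity -/
theorem exists_unit (τ : ℂ →+* ℂ) : ∃ k : (ZMod p)ˣ, ∀ i : ZMod p, τ (ee i) = ee ((k : ZMod p) * i) := by
  have h1 : ∀ (n : ℕ) (a : ZMod p), ee ((n : ZMod p) * a) = ee a ^ n := by
    intro n a
    induction n with
    | zero => rw [Nat.cast_zero, zero_mul, ee_zero, pow_zero]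
    | succ n ih => rw [Nat.cast_succ, add_mul, one_mul, ee_add, ih, pow_succ]
  have hprim : IsPrimitiveRoot (ee (1 : ZMod p)) p := by
    have h2 : ee (1 : ZMod p) ^ p = 1 := by
      rw [← h1, CharP.cast_eq_zero, zero_mul, ee_zero]
    have h3 : ee (1 : ZMod p) ≠ 1 := by
      intro hcon
      have h4 := sum_ee (p := p) 1
      rw [if_neg one_ne_zero] at h4
      have h5 : ∀ i : ZMod p, ee (1 * i) = 1 := by
        intro i
        rw [one_mul, ← ZMod.natCast_zmod_val i, ← mul_one ((i.val : ℕ) : ZMod p), h1, hcon, one_pow]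
      rw [Finset.sum_congr rfl (fun i _ => h5 i), Finset.sum_const, Finset.card_univ, ZMod.card,
        nsmul_eq_mul, mul_one] at h4
      exact hp.out.ne_zero (by exact_mod_cast h4)
    rw [IsPrimitiveRoot.iff_orderOf]
    exact orderOf_eq_prime h2 h3
  have h2 : IsPrimitiveRoot (τ (ee (1 : ZMod p))) p := hprim.map_of_injective τ.injective
  obtain ⟨k, hkp, hk⟩ := hprim.eq_pow_of_pow_eq_one h2.pow_eq_one
  have hk0 : (k : ZMod p) ≠ 0 := by
    intro h0
    rw [← h1, h0, zero_mul, ee_zero] at hk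
    rw [← hk] at h2
    exact hp.out.one_lt.ne' (h2.unique IsPrimitiveRoot.one)
  refine ⟨Units.mk0 _ hk0, ?_⟩
  intro i
  rw [Units.val_mk0]
  have h3 : ee i = ee (1 : ZMod p) ^ i.val := by
    rw [← h1, ZMod.natCast_zmod_val, mul_one]
  rw [h3, map_pow, ← hk, ← h1, ← h1, ZMod.natCast_zmod_val, mul_one, mul_comm]

theorem ee_nat_mul (n : ℕ) (a : ZMod p) : ee ((n : ZMod p) * a) = ee a ^ n := by
  induction n with
  | zero => rw [Nat.cast_zero, zero_mul, ee_zero, pow_zero]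
  | succ n ih => rw [Nat.cast_succ, add_mul, one_mul, ee_add, ih, pow_succ]

theorem exists_tau {N : ℕ} (hN : N ≠ 0) (hdiv : p ∣ N) (hp2 : ¬ p ^ 2 ∣ N) (k : (ZMod p)ˣ) :
    ∃ τ : ℂ ≃+* ℂ, (∀ z : ℂ, z ^ (N / p) = 1 → τ z = z) ∧
      ∀ i : ZMod p, τ (ee i) = ee ((k : ZMod p) * i) := by
  have hNm : p * (N / p) = N := Nat.mul_div_cancel' hdiv
  have hco : Nat.Coprime (N / p) p := by
    rw [Nat.coprime_comm, hp.out.coprime_iff_not_dvd]
    intro h
    apply hp2
    rw [pow_two, ← hNm]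
    exact Nat.mul_dvd_mul_left p h
  obtain ⟨k', hk1, hk2⟩ := Nat.chineseRemainder hco 1 (k : ZMod p).val
  have hkk : ((k' : ℕ) : ZMod p) = (k : ZMod p) := by
    rw [(ZMod.natCast_eq_natCast_iff k' _ p).2 hk2, ZMod.natCast_zmod_val]
  have hcop : Nat.Coprime k' N := by
    rw [← hNm]
    refine Nat.Coprime.mul_right ?_ ?_
    · rw [Nat.coprime_comm, hp.out.coprime_iff_not_dvd]
      intro h
      have h1 : ((k' : ℕ) : ZMod p) = 0 := (ZMod.natCast_eq_zero_iff _ _).2 h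
      rw [hkk] at h1
      exact k.ne_zero h1
    · rw [Nat.Coprime, hk1.gcd_eq, Nat.gcd_one_left]
  obtain ⟨τ, hτ⟩ := H78.Galois.exists_ringEquiv hN hcop
  refine ⟨τ, ?_, ?_⟩
  · intro z hz
    rw [hτ z (by rw [← hNm, mul_comm, pow_mul, hz, one_pow])]
    have h1 : z ^ k' = z ^ (k' % (N / p)) := by
      conv_lhs => rw [← Nat.div_add_mod k' (N / p)]
      rw [pow_add, pow_mul, hz, one_pow, one_mul]
    have h2 : z ^ 1 = z ^ (1 % (N / p)) := by
      conv_lhs => rw [← Nat.div_add_mod 1 (N / p)]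
      rw [pow_add, pow_mul, hz, one_pow, one_mul]
    rw [h1]
    have h3 : k' % (N / p) = 1 % (N / p) := hk1
    rw [h3, ← h2, pow_one]
  · intro i
    rw [hτ _ (by rw [← hNm, pow_mul, ← ee_nat_mul, CharP.cast_eq_zero, zero_mul, ee_zero, one_pow]),
      ← ee_nat_mul, hkk]

end H78.DOne
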