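import Cfsg.Agent.Lib.H78.DOne3

/-!
Groups with a Sylow subgroup of order `p`: Galois action on a block of positive defect.
-/

set_option autoImplicit false
set_option linter.unusedSectionVars false
set_option linter.style.haveILetI false

namespace H78.DOne

open Finset Cfsg H18.CharBasic H18.CharOrtho H18.CharInd H67.Lat H67.DefOne H67.BlkOne H20.Loc
open scoped ComplexConjugate

universe u

variable {p : ℕ} [hp : Fact p.Prime] {G : Type u} [Group G] {D : Dat p G} [Fintype G] [Fintype D.W]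
variable {M : Ideal AlgInt}

open Classical in
theorem map_sum_coset (τ : ℂ →+* ℂ) (k : (ZMod p)ˣ) (hk : ∀ i : ZMod p, τ (ee i) = ee ((k : ZMod p) * i))
    (H : Subgroup (ZMod p)ˣ) (q : (ZMod p)ˣ ⧸ H) (i : ZMod p) :
    τ (∑ b ∈ (univ : Finset (ZMod p)ˣ).filter (fun b => QuotientGroup.mk b = q), ee ((b : ZMod p) * i)) =
      ∑ b ∈ (univ : Finset (ZMod p)ˣ).filter (fun b => QuotientGroup.mk b = (k : (ZMod p)ˣ ⧸ H) * q),
        ee ((b : ZMod p) * i) := by
  rw [map_sum]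
  refine Finset.sum_bij' (fun b _ => k * b) (fun b _ => k⁻¹ * b) ?_ ?_ ?_ ?_ ?_
  · intro b hb
    rw [mem_filter] at hb ⊢
    refine ⟨mem_univ _, ?_⟩
    rw [QuotientGroup.mk_mul, hb.2]
  · intro b hb
    rw [mem_filter] at hb ⊢
    refine ⟨mem_univ _, ?_⟩
    rw [QuotientGroup.mk_mul, hb.2, QuotientGroup.mk_inv, inv_mul_cancel_left]
  · intro b _
    exact inv_mul_cancel_left k b
  · intro b _
    exact mul_inv_cancel_left k b
  · intro b _
    rw [hk, Units.val_mul, mul_assoc]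

theorem main (hM : IsPModular p M) (hp2 : ¬ p ^ 2 ∣ Nat.card G)
    {B : Set (IrrCharacter G)} {θ : IrrCharacter D.W}
    (h : IsInducedBlock M (CC D) (blockOf M (tl θ : CC D → ℂ)) B) :
    ∃ Y : Set (IrrCharacter G), Y ⊆ B ∧ Y.Nonempty ∧
      (∀ τ : ℂ ≃+* ℂ, (∀ z : ℂ, z ^ (Nat.card G / p) = 1 → τ z = z) → ∀ χ ∈ Y, ∀ ψ : IrrCharacter G,
        (ψ : G → ℂ) = (fun g => τ ((χ : G → ℂ) g)) → ψ ∈ Y) ∧
      (∀ χ ∈ Y, ∀ ψ ∈ Y, ∃ τ : ℂ ≃+* ℂ, (∀ z : ℂ, z ^ (Nat.card G / p) = 1 → τ z = z) ∧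
        (ψ : G → ℂ) = fun g => τ ((χ : G → ℂ) g)) ∧
      (∀ τ : ℂ ≃+* ℂ, (∀ z : ℂ, z ^ (Nat.card G / p) = 1 → τ z = z) → ∀ χ ∈ B, χ ∉ Y →
        ∀ g, τ ((χ : G → ℂ) g) = (χ : G → ℂ) g) ∧
      Nat.card Y ∣ p - 1 ∧ Nat.card B = Nat.card Y + (p - 1) / Nat.card Y ∧
      Nat.card Y * Nat.card (HH D (θ : D.W → ℂ)) = p - 1 ∧
      ∃ δ : IrrCharacter G → ℤ, (∀ χ ∈ B, δ χ = 1 ∨ δ χ = -1) ∧
        ∀ x : G, ¬ p ∣ orderOf x → ∀ χ ∈ Y, (∑ᶠ ψ ∈ B \ Y, (δ ψ : ℂ) * (ψ : G → ℂ) x) +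
          (δ χ : ℂ) * (χ : G → ℂ) x = 0 := by
  classical
  let _ : Fintype (IrrCharacter G) := Fintype.ofFinite _
  obtain ⟨s, y, c, hs, hy, hc, hcy, hyF, hcF, hcard, hreg, hB⟩ := family hM hp2 h
  have hdiv : p ∣ Nat.card G := D.hσ ▸ orderOf_dvd_natCard D.σ
  have hs0 : (s : ℂ) ≠ 0 := by
    rcases hs with rfl | rfl <;> norm_num
  have hyB : ∀ q, y q ∈ B := fun q => by rw [hB]; exact Or.inr ⟨q, rfl⟩
  have hcy' : ∀ χ, c χ ≠ 0 → ∀ q, χ ≠ y q := by
    rintro χ h1 q rfl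
    exact h1 (hcy q)
  have hyreg : ∀ q q' g, ¬ p ∣ orderOf g → (y q : G → ℂ) g = (y q' : G → ℂ) g := by
    intro q q' g hg
    have h1 := hreg g hg q
    have h2 := hreg g hg q'
    have h3 : (s : ℂ) * conj (((y q : IrrCharacter G) : G → ℂ) g) =
        (s : ℂ) * conj (((y q' : IrrCharacter G) : G → ℂ) g) := by
      linear_combination h1 - h2
    have h4 := mul_left_cancel₀ hs0 h3
    exact (starRingEnd ℂ).injective h4
  have hgal : ∀ (τ : ℂ →+* ℂ) (k : (ZMod p)ˣ), (∀ z : ℂ, z ^ (Nat.card G / p) = 1 → τ z = z) →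
      (∀ i : ZMod p, τ (ee i) = ee ((k : ZMod p) * i)) → ∀ q g, τ ((y q : G → ℂ) g) =
        (y ((k : (ZMod p)ˣ ⧸ HH D (θ : D.W → ℂ)) * q) : G → ℂ) g := by
    intro τ k hτ hk q g
    apply galois_eq hM hp2 h (hyB q) (hyB _) τ hτ (fun g hg => hyreg _ _ g hg)
    intro i hi
    rw [hyF _ i hi, hyF _ i hi, map_mul, map_sum_coset τ k hk, map_neg, map_intCast]
  have hcardY : Nat.card (Set.range y) = (HH D (θ : D.W → ℂ)).index :=
    (Nat.card_congr (Equiv.ofInjective y hy)).symm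
  have hmul : Nat.card (Set.range y) * Nat.card (HH D (θ : D.W → ℂ)) = p - 1 := by
    rw [hcardY, mul_comm, (HH D (θ : D.W → ℂ)).card_mul_index, Nat.card_eq_fintype_card, ZMod.card_units]
  have hYpos : 0 < Nat.card (Set.range y) := by
    rw [hcardY]
    exact Nat.pos_of_ne_zero Subgroup.FiniteIndex.index_ne_zero
  refine ⟨Set.range y, ?_, ⟨y 1, 1, rfl⟩, ?_, ?_, ?_, ⟨_, hmul.symm⟩, ?_, hmul, ?_⟩
  · rw [hB]; exact Set.subset_union_right
  · rintro τ hτ _ ⟨q, rfl⟩ ψ hψ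
    obtain ⟨k, hk⟩ := exists_unit (p := p) τ.toRingHom
    refine ⟨(k : (ZMod p)ˣ ⧸ HH D (θ : D.W → ℂ)) * q, ?_⟩
    apply Subtype.ext
    rw [hψ]
    funext g
    exact (hgal τ.toRingHom k hτ hk q g).symm
  · rintro _ ⟨q, rfl⟩ _ ⟨q', rfl⟩
    obtain ⟨k, hk⟩ := QuotientGroup.mk_surjective (q' * q⁻¹)
    obtain ⟨τ, hτ, hτk⟩ := exists_tau Nat.card_pos.ne' hdiv hp2 k
    refine ⟨τ, hτ, ?_⟩
    funext g
    have h1 := hgal τ.toRingHom k hτ hτk q g
    rw [hk, inv_mul_cancel_right] at h1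
    exact h1.symm
  · intro τ hτ χ hχ hχY g
    have hne : ∀ q, χ ≠ y q := fun q hq => hχY ⟨q, hq.symm⟩
    apply galois_eq hM hp2 h hχ hχ τ.toRingHom hτ (fun _ _ => rfl)
    intro i hi
    rw [hcF χ hne i hi, map_intCast]
  · have h1 : Nat.card B = Nat.card (HH D (θ : D.W → ℂ)) + Nat.card (Set.range y) := by
      rw [hB, ← hcard, Nat.card_coe_set_eq, Nat.card_coe_set_eq, Set.ncard_union_eq ?_ (Set.toFinite _)
        (Set.toFinite _)]
      · congr 1
        rw [← Set.ncard_coe_finset]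
        congr 1
        ext χ
        simp
      · rw [Set.disjoint_left]
        rintro χ hχ ⟨q, rfl⟩
        exact hχ (hcy q)
    rw [h1, ← hmul, Nat.mul_div_cancel_left _ hYpos, add_comm]
  · refine ⟨fun χ => if c χ ≠ 0 then c χ else s, ?_, ?_⟩
    · intro χ _
      beta_reduce
      split_ifs with h1
      · rcases hc χ with h2 | h2 | h2
        · exact absurd h2 h1
        · exact Or.inl h2
        · exact Or.inr h2
      · exact hs
    · rintro x hx _ ⟨q, rfl⟩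
      have h1 := congrArg (starRingEnd ℂ) (hreg x hx q)
      rw [map_add, map_mul, map_sum, Complex.conj_conj, map_zero, map_intCast] at h1
      simp only [map_mul, Complex.conj_conj, map_intCast] at h1
      have h2 : B \ Set.range y = ↑(univ.filter (fun χ : IrrCharacter G => c χ ≠ 0)) := by
        ext χ
        rw [hB]
        simp only [Set.mem_sdiff, Set.mem_union, Set.mem_ofPred_eq, coe_filter, mem_univ, true_and]
        constructor
        · rintro ⟨h3 | h3, h4⟩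
          · exact h3
          · exact absurd h3 h4
        · intro h3
          exact ⟨Or.inl h3, fun ⟨q, hq⟩ => hcy' χ h3 q hq.symm⟩
      rw [h2, finsum_mem_coe_finset, Finset.sum_filter]
      have h3 : ∀ χ : IrrCharacter G, (if c χ ≠ 0 then (((if c χ ≠ 0 then c χ else s : ℤ)) : ℂ) *
          (χ : G → ℂ) x else 0) = (c χ : ℂ) * (χ : G → ℂ) x := by
        intro χ
        split_ifs with h4
        · rfl
        · rw [not_not] at h4
          rw [h4]; simp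
      rw [Finset.sum_congr rfl (fun χ _ => h3 χ)]
      have h4 : (if c (y q) ≠ 0 then c (y q) else s) = s := if_neg (not_not.2 (hcy q))
      beta_reduce
      rw [h4, add_comm]
      exact h1

end H78.DOne
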