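import Cfsg.Agent.Lib.H78.DOne4
import Cfsg.Agent.Lib.H20.DefZero
import Cfsg.Agent.Lib.H78.Cong
import Cfsg.Agent.Lib.H4.CenterIndex

/-!
Groups with a Sylow subgroup of order `p`: the number of characters of degree prime to `p`.
-/

set_option autoImplicit false
set_option linter.unusedSectionVars false
set_option linter.style.haveILetI false

namespace H78.DOne

open Finset Cfsg H18.CharBasic H18.CharOrtho H18.CharInd H67.Lat H67.DefOne H67.BlkOne H20.Loc
open scoped ComplexConjugate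

universe u

variable {p : ℕ} [hp : Fact p.Prime] {G : Type u} [Group G] {D : Dat p G} [Fintype G] [Fintype D.W]
variable {M : Ideal AlgInt}

theorem dvd_orderOf_cmk {i : ZMod p} (hi : i ≠ 0) (u : D.W) : p ∣ orderOf (D.σ ^ i.val * (u : G)) := by
  rw [← cmk_coe, Subgroup.orderOf_coe]
  have h1 : orderOf (homI D (cmk D i u)) ∣ orderOf (cmk D i u) := orderOf_map_dvd _ _
  have h2 : homI D (cmk D i u) = Multiplicative.ofAdd i := by
    show Multiplicative.ofAdd (prI D (cmk D i u)) = _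
    rw [(cmk_inj D (cmk_pr D (cmk D i u))).1]
  have h3 : orderOf (Multiplicative.ofAdd i) = p := by
    rw [orderOf_ofAdd_eq_addOrderOf]
    apply addOrderOf_eq_prime _ hi
    rw [nsmul_eq_mul, CharP.cast_eq_zero, zero_mul]
  rw [h2, h3] at h1
  exact h1

theorem mem_iff_FF (hM : IsPModular p M) {B : Set (IrrCharacter G)} {θ : IrrCharacter D.W}
    (h : IsInducedBlock M (CC D) (blockOf M (tl θ : CC D → ℂ)) B) (χ : IrrCharacter G) {i : ZMod p}
    (hi : i ≠ 0) : χ ∈ B ↔ FF D.W χ (θ : D.W → ℂ) (D.σ ^ i.val) ≠ 0 := by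
  have := pm_isPrime hM
  constructor
  · intro hχ
    have h1 := FF_ne_zero hM (kerP_tl θ) (H20.Blk.mem_blockOf_self (tl θ)) h hχ hi
    rwa [resW_tl] at h1
  · intro h1
    by_contra hχ
    have h2 := FF_eq_zero hM (kerP_tl θ) h χ hχ hi
    rw [resW_tl] at h2
    exact h1 h2

theorem block_eq_of_conj (hM : IsPModular p M) {B B' : Set (IrrCharacter G)} {θ θ' : IrrCharacter D.W}
    (h : IsInducedBlock M (CC D) (blockOf M (tl θ : CC D → ℂ)) B)
    (h' : IsInducedBlock M (CC D) (blockOf M (tl θ' : CC D → ℂ)) B') {n : D.N₀}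
    (hn : (θ' : D.W → ℂ) = cjW D n (θ : D.W → ℂ)) : B = B' := by
  have := pm_isPrime hM
  obtain ⟨χ, hχ⟩ := h.2.1
  have hχB : χ ∈ B := by rw [hχ]; exact H20.Blk.mem_blockOf_self χ
  have h1 : χ ∈ B' := by
    rw [mem_iff_FF hM h' χ (one_ne_zero (α := ZMod p)), hn, FF_cjW (isClassFunction_of_isIrr χ.2),
      ← mem_iff_FF hM h χ]
    · exact hχB
    · rw [mul_one, ← KK_apply]
      exact (KK D n).ne_zero
  rw [H20.Blk.isPBlock_eq h.2.1 hχB, H20.Blk.isPBlock_eq h'.2.1 h1]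

theorem fac_eq_one (hp2 : ¬ p ^ 2 ∣ Nat.card G) (hdiv : p ∣ Nat.card G) :
    (Nat.card G).factorization p = 1 := by
  have h2 := (hp.out.dvd_iff_one_le_factorization Nat.card_pos.ne').1 hdiv
  by_contra hne
  apply hp2
  exact (hp.out.pow_dvd_iff_le_factorization Nat.card_pos.ne').2 (by omega)

theorem degree_of_mem (hM : IsPModular p M) (hp2 : ¬ p ^ 2 ∣ Nat.card G) {B : Set (IrrCharacter G)}
    {θ : IrrCharacter D.W} (h : IsInducedBlock M (CC D) (blockOf M (tl θ : CC D → ℂ)) B)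
    {χ : IrrCharacter G} (hχ : χ ∈ B) : ¬ p ∣ charDegree (χ : G → ℂ) := by
  intro hd
  have hdiv : p ∣ Nat.card G := D.hσ ▸ orderOf_dvd_natCard D.σ
  rw [mem_iff_FF hM h χ (one_ne_zero (α := ZMod p))] at hχ
  apply hχ
  have h1 : (charDegree (χ : G → ℂ)).factorization p = (Nat.card G).factorization p := by
    rw [fac_eq_one hp2 hdiv]
    have h2 := H20.Defect.charDegree_dvd_card χ
    have h3 := H20.Defect.charDegree_ne_zero χ
    have h4 := (hp.out.dvd_iff_one_le_factorization h3).1 hd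
    have h5 := (Nat.factorization_le_iff_dvd h3 Nat.card_pos.ne').2 h2 p
    rw [fac_eq_one hp2 hdiv] at h5
    omega
  rw [FF, Finset.sum_eq_zero, mul_zero]
  intro u _
  rw [H20.DefZero.vanish_of_full_degree hM h1 (dvd_orderOf_cmk one_ne_zero u), zero_mul]

theorem exists_theta_of_degree (hM : IsPModular p M) (hp2 : ¬ p ^ 2 ∣ Nat.card G)
    {χ : IrrCharacter G} (hχ : ¬ p ∣ charDegree (χ : G → ℂ)) :
    ∃ θ : IrrCharacter D.W, IsInducedBlock M (CC D) (blockOf M (tl θ : CC D → ℂ))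
      (blockOf M (χ : G → ℂ)) := by
  have := pm_isPrime hM
  have hdiv : p ∣ Nat.card G := D.hσ ▸ orderOf_dvd_natCard D.σ
  have hB : IsPBlock M (blockOf M (χ : G → ℂ)) := ⟨χ, rfl⟩
  apply exists_theta hM hp2 hB
  have h1 := H20.Defect.defect_le_degree hM hB (H20.Blk.mem_blockOf_self χ)
  rw [fac_eq_one hp2 hdiv, Nat.factorization_eq_zero_of_not_dvd hχ] at h1
  omega

/-- the size of an orbit -/
theorem card_orbit (θ : IrrCharacter D.W) :
    Nat.card {θ' : IrrCharacter D.W // ∃ n : D.N₀, (θ' : D.W → ℂ) = cjW D n (θ : D.W → ℂ)} *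
      Nat.card (T₀ D (θ : D.W → ℂ)) = Nat.card D.N₀ := by
  let act : MulAction D.N₀ (D.W → ℂ) :=
    { smul := fun n θ => cjW D n⁻¹ θ
      one_smul := fun θ => by
        show cjW D (1 : D.N₀)⁻¹ θ = θ
        rw [inv_one, cjW_one]
      mul_smul := fun a b θ => by
        show cjW D (a * b)⁻¹ θ = cjW D a⁻¹ (cjW D b⁻¹ θ)
        rw [mul_inv_rev, cjW_mul] }
  let _ : Fintype D.N₀ := Fintype.ofFinite _
  have hfo : Finite (MulAction.orbit D.N₀ (θ : D.W → ℂ)) :=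
    (Set.finite_range (fun n : D.N₀ => n • (θ : D.W → ℂ))).to_subtype
  let _ : Fintype (MulAction.orbit D.N₀ (θ : D.W → ℂ)) := Fintype.ofFinite _
  let _ : Fintype (MulAction.stabilizer D.N₀ (θ : D.W → ℂ)) := Fintype.ofFinite _
  have h1 := MulAction.card_orbit_mul_card_stabilizer_eq_card_group D.N₀ (θ : D.W → ℂ)
  rw [← Nat.card_eq_fintype_card, ← Nat.card_eq_fintype_card, ← Nat.card_eq_fintype_card] at h1
  rw [← h1]
  have hsm : ∀ (n : D.N₀) (f : D.W → ℂ), n • f = cjW D n⁻¹ f := fun _ _ => rfl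
  congr 1
  · refine Nat.card_congr ⟨fun θ' => ⟨(θ'.1 : D.W → ℂ), ?_⟩, fun f => ⟨⟨f.1, ?_⟩, ?_⟩, ?_, ?_⟩
    · obtain ⟨n, hn⟩ := θ'.2
      exact ⟨n⁻¹, by
        show n⁻¹ • (θ : D.W → ℂ) = _
        rw [hsm, inv_inv, hn]⟩
    · obtain ⟨n, hn⟩ := f.2
      have hn' : n • (θ : D.W → ℂ) = f.1 := hn
      rw [← hn', hsm]
      exact cjW_irr D θ.2 _
    · obtain ⟨n, hn⟩ := f.2
      exact ⟨n⁻¹, hn.symm⟩
    · intro _; rfl
    · intro _; rfl
  · refine Nat.card_congr (Equiv.subtypeEquivRight fun n => ?_)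
    rw [mem_T₀, MulAction.mem_stabilizer_iff, hsm, ← mem_T₀, ← mem_T₀, inv_mem_iff]

/-- conjugacy of characters of `W` -/
def Cj (θ θ' : IrrCharacter D.W) : Prop := ∃ n : D.N₀, (θ' : D.W → ℂ) = cjW D n (θ : D.W → ℂ)

theorem Cj.symm {θ θ' : IrrCharacter D.W} (h : Cj θ θ') : Cj θ' θ := by
  obtain ⟨n, hn⟩ := h
  refine ⟨n⁻¹, ?_⟩
  rw [hn, ← cjW_mul, mul_inv_cancel, cjW_one]

theorem Cj.trans {θ θ' θ'' : IrrCharacter D.W} (h : Cj θ θ') (h' : Cj θ' θ'') : Cj θ θ'' := by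
  obtain ⟨n, hn⟩ := h
  obtain ⟨m, hm⟩ := h'
  exact ⟨n * m, by rw [hm, hn, cjW_mul]⟩

theorem Cj.card_T₀ {θ θ' : IrrCharacter D.W} (h : Cj θ θ') :
    Nat.card (T₀ D (θ : D.W → ℂ)) = Nat.card (T₀ D (θ' : D.W → ℂ)) := by
  have h1 := card_orbit θ
  have h2 := card_orbit θ'
  have h3 : Nat.card {θ₁ : IrrCharacter D.W // Cj θ θ₁} = Nat.card {θ₁ : IrrCharacter D.W // Cj θ' θ₁} :=
    Nat.card_congr (Equiv.subtypeEquivRight fun θ₁ => ⟨fun h4 => h.symm.trans h4, fun h4 => h.trans h4⟩)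
  have h4 : 0 < Nat.card {θ₁ : IrrCharacter D.W // Cj θ' θ₁} := by
    have : Nonempty {θ₁ : IrrCharacter D.W // Cj θ' θ₁} := ⟨θ', 1, (cjW_one D _).symm⟩
    exact Nat.card_pos
  apply Nat.eq_of_mul_eq_mul_left h4
  rw [← h3]
  refine h1.trans (h2.symm.trans ?_)
  rw [h3]
  rfl

/-- the contribution of a character of `W` -/
noncomputable def wt (p ν ω τ : ℕ) : ℚ := (τ : ℚ) / ν * ((p - 1 : ℕ) * ω / τ + τ / ω)

theorem count (hp2 : ¬ p ^ 2 ∣ Nat.card G) [Fintype (IrrCharacter D.W)] :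
    (Nat.card {χ : IrrCharacter G // ¬ p ∣ charDegree (χ : G → ℂ)} : ℚ) =
      ∑ θ : IrrCharacter D.W, wt p (Nat.card D.N₀) (Nat.card D.W) (Nat.card (T₀ D (θ : D.W → ℂ))) := by
  classical
  obtain ⟨M, hM⟩ := H78.Cong.exists_isPModular hp.out
  have := pm_isPrime hM
  let _ : Fintype (IrrCharacter G) := Fintype.ofFinite _
  choose Bl hBl using fun θ : IrrCharacter D.W => exists_block (D := D) hM θ
  have hν0 : (Nat.card D.N₀ : ℚ) ≠ 0 := by exact_mod_cast Nat.card_pos.ne'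
  have hω0 : (Nat.card D.W : ℚ) ≠ 0 := by exact_mod_cast Nat.card_pos.ne'
  have hcardB : ∀ θ : IrrCharacter D.W, wt p (Nat.card D.N₀) (Nat.card D.W)
      (Nat.card (T₀ D (θ : D.W → ℂ))) = ∑ χ : IrrCharacter G, if χ ∈ Bl θ then
        (Nat.card (T₀ D (θ : D.W → ℂ)) : ℚ) / Nat.card D.N₀ else 0 := by
    intro θ
    obtain ⟨Y, hYB, hYne, -, -, -, hY4, hY5, hY6, -⟩ := main hM hp2 (hBl θ)
    have h1 := H67.DefOne.card_T₀ D (isClassFunction_of_isIrr θ.2)
    have hH0 : (Nat.card (HH D (θ : D.W → ℂ)) : ℚ) ≠ 0 := by exact_mod_cast Nat.card_pos.ne'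
    have hYpos : 0 < Nat.card Y := by
      rcases Nat.eq_zero_or_pos (Nat.card Y) with h0 | h0
      · rw [h0, zero_mul] at hY6
        have := hp.out.one_lt
        omega
      · exact h0
    have hY0 : (Nat.card Y : ℚ) ≠ 0 := by exact_mod_cast hYpos.ne'
    rw [← Finset.sum_filter, Finset.sum_const, nsmul_eq_mul]
    have h2 : (univ.filter (fun χ : IrrCharacter G => χ ∈ Bl θ)).card = Nat.card (Bl θ) := by
      rw [Nat.card_eq_fintype_card, ← Fintype.card_subtype]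
    rw [h2, hY5, wt, ← hY6, Nat.mul_div_cancel_left _ hYpos, h1]
    push_cast
    field_simp
  rw [Finset.sum_congr rfl (fun θ _ => hcardB θ), Finset.sum_comm]
  have hin : ∀ χ : IrrCharacter G, (∑ θ : IrrCharacter D.W, if χ ∈ Bl θ then
      (Nat.card (T₀ D (θ : D.W → ℂ)) : ℚ) / Nat.card D.N₀ else 0) =
      if ¬ p ∣ charDegree (χ : G → ℂ) then 1 else 0 := by
    intro χ
    by_cases hχ : p ∣ charDegree (χ : G → ℂ)
    · rw [if_neg (not_not.2 hχ)]
      refine Finset.sum_eq_zero fun θ _ => if_neg fun h => degree_of_mem hM hp2 (hBl θ) h hχ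
    · rw [if_pos hχ]
      obtain ⟨θ₀, hθ₀⟩ := exists_theta_of_degree (D := D) hM hp2 hχ
      have h1 : ∀ θ : IrrCharacter D.W, χ ∈ Bl θ ↔ Cj θ₀ θ := by
        intro θ
        constructor
        · intro h2
          have h3 : Bl θ = blockOf M (χ : G → ℂ) := H20.Blk.isPBlock_eq (hBl θ).2.1 h2
          have h4 := hBl θ
          rw [h3] at h4
          exact orbit hM hp2 hθ₀ h4
        · rintro ⟨n, hn⟩
          rw [← block_eq_of_conj hM hθ₀ (hBl θ) hn]
          exact H20.Blk.mem_blockOf_self χ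
      have h2 : ∀ θ : IrrCharacter D.W, (if χ ∈ Bl θ then
          (Nat.card (T₀ D (θ : D.W → ℂ)) : ℚ) / Nat.card D.N₀ else 0) =
          if Cj θ₀ θ then (Nat.card (T₀ D (θ₀ : D.W → ℂ)) : ℚ) / Nat.card D.N₀ else 0 := by
        intro θ
        by_cases h3 : Cj θ₀ θ
        · rw [if_pos h3, if_pos ((h1 θ).2 h3), h3.card_T₀]
        · rw [if_neg h3, if_neg (fun h4 => h3 ((h1 θ).1 h4))]
      rw [Finset.sum_congr rfl (fun θ _ => h2 θ), ← Finset.sum_filter, Finset.sum_const, nsmul_eq_mul]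
      have h3 := card_orbit θ₀
      have h4 : Nat.card {θ' : IrrCharacter D.W // Cj θ₀ θ'} =
          (univ.filter (fun θ : IrrCharacter D.W => Cj θ₀ θ)).card := by
        rw [Nat.card_eq_fintype_card, ← Fintype.card_subtype]
      have h5 : (univ.filter (fun θ : IrrCharacter D.W => Cj θ₀ θ)).card *
          Nat.card (T₀ D (θ₀ : D.W → ℂ)) = Nat.card D.N₀ := by
        rw [← h4]; exact h3
      rw [← mul_div_assoc, ← h5]
      push_cast
      rw [div_self]
      have h6 : (((univ.filter (fun θ : IrrCharacter D.W => Cj θ₀ θ)).card *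
        Nat.card (T₀ D (θ₀ : D.W → ℂ)) : ℕ) : ℚ) ≠ 0 := by rw [h5]; exact hν0
      exact_mod_cast h6
  rw [Finset.sum_congr rfl (fun χ _ => hin χ), Finset.sum_boole]
  congr 1
  rw [Nat.card_eq_fintype_card, Fintype.card_subtype]

end H78.DOne
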