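import Cfsg.Agent.Lib.H78.DOne5

/-!
Groups with a Sylow subgroup of order `p`: comparison with the normalizer of the Sylow subgroup.
-/

set_option autoImplicit false
set_option linter.unusedSectionVars false
set_option linter.style.haveILetI false

namespace H78.DOne

open Finset Cfsg H18.CharBasic H18.CharOrtho H18.CharInd H67.Lat H67.DefOne H67.BlkOne H20.Loc
open scoped ComplexConjugate

universe u v

variable {p : ℕ} [hp : Fact p.Prime]

theorem transport {G : Type u} {G' : Type v} [Group G] [Group G'] [Fintype G] [Fintype G']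
    (D : Dat p G) (D' : Dat p G') [Fintype D.W] [Fintype D'.W] [Fintype (IrrCharacter D.W)]
    [Fintype (IrrCharacter D'.W)] (fN : D.N₀ ≃* D'.N₀) (fW : D.W ≃* D'.W)
    (hc : ∀ (n : D.N₀) (u : D.W), fW (cAut D n u) = cAut D' (fN n) (fW u)) :
    ∑ θ : IrrCharacter D.W, wt p (Nat.card D.N₀) (Nat.card D.W) (Nat.card (T₀ D (θ : D.W → ℂ))) =
    ∑ θ : IrrCharacter D'.W, wt p (Nat.card D'.N₀) (Nat.card D'.W)
      (Nat.card (T₀ D' (θ : D'.W → ℂ))) := by
  rw [Nat.card_congr fN.toEquiv, Nat.card_congr fW.toEquiv]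
  let e : IrrCharacter D'.W ≃ IrrCharacter D.W :=
    { toFun := fun θ => ⟨fun u => (θ : D'.W → ℂ) (fW u), (H18.CharQuot.isIrrCharacter_mulEquiv fW).1 θ.2⟩
      invFun := fun θ => ⟨fun u => (θ : D.W → ℂ) (fW.symm u),
        (H18.CharQuot.isIrrCharacter_mulEquiv fW.symm).1 θ.2⟩
      left_inv := fun θ => by
        apply Subtype.ext
        funext u
        simp
      right_inv := fun θ => by
        apply Subtype.ext
        funext u
        simp }
  rw [← Equiv.sum_comp e]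
  refine Finset.sum_congr rfl fun θ _ => ?_
  congr 1
  refine Nat.card_congr (fN.toEquiv.subtypeEquiv fun n => ?_)
  rw [mem_T₀]
  show _ ↔ fN n ∈ T₀ D' (θ : D'.W → ℂ)
  rw [mem_T₀]
  constructor
  · intro h
    funext u
    obtain ⟨v, rfl⟩ := fW.surjective u
    have h1 := congrFun h v
    have h2 : (θ : D'.W → ℂ) (fW (cAut D n v)) = (θ : D'.W → ℂ) (fW v) := h1
    rw [hc] at h2
    exact h2
  · intro h
    funext v
    have h1 := congrFun h (fW v)
    have h2 : (θ : D'.W → ℂ) (cAut D' (fN n) (fW v)) = (θ : D'.W → ℂ) (fW v) := h1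
    rw [← hc] at h2
    exact h2

variable {G : Type u} [Group G]

/-- the data in the normalizer -/
def datN (D : Dat p G) [Finite G] : Dat p (Subgroup.normalizer (Subgroup.zpowers D.σ : Set G)) where
  σ := ⟨D.σ, Subgroup.le_normalizer (Subgroup.mem_zpowers D.σ)⟩
  N₀ := D.N₀.subgroupOf _
  W := D.W.subgroupOf _
  hσ := by
    rw [← Subgroup.orderOf_coe]
    exact D.hσ
  hN₀ := by
    intro g _
    rw [Subgroup.mem_normalizer_iff]
    intro h
    have h1 := Subgroup.mem_normalizer_iff.1 g.2 h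
    constructor
    · intro h2
      obtain ⟨m, hm⟩ := Subgroup.mem_zpowers_iff.1 h2
      have h3 : (h : G) ∈ Subgroup.zpowers D.σ := ⟨m, by rw [← hm]; rfl⟩
      obtain ⟨l, hl⟩ := Subgroup.mem_zpowers_iff.1 (h1.1 h3)
      exact ⟨l, Subtype.ext hl⟩
    · intro h2
      obtain ⟨m, hm⟩ := Subgroup.mem_zpowers_iff.1 h2
      have h3 : (g : G) * h * (g : G)⁻¹ ∈ Subgroup.zpowers D.σ := ⟨m, congrArg Subtype.val hm⟩
      obtain ⟨l, hl⟩ := Subgroup.mem_zpowers_iff.1 (h1.2 h3)
      exact ⟨l, Subtype.ext hl⟩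
  hsup := by
    intro g _
    obtain ⟨x, hx, y, hy, hxy⟩ := D.hsup g g.2
    obtain ⟨m, hm⟩ := Subgroup.mem_zpowers_iff.1 hy
    refine ⟨⟨x, D.hN₀ hx⟩, hx, ⟨y, Subgroup.le_normalizer hy⟩, ?_, Subtype.ext hxy⟩
    exact ⟨m, Subtype.ext hm⟩
  hdisj := by
    rw [eq_bot_iff]
    rintro g ⟨h1, h2⟩
    obtain ⟨m, hm⟩ := Subgroup.mem_zpowers_iff.1 h2
    have h3 : (g : G) ∈ Subgroup.zpowers D.σ := ⟨m, congrArg Subtype.val hm⟩
    have h4 : (g : G) ∈ D.N₀ ⊓ Subgroup.zpowers D.σ := ⟨h1, h3⟩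
    rw [D.hdisj] at h4
    exact Subtype.ext h4
  hNp := by
    rw [Nat.card_congr (Subgroup.subgroupOfEquivOfLe D.hN₀).toEquiv]
    exact D.hNp
  hW := by
    intro g
    rw [Subgroup.mem_subgroupOf, Subgroup.mem_subgroupOf, D.hW]
    constructor
    · rintro ⟨h1, h2⟩
      exact ⟨h1, Subtype.ext h2⟩
    · rintro ⟨h1, h2⟩
      exact ⟨h1, congrArg Subtype.val h2⟩

theorem W_le_N (D : Dat p G) : D.W ≤ Subgroup.normalizer (Subgroup.zpowers D.σ : Set G) :=
  D.W_le.trans D.hN₀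

theorem card_eq [Fintype G] (D : Dat p G) (hp2 : ¬ p ^ 2 ∣ Nat.card G) :
    Nat.card {χ : IrrCharacter G // ¬ p ∣ charDegree (χ : G → ℂ)} =
    Nat.card {χ : IrrCharacter (Subgroup.normalizer (Subgroup.zpowers D.σ : Set G)) //
      ¬ p ∣ charDegree (χ : Subgroup.normalizer (Subgroup.zpowers D.σ : Set G) → ℂ)} := by
  classical
  let _ : Fintype (Subgroup.normalizer (Subgroup.zpowers D.σ : Set G)) := Fintype.ofFinite _
  let _ : Fintype D.W := Fintype.ofFinite _
  let _ : Fintype (datN D).W := Fintype.ofFinite _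
  let _ : Fintype (IrrCharacter D.W) := Fintype.ofFinite _
  let _ : Fintype (IrrCharacter (datN D).W) := Fintype.ofFinite _
  have h1 := count (D := D) hp2
  have h2 := count (D := datN D) (fun h => hp2 (h.trans (Subgroup.card_subgroup_dvd_card _)))
  have h3 := transport D (datN D) (Subgroup.subgroupOfEquivOfLe D.hN₀).symm
    (Subgroup.subgroupOfEquivOfLe (W_le_N D)).symm (fun _ _ => rfl)
  rw [h3, ← h2] at h1
  exact_mod_cast h1

end H78.DOne
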