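import Cfsg.Agent.Lib.H78.FrT2b

/-! Frame stabilisers, P2: `T2'` in dimension at least nine. -/

set_option autoImplicit false
open Matrix H96.Fr

namespace H78.FrT2

variable {ι F : Type*} [Fintype ι] [DecidableEq ι] [Field F] {K : Subgroup ((ι → F) ≃ₗ[F] (ι → F))}

lemma mon_inv {g : (ι → F) ≃ₗ[F] (ι → F)} (hg : Mon g) : Mon g⁻¹ := by
  choose j s hs hj using mon_sgn hg
  have hinj : Function.Injective j := by
    intro a b hab
    have h1 := hj b
    rw [← hab] at h1
    exact inj (hs b) (hj a) h1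
  have hsur := Finite.surjective_of_injective hinj
  intro m
  obtain ⟨i, rfl⟩ := hsur m
  refine ⟨i, ?_⟩
  have h1 : g⁻¹ (e (j i)) = s i • e i := by
    have h2 : g (s i • e i) = e (j i) := by
      rw [map_smul, hj, smul_smul, hs, one_smul]
    rw [← h2]
    exact g.symm_apply_apply _
  rcases sgn (hs i) with h | h
  · left; rw [h1, h, one_smul]
  · right; rw [h1, h, neg_one_smul]

lemma two_supp {u : ι → F} (h2 : (2:F) ≠ 0) {p q : ι} (hpq : p ≠ q) (hs : ∀ m, m ≠ p → m ≠ q → u m = 0)
    (huu : u ⬝ᵥ u = 2) (hsq : u p * u p = u q * u q) :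
    ∃ p q : ι, p ≠ q ∧ ∃ ε δ : F, ε * ε = 1 ∧ δ * δ = 1 ∧ u = ε • e p + δ • e q := by
  have hu : u = u p • e p + u q • e q := by
    funext m
    simp only [Pi.add_apply, Pi.smul_apply, smul_eq_mul]
    by_cases h1 : m = p
    · subst h1; rw [e_self, e_ne hpq]; ring
    · by_cases h3 : m = q
      · subst h3; rw [e_self, e_ne h1]; ring
      · rw [e_ne h1, e_ne h3, hs m h1 h3]; ring
  have h3 : u p * u p + u q * u q = 2 := by
    have h5 : u ⬝ᵥ u = u ⬝ᵥ (u p • e p + u q • e q) := congrArg (fun z => u ⬝ᵥ z) hu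
    rw [dotProduct_add, dotProduct_smul, dotProduct_smul, dot_e, dot_e, huu] at h5
    exact h5.symm
  have h4 : u p * u p = 1 := by
    apply mul_left_cancel₀ h2
    linear_combination h3 + hsq
  exact ⟨p, q, hpq, u p, u q, h4, by rw [← hsq, h4], hu⟩

lemma halves (h2 : (2:F) ≠ 0) {x z : ι → F} {p q p' q' : ι} {ε δ ε' δ' : F} (hpq : p ≠ q) (hpq' : p' ≠ q')
    (hε : ε * ε = 1) (hδ : δ * δ = 1) (hε' : ε' * ε' = 1) (hδ' : δ' * δ' = 1)
    (h1 : x - z = ε • e p + δ • e q) (h1' : x + z = ε' • e p' + δ' • e q') (h0 : (x - z) ⬝ᵥ (x + z) = 0) :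
    (∃ (m : ι) (s : F), s * s = 1 ∧ x = s • e m) ∨
      (∃ S : Finset ι, S.card ≤ 4 ∧ (∀ m ∈ S, x m ≠ 0) ∧ ∀ m, m ∉ S → x m = 0 ∧ z m = 0) := by
  have ne0 : ∀ {s : F}, s * s = 1 → s ≠ 0 := by
    rintro s hs rfl; simp at hs
  have hx : ∀ m, 2 * x m = ε * (e p : ι → F) m + δ * (e q : ι → F) m + (ε' * (e p' : ι → F) m + δ' * (e q' : ι → F) m) := by
    intro m
    have e1 := congrFun h1 m
    have e2 := congrFun h1' m
    simp only [Pi.sub_apply, Pi.add_apply, Pi.smul_apply, smul_eq_mul] at e1 e2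
    linear_combination e1 + e2
  have hz : ∀ m, 2 * z m = (ε' * (e p' : ι → F) m + δ' * (e q' : ι → F) m) - (ε * (e p : ι → F) m + δ * (e q : ι → F) m) := by
    intro m
    have e1 := congrFun h1 m
    have e2 := congrFun h1' m
    simp only [Pi.sub_apply, Pi.add_apply, Pi.smul_apply, smul_eq_mul] at e1 e2
    linear_combination e2 - e1
  rw [h1, h1', dotProduct_add, dotProduct_smul, dotProduct_smul, dot_e, dot_e] at h0
  simp only [Pi.add_apply, Pi.smul_apply, smul_eq_mul] at h0
  -- the case of equal supports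
  have same : ∀ {a b : F}, a * a = 1 → b * b = 1 → ε * a + δ * b = 0 →
      (∀ m, 2 * x m = (ε + a) * (e p : ι → F) m + (δ + b) * (e q : ι → F) m) →
      (∃ (m : ι) (s : F), s * s = 1 ∧ x = s • e m) := by
    intro a b ha hb hab hm
    have e1 : a = ε ∨ a = -ε := by
      have : (a - ε) * (a + ε) = 0 := by linear_combination ha - hε
      rcases mul_eq_zero.1 this with h | h
      · left; linear_combination h
      · right; linear_combination h
    rcases e1 with rfl | rfl
    · have hb' : b = -δ := by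
        have : δ * b = -1 := by linear_combination hab - hε
        linear_combination (-b) * hδ + δ * this
      refine ⟨p, a, hε, ?_⟩
      funext m
      apply mul_left_cancel₀ h2
      rw [hm m, hb', Pi.smul_apply, smul_eq_mul]; ring
    · have hb' : b = δ := by
        have : δ * b = 1 := by linear_combination hab + hε
        linear_combination (-b) * hδ + δ * this
      refine ⟨q, δ, hδ, ?_⟩
      funext m
      apply mul_left_cancel₀ h2
      rw [hm m, hb', Pi.smul_apply, smul_eq_mul]; ring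
  by_cases hp : p' = p
  · subst hp
    by_cases hq : q' = q
    · subst hq
      left
      refine same hε' hδ' ?_ ?_
      · rw [e_self, e_self, e_ne hpq, e_ne hpq.symm] at h0
        linear_combination h0
      · intro m; rw [hx m]; ring
    · exfalso
      rw [e_self, e_ne hpq, e_ne hpq'.symm, e_ne hq] at h0
      have : ε' * ε = 0 := by linear_combination h0
      exact mul_ne_zero (ne0 hε') (ne0 hε) this
  · by_cases hp2 : p' = q
    · subst hp2
      by_cases hq : q' = p
      · subst hq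
        left
        refine same hδ' hε' ?_ ?_
        · rw [e_self, e_self, e_ne hpq', e_ne hpq'.symm] at h0
          linear_combination h0
        · intro m; rw [hx m]; ring
      · exfalso
        rw [e_self, e_ne hp, e_ne hq, e_ne hpq'.symm] at h0
        have : ε' * δ = 0 := by linear_combination h0
        exact mul_ne_zero (ne0 hε') (ne0 hδ) this
    · by_cases hq : q' = p
      · exfalso
        subst hq
        rw [e_ne hp, e_ne hp2, e_self, e_ne hpq] at h0
        have : δ' * ε = 0 := by linear_combination h0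
        exact mul_ne_zero (ne0 hδ') (ne0 hε) this
      · by_cases hq2 : q' = q
        · exfalso
          subst hq2
          rw [e_ne hp, e_ne hp2, e_self, e_ne hpq.symm] at h0
          have : δ' * δ = 0 := by linear_combination h0
          exact mul_ne_zero (ne0 hδ') (ne0 hδ) this
        · right
          refine ⟨{p, q, p', q'}, Finset.card_le_four, ?_, ?_⟩
          · intro m hm h
            have h3 := hx m
            rw [h, mul_zero] at h3
            simp only [Finset.mem_insert, Finset.mem_singleton] at hm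
            rcases hm with rfl | rfl | rfl | rfl
            · rw [e_self, e_ne hpq, e_ne (Ne.symm hp), e_ne (Ne.symm hq)] at h3
              exact ne0 hε (by linear_combination -h3)
            · rw [e_self, e_ne hpq.symm, e_ne (Ne.symm hp2), e_ne (Ne.symm hq2)] at h3
              exact ne0 hδ (by linear_combination -h3)
            · rw [e_self, e_ne hp, e_ne hp2, e_ne hpq'] at h3
              exact ne0 hε' (by linear_combination -h3)
            · rw [e_self, e_ne hq, e_ne hq2, e_ne hpq'.symm] at h3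
              exact ne0 hδ' (by linear_combination -h3)
          · intro m hm
            simp only [Finset.mem_insert, Finset.mem_singleton, not_or] at hm
            obtain ⟨m1, m2, m3, m4⟩ := hm
            have h3 := hx m
            have h4 := hz m
            rw [e_ne m1, e_ne m2, e_ne m3, e_ne m4] at h3 h4
            constructor
            · apply mul_left_cancel₀ h2; linear_combination h3
            · apply mul_left_cancel₀ h2; linear_combination h4

section
variable {k t : (ι → F) ≃ₗ[F] (ι → F)} (h : Set' K k t)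
include h

/-- differences of two images -/
lemma Set'.diff {R : Finset ι} (hR : 5 ≤ R.card) (hRt : ∀ a ∈ R, t (e a) = e a) {a b : ι} (ha : a ∈ R)
    (hb : b ∈ R) (hab : a ≠ b) :
    ∃ p q : ι, p ≠ q ∧ ∃ ε δ : F, ε * ε = 1 ∧ δ * δ = 1 ∧ k⁻¹ (e a) - k⁻¹ (e b) = ε • e p + δ • e q := by
  have huu : (k⁻¹ (e a) - k⁻¹ (e b)) ⬝ᵥ (k⁻¹ (e a) - k⁻¹ (e b) : ι → F) = 2 := by
    rw [dotProduct_sub, sub_dotProduct, sub_dotProduct, h.gg, h.gg, h.gg, h.gg, if_pos rfl, if_pos rfl,
      if_neg hab, if_neg hab.symm]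
    ring
  obtain ⟨c, hc, hcn⟩ : ∃ c ∈ R, c ∉ ({a, b} : Finset ι) :=
    Finset.exists_mem_notMem_of_card_lt_card (lt_of_le_of_lt Finset.card_le_two (by omega))
  simp only [Finset.mem_insert, Finset.mem_singleton, not_or] at hcn
  obtain ⟨i, j, l, hij, hil, hjl, s1, s2, hs1, hs2, hsup, heq⟩ :=
    h.plane hab (Ne.symm hcn.1) (Ne.symm hcn.2) (hRt a ha) (hRt b hb) (hRt c hc)
  set u : ι → F := k⁻¹ (e a) - k⁻¹ (e b) with hu
  by_cases hi : u i = 0
  · refine two_supp h.h2 hjl (fun m h1 h3 => ?_) huu ?_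
    · by_cases h4 : m = i
      · rw [h4]; exact hi
      · exact (hsup m h4 h1 h3).1
    · rw [hi] at heq
      linear_combination (s1 * u j - s2 * u l) * heq - (u j * u j) * hs1 + (u l * u l) * hs2
  by_cases hj : u j = 0
  · refine two_supp h.h2 hil (fun m h1 h3 => ?_) huu ?_
    · by_cases h4 : m = j
      · rw [h4]; exact hj
      · exact (hsup m h1 h4 h3).1
    · rw [hj] at heq
      linear_combination (u i - s2 * u l) * heq + (u l * u l) * hs2
  by_cases hl : u l = 0
  · refine two_supp h.h2 hij (fun m h1 h3 => ?_) huu ?_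
    · by_cases h4 : m = l
      · rw [h4]; exact hl
      · exact (hsup m h1 h3 h4).1
    · rw [hl] at heq
      linear_combination (u i - s1 * u j) * heq + (u j * u j) * hs1
  exfalso
  have hcard := card_le (X := R.erase a) (S := {i, j, l}) (fun x => k⁻¹ (e a) - k⁻¹ (e x))
    (fun y => - k⁻¹ (e y)) (by
      intro x hx y hy
      have hxa : a ≠ x := (Finset.ne_of_mem_erase hx).symm
      have hya : y ≠ a := Finset.ne_of_mem_erase hy
      rw [dotProduct_neg, sub_dotProduct, h.gg, h.gg, if_neg hya]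
      by_cases hxy : x = y
      · subst hxy; simp
      · rw [if_neg (Ne.symm hxy), if_neg hxy]; ring) (by
      intro x hx m hm
      simp only [Finset.mem_insert, Finset.mem_singleton, not_or] at hm
      have hxa : x ≠ a := Finset.ne_of_mem_erase hx
      have hxR : x ∈ R := Finset.mem_of_mem_erase hx
      by_cases hxb : x = b
      · subst hxb
        exact (hsup m hm.1 hm.2.1 hm.2.2).1
      · obtain ⟨i', j', l', hij', hil', hjl', s1', s2', hs1', hs2', hsup', heq'⟩ :=
          h.plane hab (Ne.symm hxa) (Ne.symm hxb) (hRt a ha) (hRt b hb) (hRt x hxR)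
        have hin : ∀ n, u n ≠ 0 → n ∈ ({i', j', l'} : Finset ι) := by
          intro n hn
          by_contra hnn
          simp only [Finset.mem_insert, Finset.mem_singleton, not_or] at hnn
          exact hn (hsup' n hnn.1 hnn.2.1 hnn.2.2).1
        have hsub : ({i, j, l} : Finset ι) ⊆ {i', j', l'} := by
          intro n hn
          simp only [Finset.mem_insert, Finset.mem_singleton] at hn
          rcases hn with rfl | rfl | rfl
          · exact hin _ hi
          · exact hin _ hj
          · exact hin _ hl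
        have hcard3 : ({i, j, l} : Finset ι).card = 3 := Finset.card_eq_three.2 ⟨i, j, l, hij, hil, hjl, rfl⟩
        have heqs : ({i, j, l} : Finset ι) = {i', j', l'} :=
          Finset.eq_of_subset_of_card_le hsub (by rw [hcard3]; exact Finset.card_le_three)
        have hm' : m ∉ ({i', j', l'} : Finset ι) := by
          rw [← heqs]
          simp only [Finset.mem_insert, Finset.mem_singleton, not_or]
          exact hm
        simp only [Finset.mem_insert, Finset.mem_singleton, not_or] at hm'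
        exact (hsup' m hm'.1 hm'.2.1 hm'.2.2).2)
  rw [Finset.card_erase_of_mem ha] at hcard
  have := Finset.card_le_three (a := i) (b := j) (c := l)
  omega

/-- the images of the fixed frame vectors are frame vectors -/
lemma Set'.main {R : Finset ι} (hR : 5 ≤ R.card) (hRt : ∀ a ∈ R, t (e a) = e a) {a : ι} (ha : a ∈ R) :
    ∃ (m : ι) (s : F), s * s = 1 ∧ k⁻¹ (e a) = s • e m := by
  by_contra hcon
  have hcl : ∀ c ∈ R, c ≠ a → ∃ S : Finset ι, S.card ≤ 4 ∧ (∀ m ∈ S, k⁻¹ (e a) m ≠ 0) ∧
      ∀ m, m ∉ S → k⁻¹ (e a : ι → F) m = 0 ∧ k⁻¹ (e c : ι → F) m = 0 := by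
    intro c hc hca
    obtain ⟨p, q, hpq, ε, δ, hε, hδ, h1⟩ := h.diff hR hRt ha hc (Ne.symm hca)
    obtain ⟨b, hb, hbn⟩ : ∃ b ∈ R, b ∉ ({a, c} : Finset ι) :=
      Finset.exists_mem_notMem_of_card_lt_card (lt_of_le_of_lt Finset.card_le_two (by omega))
    simp only [Finset.mem_insert, Finset.mem_singleton, not_or] at hbn
    have hab : a ≠ b := Ne.symm hbn.1
    have hbc : b ≠ c := hbn.2
    have hm := h.sg_mon hab (hRt a ha) (hRt b hb)
    have hap := h.sg_apply hab
    generalize (k⁻¹ * sg a b * k : (ι → F) ≃ₗ[F] (ι → F)) = y at hm hap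
    have hya : y (k⁻¹ (e a)) = - k⁻¹ (e a) := by
      rw [hap, h.gg, h.gg, if_pos rfl, if_neg hab.symm]
      module
    have hyc : y (k⁻¹ (e c)) = k⁻¹ (e c) := by
      rw [hap, h.gg, h.gg, if_neg (Ne.symm hca), if_neg hbc]
      module
    obtain ⟨p', s, hs, hp'⟩ := mon_sgn hm p
    obtain ⟨q', s', hs', hq'⟩ := mon_sgn hm q
    have hpq' : p' ≠ q' := by
      rintro rfl
      exact hpq (inj hs' hp' hq')
    have h1' : k⁻¹ (e a) + k⁻¹ (e c) = (-(ε * s)) • e p' + (-(δ * s')) • e q' := by
      have h3 : y (k⁻¹ (e a) - k⁻¹ (e c)) = y (ε • e p + δ • e q) := by rw [h1]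
      rw [map_sub, hya, hyc, map_add, map_smul, map_smul, hp', hq'] at h3
      have h4 : k⁻¹ (e a) + k⁻¹ (e c) = -(- k⁻¹ (e a) - k⁻¹ (e c) : ι → F) := by abel
      rw [h4, h3]
      module
    have h0 : (k⁻¹ (e a) - k⁻¹ (e c)) ⬝ᵥ (k⁻¹ (e a) + k⁻¹ (e c) : ι → F) = 0 := by
      rw [dotProduct_add, sub_dotProduct, sub_dotProduct, h.gg, h.gg, h.gg, h.gg, if_pos rfl, if_pos rfl,
        if_neg hca, if_neg (Ne.symm hca)]
      ring
    rcases halves h.h2 hpq hpq' hε hδ (by linear_combination (s * s) * hε + hs)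
      (by linear_combination (s' * s') * hδ + hs') h1 h1' h0 with h5 | h5
    · exact absurd h5 hcon
    · exact h5
  classical
  let S : Finset ι := Finset.univ.filter fun m => k⁻¹ (e a : ι → F) m ≠ 0
  have hall : ∀ x ∈ R, ∀ m, m ∉ S → k⁻¹ (e x : ι → F) m = 0 := by
    intro x hx m hm
    have hm' : k⁻¹ (e a : ι → F) m = 0 := by
      by_contra h1
      exact hm (Finset.mem_filter.2 ⟨Finset.mem_univ _, h1⟩)
    by_cases hxa : x = a
    · rw [hxa]; exact hm'
    · obtain ⟨T, hT4, hT1, hT2⟩ := hcl x hx hxa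
      have : m ∉ T := fun h1 => hT1 m h1 hm'
      exact (hT2 m this).2
  have hS4 : S.card ≤ 4 := by
    obtain ⟨c, hc, hcn⟩ : ∃ c ∈ R, c ∉ ({a} : Finset ι) :=
      Finset.exists_mem_notMem_of_card_lt_card (by rw [Finset.card_singleton]; omega)
    obtain ⟨T, hT4, hT1, hT2⟩ := hcl c hc (by simpa using hcn)
    refine le_trans (Finset.card_le_card ?_) hT4
    intro m hm
    by_contra hmT
    exact (Finset.mem_filter.1 hm).2 (hT2 m hmT).1
  have := card_le (X := R) (S := S) (fun x => k⁻¹ (e x)) (fun x => k⁻¹ (e x)) (by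
    intro x _ y _
    rw [h.gg]
    simp only [eq_comm]) hall
  omega

end

/-- a monomial element conjugate to `sg i j` moves at most four frame vectors -/
lemma moved_le (h2 : (2:F) ≠ 0) {k : (ι → F) ≃ₗ[F] (ι → F)} {i j : ι} (hij : i ≠ j)
    (hm : Mon (k * sg i j * k⁻¹)) {T : Finset ι} (hT : ∀ a ∈ T, (k * sg i j * k⁻¹ : (ι → F) ≃ₗ[F] (ι → F)) (e a) ≠ e a) :
    T.card ≤ 4 := by
  by_contra hcon
  have htt : ∀ v, (k * sg i j * k⁻¹ : (ι → F) ≃ₗ[F] (ι → F)) ((k * sg i j * k⁻¹ : (ι → F) ≃ₗ[F] (ι → F)) v) = v := by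
    intro v
    show k (sg i j (k⁻¹ (k (sg i j (k⁻¹ v))))) = v
    have e1 : k⁻¹ (k (sg i j (k⁻¹ v))) = sg i j (k⁻¹ v) := k.symm_apply_apply _
    have e2 : sg i j (sg i j (k⁻¹ v)) = k⁻¹ v := sgm_sgm i j _
    rw [e1, e2]
    exact k.apply_symm_apply _
  have hsp : ∀ v, ∃ α β : F, (k * sg i j * k⁻¹ : (ι → F) ≃ₗ[F] (ι → F)) v - v = α • k (e i) + β • k (e j) := by
    intro v
    refine ⟨-(2 * (k⁻¹ v) i), -(2 * (k⁻¹ v) j), ?_⟩
    show k (sg i j (k⁻¹ v)) - v = _
    rw [sg_formula hij, map_sub, map_sub, map_smul, map_smul]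
    have e1 : k (k⁻¹ v) = v := k.apply_symm_apply _
    rw [e1]
    module
  generalize (k * sg i j * k⁻¹ : (ι → F) ≃ₗ[F] (ι → F)) = t at *
  have hpair : ∀ {a b a' b' : ι} {s s' : F}, s * s = 1 → s' * s' = 1 → t (e a) = s • e a' → t (e b) = s' • e b' →
      b' = a → b = a' := by
    rintro a b a' b' s s' hs hs' ha hb rfl
    have h1 := htt (e b)
    rw [hb, map_smul, ha, smul_smul] at h1
    exact e_eq h1.symm
  obtain ⟨a, haT⟩ : ∃ a, a ∈ T := by
    have : T.Nonempty := Finset.card_pos.1 (by omega)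
    exact this
  obtain ⟨a', s, hs, hta⟩ := mon_sgn hm a
  obtain ⟨b, hbT, hb⟩ : ∃ b ∈ T, b ∉ ({a, a'} : Finset ι) :=
    Finset.exists_mem_notMem_of_card_lt_card (lt_of_le_of_lt Finset.card_le_two (by omega))
  simp only [Finset.mem_insert, Finset.mem_singleton, not_or] at hb
  obtain ⟨b', s', hs', htb⟩ := mon_sgn hm b
  obtain ⟨c, hcT, hc⟩ : ∃ c ∈ T, c ∉ ({a, a', b, b'} : Finset ι) :=
    Finset.exists_mem_notMem_of_card_lt_card (lt_of_le_of_lt Finset.card_le_four (by omega))
  simp only [Finset.mem_insert, Finset.mem_singleton, not_or] at hc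
  obtain ⟨c', s'', hs'', htc⟩ := mon_sgn hm c
  have hb'a : a ≠ b' := fun h => hb.2 (hpair hs hs' hta htb h.symm)
  have hc'a : a ≠ c' := fun h => hc.2.1 (hpair hs hs'' hta htc h.symm)
  have hc'b : b ≠ c' := fun h => hc.2.2.2 (hpair hs' hs'' htb htc h.symm)
  have := rank2 (hsp (e a)) (hsp (e b)) (hsp (e c)) (i := a) (l := b) (m := c)
    (by rw [hta]; simp [e_apply, hb.1, hb.2])
    (by rw [hta]; simp [e_apply, hc.1, hc.2.1])
    (by rw [htb]; simp [e_apply, hb'a, Ne.symm hb.1])
    (by rw [htb]; simp [e_apply, hc.2.2.1, hc.2.2.2])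
    (by rw [htc]; simp [e_apply, hc'a, Ne.symm hc.1])
    (by rw [htc]; simp [e_apply, hc'b, Ne.symm hc.2.2.1])
  have hnz : ∀ {x x' : ι} {r : F}, r * r = 1 → t (e x) = r • e x' → t (e x) ≠ e x → (t (e x) - e x : ι → F) x ≠ 0 := by
    intro x x' r hr hx hne
    by_cases h1 : x = x'
    · subst h1
      rcases sgn hr with rfl | rfl
      · exact absurd (by rw [hx, one_smul]) hne
      · rw [hx]
        simp only [Pi.sub_apply, Pi.smul_apply, e_self, smul_eq_mul]
        intro h3
        apply h2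
        linear_combination (-1 : F) * h3
    · rw [hx]
      simp [e_apply, h1]
  exact mul_ne_zero (mul_ne_zero (hnz hs hta (hT a haT)) (hnz hs' htb (hT b hbT))) (hnz hs'' htc (hT c hcT)) this

/-- `P2`, with `step0` as a hypothesis -/
theorem t2_big' (hstep : ∀ g ∈ K, ∀ I : Finset ι, 2 ≤ I.card →
      (∀ j, j ∉ I → ∃ k, g (e j) = e k ∨ g (e j) = - e k) → (∀ x ∈ K, Sup x I → Mon x) → Mon g)
    (D : Dat K) (h2 : (2:F) ≠ 0) (hr : MonLe K 4) (hc : C2 K) (hN : 9 ≤ Fintype.card ι) : T2' K := by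
  classical
  intro k hk i j hij hm hd
  set t := k * sg i j * k⁻¹ with ht
  have hsgK : sg i j ∈ K := D.sg i j hij
  have htK : t ∈ K := K.mul_mem (K.mul_mem hk hsgK) (K.inv_mem hk)
  have hset : Set' K k t := by
    refine ⟨D, h2, hk, htK, ?_⟩
    intro x hx hxt
    refine hc _ (K.mul_mem (K.mul_mem (K.inv_mem hk) hx) hk) i j hij ?_
    have e1 : k⁻¹ * x * k * sg i j = k⁻¹ * (x * t) * k := by rw [ht]; group
    have e2 : sg i j * (k⁻¹ * x * k) = k⁻¹ * (t * x) * k := by rw [ht]; group
    rw [e1, e2, hxt]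
  let R : Finset ι := Finset.univ.filter fun a => t (e a) = e a
  have hRt : ∀ a ∈ R, t (e a) = e a := fun a ha => (Finset.mem_filter.1 ha).2
  have hRc : ∀ a ∈ Rᶜ, t (e a) ≠ e a := by
    intro a ha h
    exact Finset.mem_compl.1 ha (Finset.mem_filter.2 ⟨Finset.mem_univ _, h⟩)
  have h4 : Rᶜ.card ≤ 4 := moved_le h2 hij hm hRc
  have h5 : 5 ≤ R.card := by
    have := Finset.card_add_card_compl R
    omega
  have h6 : 2 ≤ Rᶜ.card := by
    unfold Dia at hd
    push Not at hd
    obtain ⟨a, ha1, ha2⟩ := hd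
    obtain ⟨b, s, hs, hb⟩ := mon_sgn hm a
    have hab : a ≠ b := by
      rintro rfl
      rcases sgn hs with rfl | rfl
      · exact ha1 (by rw [hb, one_smul])
      · exact ha2 (by rw [hb, neg_one_smul])
    have hbR : b ∈ Rᶜ := by
      rw [Finset.mem_compl]
      intro hbR
      have h7 : t (e b) = (1:F) • e b := by rw [one_smul]; exact hRt b hbR
      exact hab (inj (by ring) hb h7)
    have haR : a ∈ Rᶜ := by
      rw [Finset.mem_compl]
      intro haR
      exact ha1 (hRt a haR)
    have : ({a, b} : Finset ι) ⊆ Rᶜ := by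
      intro x hx
      simp only [Finset.mem_insert, Finset.mem_singleton] at hx
      rcases hx with rfl | rfl
      · exact haR
      · exact hbR
    calc 2 = ({a, b} : Finset ι).card := (Finset.card_pair hab).symm
      _ ≤ _ := Finset.card_le_card this
  have hinv : Mon k⁻¹ := by
    refine hstep k⁻¹ (K.inv_mem hk) Rᶜ h6 ?_ (fun x hx hs => hr x hx _ h4 hs)
    intro a ha
    rw [Finset.mem_compl, not_not] at ha
    obtain ⟨m, s, hs, h7⟩ := hset.main h5 hRt ha
    refine ⟨m, ?_⟩
    rcases sgn hs with rfl | rfl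
    · left; rw [h7, one_smul]
    · right; rw [h7, neg_one_smul]
  have := mon_inv hinv
  rwa [inv_inv] at this

end H78.FrT2
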