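import Cfsg.Agent.Lib.H78.FrT2
import Cfsg.Agent.Lib.H41.FrP1a

/-! Frame stabilisers, P2: `T2'` in dimension at least nine. -/

set_option autoImplicit false
open Matrix H96.Fr

namespace H78.FrT2

variable {ι F : Type*} [Fintype ι] [DecidableEq ι] [Field F] {K : Subgroup ((ι → F) ≃ₗ[F] (ι → F))}

theorem t2_big (D : Dat K) (h2 : (2:F) ≠ 0) (hr : MonLe K 4) (hc : C2 K) (hN : 9 ≤ Fintype.card ι) : T2' K :=
  t2_big' (fun _ hg _ hI h hm => H41.FrP1a.step0 D h2 hg hI h hm) D h2 hr hc hN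

end H78.FrT2
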