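import Cfsg.Agent.Lib.H96.FrDef

/-! Frame stabilisers: dimension counts, monomial elements of order 3. -/

set_option autoImplicit false
open Matrix H96.Fr

namespace H78.FrT2

variable {ι F : Type*} [Fintype ι] [DecidableEq ι] [Field F] {K : Subgroup ((ι → F) ≃ₗ[F] (ι → F))}

/-- dimension count -/
lemma card_le {X S : Finset ι} (v w : ι → ι → F)
    (hd : ∀ x ∈ X, ∀ y ∈ X, v x ⬝ᵥ w y = if x = y then 1 else 0)
    (hs : ∀ x ∈ X, ∀ i, i ∉ S → v x i = 0) : X.card ≤ S.card := by
  let Φ : (X → F) →ₗ[F] (S → F) :=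
    { toFun := fun c i => ∑ x : X, c x * v x i
      map_add' := by intro c d; funext i; simp [add_mul, Finset.sum_add_distrib]
      map_smul' := by intro r c; funext i; simp [Finset.mul_sum, mul_assoc] }
  have hinj : Function.Injective Φ := by
    rw [← LinearMap.ker_eq_bot, LinearMap.ker_eq_bot']
    intro c hc
    have h0 : ∀ i : ι, ∑ x : X, c x * v x i = 0 := by
      intro i
      by_cases hi : i ∈ S
      · exact congrFun hc ⟨i, hi⟩
      · apply Finset.sum_eq_zero
        intro x _
        rw [hs x x.2 i hi, mul_zero]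
    funext y
    have h1 : ∑ x : X, c x * (v x ⬝ᵥ w y) = 0 := by
      have : ∑ x : X, c x * (v x ⬝ᵥ w y) = ∑ i, (∑ x : X, c x * v x i) * w y i := by
        simp only [dotProduct, Finset.mul_sum, Finset.sum_mul]
        rw [Finset.sum_comm]
        refine Finset.sum_congr rfl fun i _ => Finset.sum_congr rfl fun x _ => by ring
      rw [this]
      exact Finset.sum_eq_zero fun i _ => by rw [h0 i, zero_mul]
    have h2 : ∀ x : X, c x * (v x ⬝ᵥ w y) = if x = y then c x else 0 := by
      intro x
      rw [hd x x.2 y y.2]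
      by_cases h : x = y
      · subst h; simp
      · have : (x : ι) ≠ y := fun h' => h (Subtype.ext h')
        simp [h, this]
    rw [Finset.sum_congr rfl fun x _ => h2 x] at h1
    simpa using h1
  have := LinearMap.finrank_le_finrank_of_injective hinj
  simpa using this

lemma e_apply (i j : ι) : (e i : ι → F) j = if j = i then 1 else 0 := by
  simp [e, Pi.single_apply]

lemma e_self (i : ι) : (e i : ι → F) i = 1 := by rw [e_apply, if_pos rfl]

lemma e_ne {i j : ι} (h : j ≠ i) : (e i : ι → F) j = 0 := by rw [e_apply, if_neg h]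

lemma dot_e (x : ι → F) (i : ι) : x ⬝ᵥ e i = x i := by
  simp [e]

lemma e_dot (x : ι → F) (i : ι) : e i ⬝ᵥ x = x i := by
  simp [e]

lemma expand (x : ι → F) : x = ∑ i, x i • (e i : ι → F) := by
  funext j
  simp [e_apply]

/-- rank two -/
lemma rank2 {p q A B C : ι → F} (hA : ∃ α β : F, A = α • p + β • q)
    (hB : ∃ α β : F, B = α • p + β • q) (hC : ∃ α β : F, C = α • p + β • q) {i l m : ι}
    (hAl : A l = 0) (hAm : A m = 0) (hBi : B i = 0) (hBm : B m = 0) (hCi : C i = 0) (hCl : C l = 0) :
    A i * B l * C m = 0 := by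
  obtain ⟨a1, b1, hA⟩ := hA
  obtain ⟨a2, b2, hB⟩ := hB
  obtain ⟨a3, b3, hC⟩ := hC
  have key : A i * (B l * C m - B m * C l) - A l * (B i * C m - B m * C i)
      + A m * (B i * C l - B l * C i) = 0 := by
    rw [hA, hB, hC]
    simp only [Pi.add_apply, Pi.smul_apply, smul_eq_mul]
    ring
  rw [hAl, hAm, hBm] at key
  linear_combination key

lemma sgn {s : F} (h : s * s = 1) : s = 1 ∨ s = -1 := by
  have : (s - 1) * (s + 1) = 0 := by linear_combination h
  rcases mul_eq_zero.1 this with h | h
  · left; linear_combination h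
  · right; linear_combination h

lemma mon_sgn {g : (ι → F) ≃ₗ[F] (ι → F)} (hg : Mon g) (i : ι) : ∃ (j : ι) (s : F), s * s = 1 ∧ g (e i) = s • e j := by
  obtain ⟨j, h | h⟩ := hg i
  · exact ⟨j, 1, by ring, by rw [h, one_smul]⟩
  · exact ⟨j, -1, by ring, by rw [h, neg_one_smul]⟩

lemma e_eq {i j : ι} {s : F} (h : (e i : ι → F) = s • e j) : i = j := by
  by_contra hne
  have := congrFun h i
  rw [e_self, Pi.smul_apply, e_ne hne, smul_zero] at this
  exact one_ne_zero this

/-- if `g e_i = s e_n`, `g e_j = s' e_n` then `i = j` -/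
lemma inj {g : (ι → F) ≃ₗ[F] (ι → F)} {i j n : ι} {s s' : F} (hs' : s' * s' = 1)
    (h : g (e i) = s • e n) (h' : g (e j) = s' • e n) : i = j := by
  have h1 : g (e i) = g ((s * s') • e j) := by
    rw [map_smul, h', smul_smul, h]
    congr 1
    linear_combination (-s) * hs'
  exact e_eq (g.injective h1)

lemma ext_e {g : (ι → F) ≃ₗ[F] (ι → F)} (h : ∀ i, g (e i) = e i) : g = 1 := by
  ext x : 1
  rw [expand x, map_sum]
  show ∑ i, g (x i • e i) = ∑ i, x i • e i
  refine Finset.sum_congr rfl fun i _ => ?_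
  rw [map_smul, h i]

/-- monomial isometries of order 3 with small commutator space are signed 3-cycles -/
lemma order3 (h2 : (2:F) ≠ 0) {y : (ι → F) ≃ₗ[F] (ι → F)} (hm : Mon y) (hi : Iso y)
    (h3 : ∀ v, y (y (y v)) = v) (hne : y ≠ 1) {p q : ι → F}
    (hpq : ∀ v, ∃ α β : F, y v - v = α • p + β • q) :
    ∃ i j l : ι, i ≠ j ∧ i ≠ l ∧ j ≠ l ∧ ∃ s1 s2 : F, s1 * s1 = 1 ∧ s2 * s2 = 1 ∧
      ∀ v, (∀ m, m ≠ i → m ≠ j → m ≠ l → (y v - v) m = 0) ∧
        (y v - v) i + s1 * (y v - v) j + s2 * (y v - v) l = 0 := by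
  have hex : ∃ i, y (e i) ≠ e i := by
    by_contra h
    push Not at h
    exact hne (ext_e h)
  obtain ⟨i, hyi⟩ := hex
  obtain ⟨j, s, hs, hy⟩ := mon_sgn hm i
  have hij : i ≠ j := by
    rintro rfl
    rcases sgn hs with rfl | rfl
    · exact hyi (by rw [hy, one_smul])
    · have := h3 (e i)
      rw [hy, map_smul, hy, map_smul, map_smul, hy] at this
      have h4 := congrFun this i
      simp only [Pi.smul_apply, e_self, smul_eq_mul] at h4
      apply h2
      linear_combination (-1 : F) * h4
  obtain ⟨l, s', hs', hy'⟩ := mon_sgn hm j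
  have hlj : j ≠ l := by
    rintro rfl
    exact hij (inj hs' hy hy')
  have hil : i ≠ l := by
    rintro rfl
    have := h3 (e i)
    rw [hy, map_smul, hy', map_smul, map_smul, hy] at this
    have h4 := congrFun this i
    simp only [Pi.smul_apply, e_self, smul_eq_mul, e_ne hij, mul_zero] at h4
    exact zero_ne_one h4
  have hyl : y (e l) = (s * s') • e i := by
    have := h3 (e i)
    rw [hy, map_smul, hy', map_smul, map_smul, smul_smul] at this
    rw [← this, smul_smul]
    have : s * s' * (s * s') = 1 := by linear_combination (s' * s') * hs + hs'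
    rw [this, one_smul]
  have hfix : ∀ m, m ≠ i → m ≠ j → m ≠ l → y (e m) = e m := by
    intro m hmi hmj hml
    by_contra hcon
    obtain ⟨n, r, hr, hn⟩ := mon_sgn hm m
    have hnj : n ≠ j := by
      rintro rfl; exact hmi (inj hs hn hy)
    have hnl : n ≠ l := by
      rintro rfl; exact hmj (inj hs' hn hy')
    have hni : n ≠ i := by
      rintro rfl
      exact hml (inj (by linear_combination (s' * s') * hs + hs') hn hyl)
    have hA := hpq (e i)
    have hB := hpq (e j)
    have hC := hpq (e m)
    have := rank2 hA hB hC (i := i) (l := l) (m := m)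
      (by rw [hy]; simp [e_apply, hlj.symm, hil.symm])
      (by rw [hy]; simp [e_apply, hmj, hmi])
      (by rw [hy']; simp [e_apply, hil, hij])
      (by rw [hy']; simp [e_apply, hml, hmj])
      (by rw [hn]; simp [e_apply, hni.symm, hmi.symm])
      (by rw [hn]; simp [e_apply, hnl.symm, hml.symm])
    have h1 : (y (e i) - e i : ι → F) i ≠ 0 := by
      rw [hy]; simp [e_apply, hij]
    have h4 : (y (e j) - e j : ι → F) l ≠ 0 := by
      rw [hy']; simp only [Pi.sub_apply, Pi.smul_apply, e_self, e_ne hlj.symm, smul_eq_mul, mul_one, sub_zero]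
      rintro rfl
      simp at hs'
    have h5 : (y (e m) - e m : ι → F) m ≠ 0 := by
      rw [hn]
      by_cases hnm : n = m
      · subst hnm
        simp only [Pi.sub_apply, Pi.smul_apply, e_self, smul_eq_mul, mul_one]
        rcases sgn hr with rfl | rfl
        · exact absurd (by rw [hn, one_smul]) hcon
        · intro h; apply h2; linear_combination (-1 : F) * h
      · simp [e_apply, Ne.symm hnm]
    exact mul_ne_zero (mul_ne_zero h1 h4) h5 this
  refine ⟨i, j, l, hij, hil, hlj, s, s * s', hs, by linear_combination (s' * s') * hs + hs', ?_⟩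
  intro v
  refine ⟨?_, ?_⟩
  · intro m hmi hmj hml
    have h4 := hi v (e m)
    rw [hfix m hmi hmj hml, dot_e, dot_e] at h4
    rw [Pi.sub_apply, h4, sub_self]
  · have hw : y (e i + s • e j + (s * s') • e l) = e i + s • e j + (s * s') • e l := by
      rw [map_add, map_add, map_smul, map_smul, hy, hy', hyl, smul_smul, smul_smul]
      have : s * s' * (s * s') = 1 := by linear_combination (s' * s') * hs + hs'
      rw [this, one_smul]
      abel
    have h4 := hi v (e i + s • e j + (s * s') • e l)
    rw [hw] at h4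
    simp only [dotProduct_add, dotProduct_smul, dot_e, smul_eq_mul] at h4
    simp only [Pi.sub_apply]
    linear_combination h4

end H78.FrT2
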