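import Cfsg.Agent.Lib.H78.FrT2a

/-! Frame stabilisers: conjugates of sign changes and 3-cycles. -/

set_option autoImplicit false
open Matrix H96.Fr

namespace H78.FrT2

variable {ι F : Type*} [Fintype ι] [DecidableEq ι] [Field F] {K : Subgroup ((ι → F) ≃ₗ[F] (ι → F))}

lemma sg_formula {a b : ι} (hab : a ≠ b) (x : ι → F) :
    sg a b x = x - (2 * x a) • e a - (2 * x b) • e b := by
  funext k
  rw [sg_apply]
  simp only [Pi.sub_apply, Pi.smul_apply, e_apply, smul_eq_mul]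
  by_cases h1 : k = a
  · subst h1
    simp [hab]; ring
  · by_cases h2 : k = b
    · subst h2
      simp [h1]; ring
    · simp [h1, h2]

/-- the 3-cycle `a → b → c → a` -/
def cyc (a b c : ι) : Equiv.Perm ι := Equiv.swap a b * Equiv.swap b c

lemma cyc_sign {a b c : ι} (hab : a ≠ b) (hbc : b ≠ c) : Equiv.Perm.sign (cyc a b c) = 1 := by
  rw [cyc, Equiv.Perm.sign_mul, Equiv.Perm.sign_swap hab, Equiv.Perm.sign_swap hbc]
  decide

lemma cyc_a {a b c : ι} (hab : a ≠ b) (hac : a ≠ c) : cyc a b c a = b := by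
  rw [cyc, Equiv.Perm.mul_apply, Equiv.swap_apply_of_ne_of_ne hab hac, Equiv.swap_apply_left]

lemma cyc_b {a b c : ι} (hac : a ≠ c) (hbc : b ≠ c) : cyc a b c b = c := by
  rw [cyc, Equiv.Perm.mul_apply, Equiv.swap_apply_left, Equiv.swap_apply_of_ne_of_ne hac.symm hbc.symm]

lemma cyc_c {a b c : ι} : cyc a b c c = a := by
  rw [cyc, Equiv.Perm.mul_apply, Equiv.swap_apply_right, Equiv.swap_apply_right]

lemma cyc_o {a b c m : ι} (ha : m ≠ a) (hb : m ≠ b) (hc : m ≠ c) : cyc a b c m = m := by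
  rw [cyc, Equiv.Perm.mul_apply, Equiv.swap_apply_of_ne_of_ne hb hc, Equiv.swap_apply_of_ne_of_ne ha hb]

lemma lin_ext {g : (ι → F) ≃ₗ[F] (ι → F)} {f : (ι → F) →ₗ[F] (ι → F)} (h : ∀ i, g (e i) = f (e i)) (x : ι → F) :
    g x = f x := by
  rw [expand x, map_sum, map_sum]
  refine Finset.sum_congr rfl fun i _ => ?_
  rw [map_smul, map_smul, h i]

lemma pm_formula {a b c : ι} (hab : a ≠ b) (hac : a ≠ c) (hbc : b ≠ c) (x : ι → F) :
    pm (cyc a b c) x = x - x a • (e a - e b) - x b • (e b - e c) - x c • (e c - e a) := by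
  let f : (ι → F) →ₗ[F] (ι → F) :=
    { toFun := fun x => x - x a • (e a - e b) - x b • (e b - e c) - x c • (e c - e a)
      map_add' := by
        intro x y
        simp only [Pi.add_apply]
        module
      map_smul' := by
        intro r x
        simp only [Pi.smul_apply, smul_eq_mul, RingHom.id_apply]
        module }
  refine lin_ext (f := f) ?_ x
  intro i
  show pm (cyc a b c) (e i : ι → F) = e i - (e i : ι → F) a • (e a - e b) - (e i : ι → F) b • (e b - e c) -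
    (e i : ι → F) c • (e c - e a)
  rw [pm_e]
  by_cases h1 : i = a
  · subst h1
    rw [cyc_a hab hac, e_self, e_ne hab.symm, e_ne hac.symm]
    module
  · by_cases h2 : i = b
    · subst h2
      rw [cyc_b hac hbc, e_self, e_ne hab, e_ne hbc.symm]
      module
    · by_cases h3 : i = c
      · subst h3
        rw [cyc_c, e_self, e_ne hac, e_ne hbc]
        module
      · rw [cyc_o h1 h2 h3, e_ne (Ne.symm h1), e_ne (Ne.symm h2), e_ne (Ne.symm h3)]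
        module

/-- `k` and `t = k d k⁻¹` -/
structure Set' (K : Subgroup ((ι → F) ≃ₗ[F] (ι → F))) (k t : (ι → F) ≃ₗ[F] (ι → F)) : Prop where
  D : Dat K
  h2 : (2:F) ≠ 0
  hk : k ∈ K
  ht : t ∈ K
  cen : ∀ x ∈ K, x * t = t * x → Mon (k⁻¹ * x * k)

lemma iso_inv {g : (ι → F) ≃ₗ[F] (ι → F)} (hg : Iso g) : Iso g⁻¹ := by
  intro x y
  have := hg (g⁻¹ x) (g⁻¹ y)
  have h1 : ∀ z, g (g⁻¹ z) = z := fun z => g.apply_symm_apply z
  rw [h1, h1] at this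
  exact this.symm

lemma inv_dot {g : (ι → F) ≃ₗ[F] (ι → F)} (hg : Iso g) (x y : ι → F) : g⁻¹ x ⬝ᵥ y = x ⬝ᵥ g y := by
  have := hg (g⁻¹ x) y
  have h1 : ∀ z, g (g⁻¹ z) = z := fun z => g.apply_symm_apply z
  rw [h1] at this
  exact this.symm

lemma fix_coord {t : (ι → F) ≃ₗ[F] (ι → F)} (ht : Iso t) {a : ι} (ha : t (e a) = e a) (x : ι → F) :
    t x a = x a := by
  have := ht x (e a)
  rwa [ha, dot_e, dot_e] at this

section
variable {k t : (ι → F) ≃ₗ[F] (ι → F)} (h : Set' K k t)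
include h

lemma Set'.kiso : Iso k := h.D.iso k h.hk

lemma Set'.tiso : Iso t := h.D.iso t h.ht

lemma Set'.gg (a b : ι) : k⁻¹ (e a) ⬝ᵥ k⁻¹ (e b) = if b = a then 1 else 0 := by
  rw [iso_inv h.kiso, e_dot, e_apply]
  simp only [eq_comm]

lemma Set'.coord (v : ι → F) (a : ι) : k v a = v ⬝ᵥ k⁻¹ (e a) := by
  rw [dotProduct_comm, inv_dot h.kiso, e_dot]

lemma Set'.comm_sg {a b : ι} (hab : a ≠ b) (ha : t (e a) = e a) (hb : t (e b) = e b) :
    sg a b * t = t * sg a b := by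
  ext x : 1
  show sg a b (t x) = t (sg a b x)
  rw [sg_formula hab, sg_formula hab, map_sub, map_sub, map_smul, map_smul, ha, hb,
    fix_coord h.tiso ha, fix_coord h.tiso hb]

lemma Set'.comm_pm {a b c : ι} (hab : a ≠ b) (hac : a ≠ c) (hbc : b ≠ c) (ha : t (e a) = e a)
    (hb : t (e b) = e b) (hc : t (e c) = e c) :
    pm (cyc a b c) * t = t * pm (cyc a b c) := by
  ext x : 1
  show pm (cyc a b c) (t x) = t (pm (cyc a b c) x)
  rw [pm_formula hab hac hbc, pm_formula hab hac hbc]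
  simp only [map_sub, map_smul]
  rw [ha, hb, hc, fix_coord h.tiso ha, fix_coord h.tiso hb, fix_coord h.tiso hc]

/-- the conjugate of `sg a b` -/
lemma Set'.sg_mon {a b : ι} (hab : a ≠ b) (ha : t (e a) = e a) (hb : t (e b) = e b) :
    Mon (k⁻¹ * sg a b * k) :=
  h.cen _ (h.D.sg a b hab) (h.comm_sg hab ha hb)

lemma Set'.sg_apply {a b : ι} (hab : a ≠ b) (v : ι → F) :
    (k⁻¹ * sg a b * k : (ι → F) ≃ₗ[F] (ι → F)) v = v - (2 * (v ⬝ᵥ k⁻¹ (e a))) • k⁻¹ (e a) - (2 * (v ⬝ᵥ k⁻¹ (e b))) • k⁻¹ (e b) := by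
  show k⁻¹ (sg a b (k v)) = _
  rw [sg_formula hab, map_sub, map_sub, map_smul, map_smul, h.coord, h.coord]
  congr 2
  exact k.symm_apply_apply v

lemma Set'.pm_apply {a b c : ι} (hab : a ≠ b) (hac : a ≠ c) (hbc : b ≠ c) (v : ι → F) :
    (k⁻¹ * pm (cyc a b c) * k : (ι → F) ≃ₗ[F] (ι → F)) v = v - (v ⬝ᵥ k⁻¹ (e a)) • (k⁻¹ (e a) - k⁻¹ (e b)) -
      (v ⬝ᵥ k⁻¹ (e b)) • (k⁻¹ (e b) - k⁻¹ (e c)) - (v ⬝ᵥ k⁻¹ (e c)) • (k⁻¹ (e c) - k⁻¹ (e a)) := by
  show k⁻¹ (pm (cyc a b c) (k v)) = _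
  rw [pm_formula hab hac hbc]
  simp only [map_sub, map_smul]
  rw [h.coord, h.coord, h.coord]
  congr 3
  exact k.symm_apply_apply v

/-- the planes -/
lemma Set'.plane {a b c : ι} (hab : a ≠ b) (hac : a ≠ c) (hbc : b ≠ c) (ha : t (e a) = e a)
    (hb : t (e b) = e b) (hc : t (e c) = e c) :
    ∃ i j l : ι, i ≠ j ∧ i ≠ l ∧ j ≠ l ∧ ∃ s1 s2 : F, s1 * s1 = 1 ∧ s2 * s2 = 1 ∧
      (∀ m, m ≠ i → m ≠ j → m ≠ l → (k⁻¹ (e a) - k⁻¹ (e b)) m = 0 ∧ (k⁻¹ (e a) - k⁻¹ (e c)) m = 0) ∧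
        (k⁻¹ (e a) - k⁻¹ (e b)) i + s1 * (k⁻¹ (e a) - k⁻¹ (e b)) j + s2 * (k⁻¹ (e a) - k⁻¹ (e b)) l = 0 := by
  set y := k⁻¹ * pm (cyc a b c) * k with hy
  have hpK : pm (cyc a b c) ∈ K := h.D.pm _ (cyc_sign hab hbc)
  have hyK : y ∈ K := K.mul_mem (K.mul_mem (K.inv_mem h.hk) hpK) h.hk
  have hm : Mon y := h.cen _ hpK (h.comm_pm hab hac hbc ha hb hc)
  have hap := h.pm_apply hab hac hbc
  rw [← hy] at hap
  have hya : y (k⁻¹ (e a)) = k⁻¹ (e b) := by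
    rw [hap, h.gg, h.gg, h.gg, if_pos rfl, if_neg hab.symm, if_neg hac.symm]
    module
  have hyb : y (k⁻¹ (e b)) = k⁻¹ (e c) := by
    rw [hap, h.gg, h.gg, h.gg, if_pos rfl, if_neg hab, if_neg hbc.symm]
    module
  have hyc : y (k⁻¹ (e c)) = k⁻¹ (e a) := by
    rw [hap, h.gg, h.gg, h.gg, if_pos rfl, if_neg hac, if_neg hbc]
    module
  have hg : ∀ x z : ι, x ≠ z → k⁻¹ (e x : ι → F) ≠ k⁻¹ (e z) := by
    intro x z hxz he
    have h1 : (e x : ι → F) = (1:F) • e z := by rw [one_smul]; exact (k⁻¹).injective he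
    exact hxz (e_eq h1)
  have h3 : ∀ v, y (y (y v)) = v := by
    intro v
    have h1 : y (y v) = v - (v ⬝ᵥ k⁻¹ (e a)) • (k⁻¹ (e a) - k⁻¹ (e c)) -
      (v ⬝ᵥ k⁻¹ (e b)) • (k⁻¹ (e b) - k⁻¹ (e a)) - (v ⬝ᵥ k⁻¹ (e c)) • (k⁻¹ (e c) - k⁻¹ (e b)) := by
      rw [hap v]
      simp only [map_sub, map_smul, hya, hyb, hyc]
      rw [hap v]
      module
    rw [h1]
    simp only [map_sub, map_smul, hya, hyb, hyc]
    rw [hap v]
    module
  have hne : y ≠ 1 := by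
    intro h1
    rw [h1] at hya
    exact hg a b hab hya
  obtain ⟨i, j, l, hij, hil, hjl, s1, s2, hs1, hs2, hv⟩ := order3 h.h2 hm (h.D.iso y hyK) h3 hne
    (p := k⁻¹ (e a) - k⁻¹ (e b)) (q := k⁻¹ (e b) - k⁻¹ (e c)) (by
      intro v
      refine ⟨- (v ⬝ᵥ k⁻¹ (e a)) + (v ⬝ᵥ k⁻¹ (e c)), - (v ⬝ᵥ k⁻¹ (e b)) + (v ⬝ᵥ k⁻¹ (e c)), ?_⟩
      rw [hap v]
      module)
  refine ⟨i, j, l, hij, hil, hjl, s1, s2, hs1, hs2, ?_, ?_⟩
  · intro m h1 h2 h3
    have e1 := (hv (k⁻¹ (e a))).1 m h1 h2 h3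
    have e2 := (hv (k⁻¹ (e c))).1 m h1 h2 h3
    rw [hya] at e1
    rw [hyc] at e2
    simp only [Pi.sub_apply] at e1 e2 ⊢
    exact ⟨by linear_combination (-1 : F) * e1, e2⟩
  · have e1 := (hv (k⁻¹ (e a))).2
    rw [hya] at e1
    simp only [Pi.sub_apply] at e1 ⊢
    linear_combination (-1 : F) * e1

end

end H78.FrT2
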