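import Mathlib
import Cfsg.Agent.Lib.H84.GP1

/-!
# Generalized characters of abelian `p`-groups with values integers times integral units
-/

set_option autoImplicit false
set_option linter.unusedSectionVars false
set_option linter.unusedVariables false
set_option linter.style.haveILetI false

universe v

namespace H78.GPure

open Cfsg H5.PBb H18.CharOrtho H18.CharBasic H84.FR H84.GP
open scoped ComplexConjugate
attribute [local instance 2000] Fintype.ofFinite

open scoped Classical in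
/-- sums over cyclic subgroups -/
theorem sum_mem_zmultiples {X : Type*} [Group X] [Finite X] (g : X → ℂ) (N : ℂ)
    (hC : ∀ χ : X, (∑ ψ ∈ Finset.univ.filter (fun ψ => ψ ∈ Subgroup.zpowers χ), g ψ) ∈ AddSubgroup.zmultiples N)
    (m : X → ℤ) (hm : ∀ χ ψ : X, Subgroup.zpowers χ = Subgroup.zpowers ψ → m χ = m ψ) :
    (∑ χ : X, (m χ : ℂ) * g χ) ∈ AddSubgroup.zmultiples N := by
  classical
  set P : Subgroup X → ℂ := fun C => ∑ χ ∈ Finset.univ.filter (fun χ : X => Subgroup.zpowers χ = C), g χ with hP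
  have key : ∀ C : Subgroup X, P C ∈ AddSubgroup.zmultiples N := by
    intro C
    induction C using WellFoundedLT.induction with
    | ind C ih =>
    by_cases h : ∃ χ, Subgroup.zpowers χ = C
    · obtain ⟨χ, rfl⟩ := h
      have h1 := hC χ
      have h2 : (∑ ψ ∈ Finset.univ.filter (fun ψ => ψ ∈ Subgroup.zpowers χ), g ψ) =
          ∑ D : Subgroup X, ∑ ψ ∈ (Finset.univ.filter (fun ψ => ψ ∈ Subgroup.zpowers χ)).filter
            (fun ψ => Subgroup.zpowers ψ = D), g ψ :=
        (Finset.sum_fiberwise (Finset.univ.filter (fun ψ => ψ ∈ Subgroup.zpowers χ))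
          (fun ψ => Subgroup.zpowers ψ) g).symm
      rw [← Finset.add_sum_erase _ _ (Finset.mem_univ (Subgroup.zpowers χ))] at h2
      have h3 : (∑ ψ ∈ (Finset.univ.filter (fun ψ => ψ ∈ Subgroup.zpowers χ)).filter
            (fun ψ => Subgroup.zpowers ψ = Subgroup.zpowers χ), g ψ) = P (Subgroup.zpowers χ) := by
        rw [hP]
        apply Finset.sum_congr _ (fun _ _ => rfl)
        ext ψ
        simp only [Finset.mem_filter, Finset.mem_univ, true_and, and_iff_right_iff_imp]
        intro h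
        rw [← h]; exact Subgroup.mem_zpowers ψ
      have h4 : (∑ D ∈ Finset.univ.erase (Subgroup.zpowers χ), ∑ ψ ∈ (Finset.univ.filter
          (fun ψ => ψ ∈ Subgroup.zpowers χ)).filter (fun ψ => Subgroup.zpowers ψ = D), g ψ) ∈
            AddSubgroup.zmultiples N := by
        apply AddSubgroup.sum_mem
        intro D hD
        have hD' := (Finset.mem_erase.1 hD).1
        by_cases hle : D ≤ Subgroup.zpowers χ
        · have h5 := ih D (lt_of_le_of_ne hle hD')
          have h6 : (∑ ψ ∈ (Finset.univ.filter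
            (fun ψ => ψ ∈ Subgroup.zpowers χ)).filter (fun ψ => Subgroup.zpowers ψ = D), g ψ) = P D := by
            rw [hP]
            apply Finset.sum_congr _ (fun _ _ => rfl)
            ext ψ
            simp only [Finset.mem_filter, Finset.mem_univ, true_and, and_iff_right_iff_imp]
            intro h
            exact hle (h ▸ Subgroup.mem_zpowers ψ)
          rw [h6]; exact h5
        · have h6 : (Finset.univ.filter
            (fun ψ => ψ ∈ Subgroup.zpowers χ)).filter (fun ψ => Subgroup.zpowers ψ = D) = ∅ := by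
            ext ψ
            simp only [Finset.mem_filter, Finset.mem_univ, true_and, Finset.notMem_empty, iff_false, not_and]
            intro h h'
            apply hle
            rw [← h', Subgroup.zpowers_le]
            exact h
          rw [h6, Finset.sum_empty]
          exact AddSubgroup.zero_mem _
      rw [h3] at h2
      have h5 : P (Subgroup.zpowers χ) = (∑ ψ ∈ Finset.univ.filter (fun ψ => ψ ∈ Subgroup.zpowers χ), g ψ) -
        (∑ D ∈ Finset.univ.erase (Subgroup.zpowers χ), ∑ ψ ∈ (Finset.univ.filter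
          (fun ψ => ψ ∈ Subgroup.zpowers χ)).filter (fun ψ => Subgroup.zpowers ψ = D), g ψ) := by
        rw [h2]; ring
      rw [h5]
      exact AddSubgroup.sub_mem _ h1 h4
    · have h1 : P C = 0 := by
        rw [hP]
        apply Finset.sum_eq_zero
        intro ψ hψ
        exact absurd ⟨ψ, (Finset.mem_filter.1 hψ).2⟩ h
      rw [h1]; exact AddSubgroup.zero_mem _
  rw [← Finset.sum_fiberwise Finset.univ (fun χ : X => Subgroup.zpowers χ)]
  apply AddSubgroup.sum_mem
  intro C _
  by_cases h : ∃ χ, Subgroup.zpowers χ = C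
  · obtain ⟨χ, rfl⟩ := h
    have h1 : (∑ ψ ∈ Finset.univ.filter (fun ψ : X => Subgroup.zpowers ψ = Subgroup.zpowers χ), (m ψ : ℂ) * g ψ) =
        m χ • P (Subgroup.zpowers χ) := by
      rw [hP, zsmul_eq_mul, Finset.mul_sum]
      refine Finset.sum_congr rfl fun ψ hψ => ?_
      rw [hm ψ χ (Finset.mem_filter.1 hψ).2]
    rw [h1]
    exact AddSubgroup.zsmul_mem _ (key _) _
  · rw [Finset.sum_eq_zero]
    · exact AddSubgroup.zero_mem _
    · intro ψ hψ
      exact absurd ⟨ψ, (Finset.mem_filter.1 hψ).2⟩ h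

/-- generators of the same cyclic subgroup of a `p`-group -/
theorem exists_coprime_pow {X : Type*} [Group X] [Finite X] {p : ℕ} (hp : p.Prime) (hX : IsPGroup p X) {χ ψ : X}
    (h : Subgroup.zpowers χ = Subgroup.zpowers ψ) : ∃ k : ℕ, k.Coprime p ∧ ψ = χ ^ k := by
  classical
  haveI := Fact.mk hp
  have h1 : ψ ∈ Subgroup.zpowers χ := h ▸ Subgroup.mem_zpowers ψ
  obtain ⟨k, rfl⟩ := (isOfFinOrder_of_finite χ).mem_powers_iff_mem_zpowers.2 h1
  simp only at h ⊢
  by_cases hk : k.Coprime p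
  · exact ⟨k, hk, rfl⟩
  · have hpk : p ∣ k := by
      by_contra hcon
      exact hk ((Nat.Prime.coprime_iff_not_dvd hp).2 hcon).symm
    obtain ⟨j, hj⟩ := (IsPGroup.iff_orderOf.1 hX) χ
    have h2 : orderOf (χ ^ k) = orderOf χ := by
      rw [← Nat.card_zpowers, ← Nat.card_zpowers, h]
    by_cases hj0 : j = 0
    · rw [hj0, pow_zero, orderOf_eq_one_iff] at hj
      exact ⟨1, Nat.coprime_one_left p, by rw [hj]; simp⟩
    · exfalso
      rw [orderOf_pow] at h2
      have h3 : 0 < orderOf χ := orderOf_pos χ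
      have h4 : p ∣ (orderOf χ).gcd k := Nat.dvd_gcd (hj ▸ dvd_pow_self p hj0) hpk
      have h5 : 1 < (orderOf χ).gcd k :=
        lt_of_lt_of_le hp.one_lt (Nat.le_of_dvd (Nat.gcd_pos_of_pos_left _ h3) h4)
      exact absurd h2 (Nat.div_lt_self h3 h5).ne

section
variable {A : Type v} [Group A] [Finite A]

theorem isPGroup_hom (hA : ∀ a b : A, a * b = b * a) {p : ℕ} (hp : p.Prime) (hAp : IsPGroup p A) :
    IsPGroup p (A →* ℂˣ) := by
  haveI := Fact.mk hp
  haveI := finite_hom hA
  obtain ⟨a, ha⟩ := IsPGroup.iff_card.1 hAp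
  exact IsPGroup.iff_card.2 ⟨a, by rw [card_hom hA, ha]⟩

open scoped Classical in
/-- the sum over a subgroup of the dual -/
theorem sum_dual [Finite (A →* ℂˣ)] (C : Subgroup (A →* ℂˣ)) (z : A) :
    (∑ ψ ∈ Finset.univ.filter (fun ψ : A →* ℂˣ => ψ ∈ C), ((ψ z : ℂˣ) : ℂ)) = 0 ∨
    ((∀ ψ ∈ C, ψ z = 1) ∧ (∑ ψ ∈ Finset.univ.filter (fun ψ : A →* ℂˣ => ψ ∈ C), ((ψ z : ℂˣ) : ℂ)) = Nat.card C) := by
  classical
  by_cases h : ∀ ψ ∈ C, ψ z = 1
  · right
    refine ⟨h, ?_⟩
    rw [Finset.sum_congr rfl (g := fun _ => (1 : ℂ)) (fun ψ hψ => by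
      rw [h ψ (Finset.mem_filter.1 hψ).2, Units.val_one])]
    rw [Finset.sum_const, nsmul_eq_mul, mul_one, Nat.card_eq_fintype_card, Fintype.card_subtype]
  · left
    push Not at h
    obtain ⟨φ, hφ, hne⟩ := h
    have h1 : (φ z : ℂ) * (∑ ψ ∈ Finset.univ.filter (fun ψ : A →* ℂˣ => ψ ∈ C), ((ψ z : ℂˣ) : ℂ)) =
        (∑ ψ ∈ Finset.univ.filter (fun ψ : A →* ℂˣ => ψ ∈ C), ((ψ z : ℂˣ) : ℂ)) := by
      rw [Finset.mul_sum]
      refine Finset.sum_equiv (Equiv.mulLeft φ) ?_ ?_
      · intro ψ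
        simp only [Finset.mem_filter, Finset.mem_univ, true_and, Equiv.coe_mulLeft]
        exact (C.mul_mem_cancel_left hφ).symm
      · intro ψ _
        simp only [Equiv.coe_mulLeft, MonoidHom.mul_apply, Units.val_mul]
    have h2 : ((φ z : ℂ) - 1) * (∑ ψ ∈ Finset.univ.filter (fun ψ : A →* ℂˣ => ψ ∈ C), ((ψ z : ℂˣ) : ℂ)) = 0 := by
      rw [sub_mul, h1, one_mul, sub_self]
    rcases mul_eq_zero.1 h2 with h3 | h3
    · exfalso
      apply hne
      ext
      rw [Units.val_one]
      exact sub_eq_zero.1 h3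
    · exact h3

theorem inner_eq (f g : A → ℂ) : classInner f g = (Nat.card A : ℂ)⁻¹ * ∑ x : A, f x * conj (g x) := rfl

theorem conj_lf (ψ : A →* ℂˣ) (x : A) : conj (lf ψ x) = lf ψ⁻¹ x := by
  have h1 := H18.CharOrtho.gen_inv (isGen_of_isIrr (lf_irr ψ)) x
  rw [← h1]
  show ((ψ x⁻¹ : ℂˣ) : ℂ) = ((ψ x)⁻¹ : ℂˣ)
  rw [map_inv]

theorem lf_mul_conj (ψ : A →* ℂˣ) (x : A) : lf ψ x * conj (lf ψ x) = 1 := by
  rw [conj_lf]
  show ((ψ x : ℂˣ) : ℂ) * ((ψ x)⁻¹ : ℂˣ) = 1
  rw [← Units.val_mul, mul_inv_cancel, Units.val_one]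

theorem isIntegral_lf (ψ : A →* ℂˣ) (x : A) : IsIntegral ℤ (lf ψ x) :=
  H18.CharOrtho.gen_isIntegral (isGen_of_isIrr (lf_irr ψ)) x

/-- step 1 -/
theorem exists_l (hA : ∀ a b : A, a * b = b * a) {p : ℕ} (hp : p.Prime) (hAp : IsPGroup p A)
    {f : A → ℂ} (hf : IsGeneralizedCharacter A f) {c : A → ℤ} (hc : ∀ x, ¬ (p : ℤ) ∣ c x)
    (hcm : ∀ x, ∀ m : ℕ, m.Coprime p → c (x ^ m) = c x) {v : A → ℂ} (hv : ∀ x, IsIntegral ℤ (v x))
    (hv1 : ∀ x, v x * conj (v x) = 1) (hfv : ∀ x, f x * v x = c x) (h1 : f 1 = c 1)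
    {m : ℕ} (hm : m.Coprime p) : ∃ l : A →* ℂˣ, ∀ x, f (x ^ m) = (l x : ℂ) * f x := by
  classical
  haveI := finite_hom hA
  haveI := Fact.mk hp
  obtain ⟨a, ha⟩ := IsPGroup.iff_card.1 hAp
  have hc0 : ∀ x, (c x : ℂ) ≠ 0 := by
    intro x h0
    apply hc x
    have : c x = 0 := by exact_mod_cast h0
    rw [this]; exact dvd_zero _
  have hf0 : ∀ x, f x = c x * conj (v x) := by
    intro x
    rw [← hfv, mul_assoc, hv1, mul_one]
  have hfne : ∀ x, f x ≠ 0 := by
    intro x h0
    apply hc0 x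
    rw [← hfv, h0, zero_mul]
  set η : A → ℂ := fun x => conj (v (x ^ m)) * v x with hη
  have hηf : ∀ x, η x * f x = f (x ^ m) := by
    intro x
    rw [hη, hf0 (x ^ m), hcm x m hm, ← hfv x]
    ring
  have hηi : ∀ x, IsIntegral ℤ (η x) := fun x => (isIntegral_conj (hv _)).mul (hv x)
  have hηc : ∀ x, η x * conj (η x) = 1 := by
    intro x
    rw [hη]
    simp only [map_mul, Complex.conj_conj]
    calc conj (v (x ^ m)) * v x * (v (x ^ m) * conj (v x)) = (v (x ^ m) * conj (v (x ^ m))) * (v x * conj (v x)) := by ring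
      _ = 1 := by rw [hv1, hv1, one_mul]
  -- the coefficients are integers
  have hint : ∀ ψ : A →* ℂˣ, ∃ n : ℤ, classInner η (lf ψ) = n := by
    intro ψ
    apply int_of_fixed
    · -- integral
      set F : A → ℂ := fun x => (c x : ℂ) ^ 2 with hF
      have hFf : ∀ x, F x = f x * conj (f x) := by
        intro x
        rw [hf0, hF]
        simp only [map_mul, Complex.conj_conj]
        have h2 : conj ((c x : ℂ)) = (c x : ℂ) := by simp
        rw [h2]
        calc (c x : ℂ) ^ 2 = c x * c x * 1 := by ring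
          _ = c x * c x * (v x * conj (v x)) := by rw [hv1]
          _ = _ := by ring
      have hFg : IsGeneralizedCharacter A F := by
        have h2 : F = f * (fun x => conj (f x)) := by
          funext x
          rw [hFf x]
          rfl
        rw [h2]
        exact isGen_mul hf (isGen_conj hf)
      have hFp : ∀ j : ℕ, IsGeneralizedCharacter A (fun x => F x ^ j) := by
        intro j
        induction j with
        | zero => simpa using isGen_one
        | succ j ih =>
          have h2 : (fun x => F x ^ (j + 1)) = (fun x => F x ^ j) * F := by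
            funext x
            rw [pow_succ]
            rfl
          rw [h2]
          exact isGen_mul ih hFg
      have hE : ∀ x, ∃ h : ℤ, ((c x) ^ 2) ^ (Nat.totient (Nat.card A)) = 1 + Nat.card A * h := by
        intro x
        have h2 : Nat.Coprime ((c x).natAbs ^ 2) (Nat.card A) := by
          rw [ha]
          apply Nat.Coprime.pow
          rw [Nat.coprime_comm, Nat.Prime.coprime_iff_not_dvd hp]
          intro h3
          exact hc x (Int.natCast_dvd.2 h3)
        have h3 := Nat.ModEq.pow_totient h2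
        have h4 := (Int.natCast_modEq_iff.2 h3).symm.dvd
        obtain ⟨h, hh⟩ := h4
        refine ⟨h, ?_⟩
        rw [← hh]
        have h5 : (((c x).natAbs ^ 2 : ℕ) : ℤ) = (c x) ^ 2 := by rw [Nat.cast_pow, Int.natAbs_sq]
        have h6 : ((((c x).natAbs ^ 2) ^ (Nat.totient (Nat.card A)) : ℕ) : ℤ) =
            ((c x) ^ 2) ^ (Nat.totient (Nat.card A)) := by rw [Nat.cast_pow, h5]
        rw [h6]
        push_cast
        ring
      choose h hh using hE
      have hφ : 0 < Nat.totient (Nat.card A) := Nat.totient_pos.2 Nat.card_pos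
      obtain ⟨j, hj⟩ : ∃ j, Nat.totient (Nat.card A) = j + 1 := ⟨_, (Nat.succ_pred_eq_of_pos hφ).symm⟩
      have hgen : IsGeneralizedCharacter A (fun x => η x * F x ^ (j + 1)) := by
        have h2 : (fun x => η x * F x ^ (j + 1)) = ((fun x => f (x ^ m)) * (fun x => conj (f x))) * (fun x => F x ^ j) := by
          funext x
          show η x * F x ^ (j + 1) = (f (x ^ m) * conj (f x)) * F x ^ j
          rw [← hηf, pow_succ, hFf x]
          ring
        rw [h2]
        exact isGen_mul (isGen_mul (gen_comp_pow hA hf m) (isGen_conj hf)) (hFp j)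
      obtain ⟨k, hk⟩ := inner_gen_intCast hgen (isGen_of_isIrr (lf_irr ψ))
      have h5 : classInner (fun x => η x * F x ^ (j + 1)) (lf ψ) =
          classInner η (lf ψ) + ∑ x : A, (h x : ℂ) * (η x * conj (lf ψ x)) := by
        rw [inner_eq, inner_eq]
        have h6 : ∀ x, F x ^ (j + 1) = 1 + (Nat.card A : ℂ) * h x := by
          intro x
          have h7 := hh x
          rw [hj] at h7
          have h8 := congrArg (fun z : ℤ => (z : ℂ)) h7
          push_cast at h8
          exact h8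
        have h9 : (Nat.card A : ℂ) ≠ 0 := card_ne_zero'
        calc (Nat.card A : ℂ)⁻¹ * ∑ x : A, (η x * F x ^ (j + 1)) * conj (lf ψ x)
            = (Nat.card A : ℂ)⁻¹ * ∑ x : A, (η x * conj (lf ψ x) + (Nat.card A : ℂ) * ((h x : ℂ) * (η x * conj (lf ψ x)))) := by
              congr 1
              refine Finset.sum_congr rfl fun x _ => ?_
              rw [h6]; ring
          _ = _ := by
              rw [Finset.sum_add_distrib, mul_add, ← Finset.mul_sum, ← mul_assoc _ (Nat.card A : ℂ),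
                inv_mul_cancel₀ h9, one_mul]
      have h6 : classInner η (lf ψ) = (k : ℂ) - ∑ x : A, (h x : ℂ) * (η x * conj (lf ψ x)) := by
        rw [← hk, h5]; ring
      rw [h6]
      apply IsIntegral.sub
      · exact isIntegral_algebraMap (R := ℤ) (A := ℂ) (x := k) |> fun h => by simpa using h
      · apply IsIntegral.sum
        intro x _
        apply IsIntegral.mul
        · exact isIntegral_algebraMap (R := ℤ) (A := ℂ) (x := h x) |> fun h => by simpa using h
        · exact (hηi x).mul (isIntegral_conj (isIntegral_lf ψ x))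
    · -- Galois invariant
      intro σ
      obtain ⟨k, hk, hσ⟩ := H84.FixField.exists_pow (Nat.card_pos (α := A)).ne' σ
      have h2 : ∀ x, σ (η x) = η (x ^ k) := by
        intro x
        have h3 := hηf x
        have h4 := congrArg σ h3
        rw [map_mul, gal_gen hA hσ hf, gal_gen hA hσ hf, ← pow_mul, mul_comm m k, pow_mul, ← hηf (x ^ k)] at h4
        exact mul_right_cancel₀ (hfne _) h4
      rw [inner_eq, map_mul, map_inv₀, map_natCast, map_sum]
      congr 1
      refine Fintype.sum_equiv (powCoprime hk.symm) _ _ fun x => ?_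
      rw [map_mul, h2]
      show η (x ^ k) * σ (conj (lf ψ x)) = η (x ^ k) * conj (lf ψ (x ^ k))
      rw [conj_lf, conj_lf, gal_lf hσ]
  choose n hn using hint
  have hsum : (∑ ψ : A →* ℂˣ, (n ψ) ^ 2 : ℤ) = 1 := by
    have h2 := parseval' hA η
    have h3 : classInner η η = 1 := by
      rw [inner_eq]
      simp_rw [hηc]
      rw [Finset.sum_const, Finset.card_univ, ← Nat.card_eq_fintype_card, nsmul_eq_mul, mul_one,
        inv_mul_cancel₀ card_ne_zero']
    rw [h3] at h2
    have h4 : (1 : ℂ) = ((∑ ψ : A →* ℂˣ, (n ψ) ^ 2 : ℤ) : ℂ) := by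
      rw [h2]
      push_cast
      refine Finset.sum_congr rfl fun ψ _ => ?_
      rw [hn]
      simp [sq]
    exact_mod_cast h4.symm
  obtain ⟨l, hl⟩ : ∃ l, n l ≠ 0 := by
    by_contra hcon
    push Not at hcon
    rw [Finset.sum_eq_zero (fun ψ _ => by rw [hcon ψ]; norm_num)] at hsum
    exact zero_ne_one hsum
  have hrest : ∀ ψ, ψ ≠ l → n ψ = 0 := by
    intro ψ hψ
    by_contra hne
    have h2 : (n l) ^ 2 + (n ψ) ^ 2 ≤ ∑ ψ : A →* ℂˣ, (n ψ) ^ 2 := by
      have h3 : ∑ φ ∈ ({l, ψ} : Finset (A →* ℂˣ)), (n φ) ^ 2 ≤ ∑ φ : A →* ℂˣ, (n φ) ^ 2 :=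
        Finset.sum_le_sum_of_subset_of_nonneg (Finset.subset_univ _) (fun _ _ _ => sq_nonneg _)
      rwa [Finset.sum_pair hψ.symm] at h3
    have h4 : 0 < (n l) ^ 2 := by positivity
    have h5 : 0 < (n ψ) ^ 2 := by positivity
    omega
  have hη2 : ∀ x, η x = n l * lf l x := by
    intro x
    conv_lhs => rw [fourier hA η]
    rw [Finset.sum_apply, Finset.sum_eq_single l]
    · rw [hn]; rfl
    · intro ψ _ hψ
      rw [hn, hrest ψ hψ]
      simp
    · intro h; exact absurd (Finset.mem_univ _) h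
  have hη1 : η 1 = 1 := by
    have h2 : v 1 = 1 := by
      have h3 := hfv 1
      rw [h1] at h3
      exact mul_left_cancel₀ (hc0 1) (by rw [h3, mul_one])
    rw [hη]
    simp [h2]
  have hnl : (n l : ℂ) = 1 := by
    have h2 := hη2 1
    rw [hη1] at h2
    have h3 : lf l 1 = 1 := by show ((l 1 : ℂˣ) : ℂ) = 1; simp
    rw [h3, mul_one] at h2
    exact h2.symm
  refine ⟨l, fun x => ?_⟩
  rw [← hηf x, hη2 x, hnl, one_mul]
  rfl

/-- steps 2 and 3 -/
theorem exists_lam (hA : ∀ a b : A, a * b = b * a) {p : ℕ} (hp : p.Prime) (hAp : IsPGroup p A)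
    {f : A → ℂ} (hf : IsGeneralizedCharacter A f) {c : A → ℤ} (hc : ∀ x, ¬ (p : ℤ) ∣ c x)
    (hcm : ∀ x, ∀ m : ℕ, m.Coprime p → c (x ^ m) = c x) {v : A → ℂ} (hv : ∀ x, IsIntegral ℤ (v x))
    (hv1 : ∀ x, v x * conj (v x) = 1) (hfv : ∀ x, f x * v x = c x) (h1 : f 1 = c 1) :
    ∃ μ : A →* ℂˣ, ∀ m : ℕ, m.Coprime p → ∀ x, f (x ^ m) * (μ x : ℂ) = (μ x : ℂ) ^ m * f x := by
  classical
  haveI := finite_hom hA
  haveI := Fact.mk hp
  have hfne : ∀ x, f x ≠ 0 := by
    intro x h0
    have h2 := hfv x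
    rw [h0, zero_mul] at h2
    apply hc x
    have : c x = 0 := by exact_mod_cast h2.symm
    rw [this]; exact dvd_zero _
  have hex : ∀ k : ℕ, ∃ l : A →* ℂˣ, k.Coprime p → ∀ x, f (x ^ k) = (l x : ℂ) * f x := by
    intro k
    by_cases hk : k.Coprime p
    · obtain ⟨l, hl⟩ := exists_l hA hp hAp hf hc hcm hv hv1 hfv h1 hk
      exact ⟨l, fun _ => hl⟩
    · exact ⟨1, fun h => absurd h hk⟩
  choose l hl using hex
  have uniq : ∀ {k : ℕ} {μ : A →* ℂˣ}, k.Coprime p → (∀ x, f (x ^ k) = (μ x : ℂ) * f x) → l k = μ := by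
    intro k μ hk h
    ext x
    exact mul_right_cancel₀ (hfne x) ((hl k hk x).symm.trans (h x))
  have hmul : ∀ {j k : ℕ}, j.Coprime p → k.Coprime p → l (j * k) = l k ^ j * l j := by
    intro j k hj hk
    refine uniq (Nat.Coprime.mul_left hj hk) fun x => ?_
    rw [pow_mul, hl k hk, hl j hj, map_pow, MonoidHom.mul_apply, MonoidHom.pow_apply, Units.val_mul,
      Units.val_pow_eq_pow_val]
    ring
  suffices h : ∃ μ : A →* ℂˣ, ∀ m : ℕ, m.Coprime p → l m * μ = μ ^ m by
    obtain ⟨μ, hμ⟩ := h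
    refine ⟨μ, fun m hm x => ?_⟩
    have h2 := congrArg (fun ψ : A →* ℂˣ => ((ψ x : ℂˣ) : ℂ)) (hμ m hm)
    simp only [MonoidHom.mul_apply, Units.val_mul, MonoidHom.pow_apply, Units.val_pow_eq_pow_val] at h2
    rw [hl m hm, ← h2]
    ring
  by_cases hp2 : p = 2
  · subst hp2
    obtain ⟨a, ha⟩ := IsPGroup.iff_card.1 hAp
    set N : ℕ := 2 * Nat.card A with hN
    have hN1 : 1 < N := by
      have := Nat.card_pos (α := A)
      omega
    haveI : Fact (1 < N) := ⟨hN1⟩
    haveI : NeZero N := ⟨by omega⟩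
    have hNpow : ∀ (x : A) (i j : ℕ), i ≡ j [MOD N] → x ^ i = x ^ j := by
      intro x i j hij
      apply pow_eq_pow_iff_modEq.2
      exact hij.of_dvd ((orderOf_dvd_natCard x).trans (Dvd.intro_left 2 rfl))
    have hNpow' : ∀ (ψ : A →* ℂˣ) (i j : ℕ), i ≡ j [MOD N] → ψ ^ i = ψ ^ j := by
      intro ψ i j hij
      ext x
      rw [MonoidHom.pow_apply, MonoidHom.pow_apply, ← map_pow, ← map_pow, hNpow x i j hij]
    have hlmod : ∀ {i j : ℕ}, i.Coprime 2 → i ≡ j [MOD N] → l i = l j := by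
      intro i j hi hij
      have hj : j.Coprime 2 := by
        have h2 : i ≡ j [MOD 2] := hij.of_dvd (Dvd.intro _ rfl)
        rw [Nat.coprime_two_right, Nat.odd_iff] at hi ⊢
        rw [← hi]; exact h2.symm
      refine uniq hi fun x => ?_
      rw [hNpow x i j hij, hl j hj]
    have hcop : ∀ u : (ZMod N)ˣ, (u : ZMod N).val.Coprime 2 := fun u =>
      (ZMod.val_coe_unit_coprime u).coprime_dvd_right (Dvd.intro _ rfl)
    have hint : ∀ ψ : A →* ℂˣ, ∃ n : ℤ, classInner f (lf ψ) = n := fun ψ =>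
      inner_gen_intCast hf (isGen_of_isIrr (lf_irr ψ))
    choose m hm using hint
    have hcardA : ∀ {k : ℕ}, k.Coprime 2 → (Nat.card A).Coprime k := by
      intro k hk
      rw [ha]
      exact (Nat.Coprime.pow_right a hk).symm
    have hmT : ∀ {k : ℕ}, k.Coprime 2 → ∀ ψ, m ((l k)⁻¹ * ψ ^ k) = m ψ := by
      intro k hk ψ
      have h2 : classInner f (lf ((l k)⁻¹ * ψ ^ k)) = classInner f (lf ψ) := by
        rw [inner_eq, inner_eq]
        congr 1
        refine Fintype.sum_equiv (powCoprime (hcardA hk)) _ _ fun x => ?_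
        show f x * conj (lf ((l k)⁻¹ * ψ ^ k) x) = f (x ^ k) * conj (lf ψ (x ^ k))
        rw [hl k hk, conj_lf, conj_lf]
        have h3 : lf ((l k)⁻¹ * ψ ^ k)⁻¹ x = ((l k x : ℂˣ) : ℂ) * lf ψ⁻¹ (x ^ k) := by
          show ((((l k)⁻¹ * ψ ^ k)⁻¹ x : ℂˣ) : ℂ) = ((l k x : ℂˣ) : ℂ) * ((ψ⁻¹ (x ^ k) : ℂˣ) : ℂ)
          rw [← Units.val_mul]
          congr 1
          simp [mul_comm]
        rw [h3]
        ring
      rw [hm, hm] at h2
      exact_mod_cast h2
    let act : MulAction (ZMod N)ˣ {ψ : A →* ℂˣ // Odd (m ψ)} :=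
      { smul := fun u ψ => ⟨(l (u : ZMod N).val)⁻¹ * (ψ : A →* ℂˣ) ^ (u : ZMod N).val, by
          rw [hmT (hcop u)]; exact ψ.2⟩
        one_smul := by
          intro ψ
          apply Subtype.ext
          show (l (((1 : (ZMod N)ˣ) : ZMod N)).val)⁻¹ * (ψ : A →* ℂˣ) ^ (((1 : (ZMod N)ˣ) : ZMod N)).val = ψ
          rw [Units.val_one, ZMod.val_one]
          have h2 : l 1 = 1 := uniq (Nat.coprime_one_left 2) fun x => by simp
          rw [h2]
          apply MonoidHom.ext
          intro x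
          simp
        mul_smul := by
          intro u w ψ
          apply Subtype.ext
          show (l (((u * w : (ZMod N)ˣ) : ZMod N)).val)⁻¹ * (ψ : A →* ℂˣ) ^ (((u * w : (ZMod N)ˣ) : ZMod N)).val =
            (l (u : ZMod N).val)⁻¹ * ((l (w : ZMod N).val)⁻¹ * (ψ : A →* ℂˣ) ^ (w : ZMod N).val) ^ (u : ZMod N).val
          have h2 : (((u * w : (ZMod N)ˣ) : ZMod N)).val ≡ (u : ZMod N).val * (w : ZMod N).val [MOD N] := by
            rw [Units.val_mul, ZMod.val_mul]
            exact Nat.mod_modEq _ _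
          rw [hlmod (hcop _) h2, hNpow' _ _ _ h2, hmul (hcop u) (hcop w)]
          apply MonoidHom.ext
          intro x
          simp only [MonoidHom.mul_apply, MonoidHom.inv_apply, MonoidHom.pow_apply]
          rw [mul_pow, ← pow_mul, mul_comm (u : ZMod N).val (w : ZMod N).val, inv_pow, mul_inv,
            mul_comm ((l (w : ZMod N).val x ^ (u : ZMod N).val)⁻¹) ((l (u : ZMod N).val x)⁻¹), mul_assoc] }
    have hpg : IsPGroup 2 (ZMod N)ˣ := by
      apply IsPGroup.of_card (n := a)
      rw [Nat.card_eq_fintype_card, ZMod.card_units_eq_totient, hN, ha, ← pow_succ',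
        Nat.totient_prime_pow_succ Nat.prime_two]
      simp
    have hodd : ¬ 2 ∣ Nat.card {ψ : A →* ℂˣ // Odd (m ψ)} := by
      have h2 : f 1 = ((∑ ψ : A →* ℂˣ, m ψ : ℤ) : ℂ) := by
        conv_lhs => rw [fourier hA f]
        rw [Finset.sum_apply]
        push_cast
        refine Finset.sum_congr rfl fun ψ _ => ?_
        rw [hm]
        show (m ψ : ℂ) * ((ψ 1 : ℂˣ) : ℂ) = m ψ
        rw [map_one, Units.val_one, mul_one]
      rw [h1] at h2
      have h3 : c 1 = ∑ ψ : A →* ℂˣ, m ψ := by exact_mod_cast h2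
      have h4 : ((c 1 : ℤ) : ZMod 2) = (Nat.card {ψ : A →* ℂˣ // Odd (m ψ)} : ZMod 2) := by
        rw [h3, Nat.card_eq_fintype_card, Fintype.card_subtype, Finset.card_filter]
        push_cast
        refine Finset.sum_congr rfl fun ψ _ => ?_
        split_ifs with h5
        · obtain ⟨r, hr⟩ := h5
          rw [hr]
          push_cast
          have : (2 : ZMod 2) = 0 := rfl
          rw [this]; simp
        · rw [Int.not_odd_iff_even] at h5
          exact (ZMod.intCast_zmod_eq_zero_iff_dvd _ 2).2 (by simpa using h5.two_dvd)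
      intro h5
      apply hc 1
      have h6 := (ZMod.natCast_eq_zero_iff _ 2).2 h5
      rw [h6] at h4
      simpa using (ZMod.intCast_zmod_eq_zero_iff_dvd _ 2).1 h4
    obtain ⟨ψ, hψ⟩ := hpg.nonempty_fixed_point_of_prime_not_dvd_card _ hodd
    refine ⟨ψ, fun k hk => ?_⟩
    have hkN : k.Coprime N := by
      rw [hN]
      exact Nat.Coprime.mul_right hk (hcardA hk).symm
    have h2 := congrArg Subtype.val (hψ (ZMod.unitOfCoprime k hkN))
    have h3 : (l ((ZMod.unitOfCoprime k hkN : (ZMod N)ˣ) : ZMod N).val)⁻¹ *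
      (ψ : A →* ℂˣ) ^ ((ZMod.unitOfCoprime k hkN : (ZMod N)ˣ) : ZMod N).val = ψ := h2
    rw [ZMod.coe_unitOfCoprime, ZMod.val_natCast] at h3
    rw [hNpow' (ψ : A →* ℂˣ) (k % N) k (Nat.mod_modEq _ _), ← hlmod hk (Nat.mod_modEq k N).symm] at h3
    apply MonoidHom.ext
    intro x
    have h4 := DFunLike.congr_fun h3 x
    simp only [MonoidHom.mul_apply, MonoidHom.inv_apply, MonoidHom.pow_apply] at h4 ⊢
    exact (inv_mul_eq_iff_eq_mul.1 h4).symm
  · have h2p : Nat.Coprime 2 p := ((Nat.coprime_primes Nat.prime_two hp).2 (Ne.symm hp2))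
    refine ⟨l 2, fun m hm => ?_⟩
    have h2 := hmul hm h2p
    have h3 := hmul h2p hm
    rw [mul_comm m 2, h3] at h2
    apply MonoidHom.ext
    intro x
    have h4 := DFunLike.congr_fun h2 x
    simp only [MonoidHom.mul_apply, MonoidHom.pow_apply] at h4 ⊢
    have h5 : l m x * (l m x * l 2 x) = l m x * l 2 x ^ m := by
      rw [← mul_assoc, ← sq, h4, mul_comm]
    exact mul_left_cancel h5

/-- congruences for a generalized character whose coefficients depend on cyclic subgroups only -/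
theorem sum_coeff (hA : ∀ a b : A, a * b = b * a) {p : ℕ} (hp : p.Prime) (hAp : IsPGroup p A)
    {F : A → ℂ} (hF : IsGeneralizedCharacter A F) (hFk : ∀ k : ℕ, k.Coprime p → ∀ x, F (x ^ k) = F x) :
    ∃ m : (A →* ℂˣ) → ℤ, (∀ x, haveI := finite_hom hA; F x = ∑ ψ : A →* ℂˣ, (m ψ : ℂ) * ((ψ x : ℂˣ) : ℂ)) ∧
      ∀ χ ψ : A →* ℂˣ, Subgroup.zpowers χ = Subgroup.zpowers ψ → m χ = m ψ := by
  classical
  haveI := finite_hom hA
  haveI := Fact.mk hp
  have hint : ∀ ψ : A →* ℂˣ, ∃ n : ℤ, classInner F (lf ψ) = n := fun ψ =>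
    inner_gen_intCast hF (isGen_of_isIrr (lf_irr ψ))
  choose m hm using hint
  obtain ⟨a, ha⟩ := IsPGroup.iff_card.1 hAp
  refine ⟨m, fun x => ?_, fun χ ψ h => ?_⟩
  · conv_lhs => rw [fourier hA F]
    rw [Finset.sum_apply]
    refine Finset.sum_congr rfl fun ψ _ => ?_
    rw [hm]
    rfl
  · obtain ⟨k, hk, rfl⟩ := exists_coprime_pow hp (isPGroup_hom hA hp hAp) h
    have hcard : (Nat.card A).Coprime k := by
      rw [ha]; exact (Nat.Coprime.pow_right a hk).symm
    have h2 : classInner F (lf χ) = classInner F (lf (χ ^ k)) := by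
      rw [inner_eq, inner_eq]
      congr 1
      symm
      refine Fintype.sum_equiv (powCoprime hcard) _ _ fun x => ?_
      show F x * conj (lf (χ ^ k) x) = F (x ^ k) * conj (lf χ (x ^ k))
      rw [hFk k hk]
      congr 2
      show (((χ ^ k) x : ℂˣ) : ℂ) = ((χ (x ^ k) : ℂˣ) : ℂ)
      rw [MonoidHom.pow_apply, map_pow]
    rw [hm, hm] at h2
    exact_mod_cast h2

open scoped Classical in
theorem filter_zpowers_card {X : Type*} [Group X] [Finite X] (χ : X) :
    (Finset.univ.filter (fun ψ => ψ ∈ Subgroup.zpowers χ)).card = orderOf χ := by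
  rw [← Nat.card_zpowers, Nat.card_eq_fintype_card, Fintype.card_subtype]

theorem main {A : Type v} [Group A] [Finite A] (hA : ∀ a b : A, a * b = b * a) {p : ℕ} (hp : p.Prime)
    (hAp : IsPGroup p A) {f : A → ℂ} (hf : IsGeneralizedCharacter A f) {c : A → ℤ} (hc : ∀ x, ¬ (p : ℤ) ∣ c x)
    (hcm : ∀ x, ∀ m : ℕ, m.Coprime p → c (x ^ m) = c x) {v : A → ℂ} (hv : ∀ x, IsIntegral ℤ (v x))
    (hv1 : ∀ x, v x * conj (v x) = 1) (hfv : ∀ x, f x * v x = c x) (h1 : f 1 = c 1) :
    ∃ (l : A →* ℂˣ) (t : A → ℤ), (∀ x, t x = 1 ∨ t x = -1) ∧ (∀ x, f x = (l x : ℂ) * t x * c x) ∧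
      (∀ x, (p : ℤ) ∣ t x * c x - c 1) ∧ (p = 2 → ∀ x, (4 : ℤ) ∣ t x * c x - c 1) := by
  classical
  haveI := finite_hom hA
  haveI := Fact.mk hp
  obtain ⟨a, ha⟩ := IsPGroup.iff_card.1 hAp
  obtain ⟨μ, hμ⟩ := exists_lam hA hp hAp hf hc hcm hv hv1 hfv h1
  set F : A → ℂ := lf μ⁻¹ * f with hF
  have hFg : IsGeneralizedCharacter A F := isGen_mul (isGen_of_isIrr (lf_irr _)) hf
  have hFx : ∀ x, F x = lf μ⁻¹ x * f x := fun x => rfl
  have hμinv : ∀ x, ((μ x : ℂˣ) : ℂ) * lf μ⁻¹ x = 1 := by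
    intro x
    show ((μ x : ℂˣ) : ℂ) * (((μ x)⁻¹ : ℂˣ) : ℂ) = 1
    rw [← Units.val_mul, mul_inv_cancel, Units.val_one]
  have hμpow : ∀ (x : A) (k : ℕ), lf μ⁻¹ (x ^ k) = lf μ⁻¹ x ^ k := by
    intro x k
    show ((μ⁻¹ (x ^ k) : ℂˣ) : ℂ) = ((μ⁻¹ x : ℂˣ) : ℂ) ^ k
    rw [map_pow, Units.val_pow_eq_pow_val]
  have hFk : ∀ k : ℕ, k.Coprime p → ∀ x, F (x ^ k) = F x := by
    intro k hk x
    rw [hFx, hFx, hμpow]
    have h2 := hμ k hk x
    have h3 : f (x ^ k) = (μ x : ℂ) ^ k * f x * lf μ⁻¹ x := by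
      rw [← h2, mul_assoc, hμinv, mul_one]
    rw [h3]
    have h4 : lf μ⁻¹ x ^ k * (μ x : ℂ) ^ k = 1 := by
      rw [← mul_pow, mul_comm, hμinv, one_pow]
    calc lf μ⁻¹ x ^ k * ((μ x : ℂ) ^ k * f x * lf μ⁻¹ x) = (lf μ⁻¹ x ^ k * (μ x : ℂ) ^ k) * (f x * lf μ⁻¹ x) := by ring
      _ = _ := by rw [h4]; ring
  have hint : ∀ x, ∃ n : ℤ, F x = n := by
    intro x
    apply int_of_fixed (gen_isIntegral hFg x)
    intro σ
    obtain ⟨k, hk, hσ⟩ := H84.FixField.exists_pow (Nat.card_pos (α := A)).ne' σ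
    rw [gal_gen hA hσ hFg]
    by_cases hkp : k.Coprime p
    · exact hFk k hkp x
    · have hpk : p ∣ k := by
        by_contra hcon
        exact hkp ((Nat.Prime.coprime_iff_not_dvd hp).2 hcon).symm
      have ha0 : a = 0 := by
        by_contra ha0
        have h2 : p ∣ Nat.gcd k (Nat.card A) := Nat.dvd_gcd hpk (ha ▸ dvd_pow_self p ha0)
        rw [hk] at h2
        exact hp.one_lt.ne' (Nat.dvd_one.1 h2)
      rw [ha0, pow_zero] at ha
      haveI : Subsingleton A := (Nat.card_eq_one_iff_unique.1 ha).1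
      rw [Subsingleton.elim (x ^ k) x]
  choose d hd using hint
  have hfd : ∀ x, f x = (μ x : ℂ) * d x := by
    intro x
    rw [← hd, hFx, ← mul_assoc, hμinv, one_mul]
  have hd1 : d 1 = c 1 := by
    have h2 := hfd 1
    rw [h1, map_one, Units.val_one, one_mul] at h2
    exact_mod_cast h2.symm
  have hdsq : ∀ x, d x = c x ∨ d x = - c x := by
    intro x
    have hf0 : f x = c x * conj (v x) := by
      rw [← hfv, mul_assoc, hv1, mul_one]
    have h2 : f x * conj (f x) = (c x : ℂ) ^ 2 := by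
      rw [hf0, map_mul, Complex.conj_conj]
      have h3 : conj (c x : ℂ) = (c x : ℂ) := by simp
      rw [h3]
      calc (c x : ℂ) * conj (v x) * (c x * v x) = (c x : ℂ) ^ 2 * (v x * conj (v x)) := by ring
        _ = _ := by rw [hv1, mul_one]
    have h3 : f x * conj (f x) = (d x : ℂ) ^ 2 := by
      rw [hfd x, map_mul]
      have h4 : conj (d x : ℂ) = (d x : ℂ) := by simp
      rw [h4]
      have h5 := lf_mul_conj μ x
      have h6 : ((μ x : ℂˣ) : ℂ) * conj ((μ x : ℂˣ) : ℂ) = 1 := h5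
      calc (μ x : ℂ) * d x * (conj (μ x : ℂ) * d x) = ((μ x : ℂˣ) : ℂ) * conj ((μ x : ℂˣ) : ℂ) * (d x : ℂ) ^ 2 := by ring
        _ = _ := by rw [h6, one_mul]
    have h4 : (d x) ^ 2 = (c x) ^ 2 := by
      have h5 := h3.symm.trans h2
      exact_mod_cast h5
    exact sq_eq_sq_iff_eq_or_eq_neg.1 h4
  obtain ⟨m, hm1, hm2⟩ := sum_coeff hA hp hAp hFg hFk
  -- the sum over the trivial subgroup and divisibility
  have hXp := isPGroup_hom hA hp hAp
  have hzx : ∀ (χ : A →* ℂˣ), ∃ j : ℕ, orderOf χ = p ^ j := fun χ => IsPGroup.iff_orderOf.1 hXp χ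
  have hsumz : ∀ (χ : A →* ℂˣ) (z : A),
      (∑ ψ ∈ Finset.univ.filter (fun ψ => ψ ∈ Subgroup.zpowers χ), ((ψ z : ℂˣ) : ℂ)) = 0 ∨
      (∑ ψ ∈ Finset.univ.filter (fun ψ => ψ ∈ Subgroup.zpowers χ), ((ψ z : ℂˣ) : ℂ)) = orderOf χ := by
    intro χ z
    rcases sum_dual (Subgroup.zpowers χ) z with h | ⟨-, h⟩
    · left; exact h
    · right; rw [Nat.card_zpowers] at h; exact h
  have hpd : ∀ x, (p : ℤ) ∣ d x - d 1 := by
    intro x
    have h2 := sum_mem_zmultiples (X := A →* ℂˣ) (fun ψ => ((ψ x : ℂˣ) : ℂ) - 1) (p : ℂ) (by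
      intro χ
      rw [Finset.sum_sub_distrib, Finset.sum_const, filter_zpowers_card, nsmul_eq_mul, mul_one]
      obtain ⟨j, hj⟩ := hzx χ
      by_cases hj0 : j = 0
      · rw [hj0, pow_zero, orderOf_eq_one_iff] at hj
        subst hj
        have h3 : (Finset.univ.filter (fun ψ : A →* ℂˣ => ψ ∈ Subgroup.zpowers (1 : A →* ℂˣ))) = {1} := by
          ext ψ
          simp
        rw [h3, Finset.sum_singleton]
        simp
      · have h3 : (orderOf χ : ℂ) ∈ AddSubgroup.zmultiples (p : ℂ) := by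
          obtain ⟨i, rfl⟩ := Nat.exists_eq_succ_of_ne_zero hj0
          rw [hj]
          exact ⟨(p ^ i : ℕ), by push_cast; simp [pow_succ]⟩
        rcases hsumz χ x with h4 | h4
        · rw [h4, zero_sub]; exact AddSubgroup.neg_mem _ h3
        · rw [h4, sub_self]; exact AddSubgroup.zero_mem _) m hm2
    have h3 : (∑ ψ : A →* ℂˣ, (m ψ : ℂ) * (((ψ x : ℂˣ) : ℂ) - 1)) = ((d x - d 1 : ℤ) : ℂ) := by
      push_cast
      rw [← hd, ← hd, hm1 x, hm1 1, ← Finset.sum_sub_distrib]
      refine Finset.sum_congr rfl fun ψ _ => ?_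
      rw [map_one, Units.val_one]; ring
    rw [h3] at h2
    obtain ⟨z, hz⟩ := h2
    refine ⟨z, ?_⟩
    have h4 : (z : ℂ) * (p : ℂ) = ((d x - d 1 : ℤ) : ℂ) := by
      rw [← hz]; simp
    have h5 : ((z * (p : ℤ) : ℤ) : ℂ) = ((d x - d 1 : ℤ) : ℂ) := by
      rw [← h4]; push_cast; rfl
    rw [mul_comm]
    exact_mod_cast h5.symm
  by_cases hp2 : p = 2
  · subst hp2
    have h4d : ∀ x y, (4 : ℤ) ∣ d 1 + d x + d y + d (x * y) := by
      intro x y
      have h2 := sum_mem_zmultiples (X := A →* ℂˣ) (fun ψ => (1 + ((ψ x : ℂˣ) : ℂ)) * (1 + ((ψ y : ℂˣ) : ℂ))) (4 : ℂ) (by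
        intro χ
        obtain ⟨j, hj⟩ := hzx χ
        by_cases hj0 : j = 0
        · rw [hj0, pow_zero, orderOf_eq_one_iff] at hj
          subst hj
          have h3 : (Finset.univ.filter (fun ψ : A →* ℂˣ => ψ ∈ Subgroup.zpowers (1 : A →* ℂˣ))) = {1} := by
            ext ψ
            simp
          rw [h3, Finset.sum_singleton]
          refine ⟨1, ?_⟩
          simp; norm_num
        by_cases hj1 : j = 1
        · rw [hj1, pow_one] at hj
          have hχ2 : χ * χ = 1 := by
            have := pow_orderOf_eq_one χ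
            rw [hj, sq] at this
            exact this
          have h3 : (Finset.univ.filter (fun ψ : A →* ℂˣ => ψ ∈ Subgroup.zpowers χ)) = {1, χ} := by
            symm
            apply Finset.eq_of_subset_of_card_le
            · intro ψ hψ
              rw [Finset.mem_insert, Finset.mem_singleton] at hψ
              rw [Finset.mem_filter]
              rcases hψ with rfl | rfl
              · exact ⟨Finset.mem_univ _, Subgroup.one_mem _⟩
              · exact ⟨Finset.mem_univ _, Subgroup.mem_zpowers _⟩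
            · rw [filter_zpowers_card, hj, Finset.card_pair]
              intro h
              rw [← h, orderOf_one] at hj
              exact absurd hj (by norm_num)
          rw [h3, Finset.sum_pair (by
            intro h
            rw [← h, orderOf_one] at hj
            exact absurd hj (by norm_num))]
          have hpm : ∀ z : A, ((χ z : ℂˣ) : ℂ) = 1 ∨ ((χ z : ℂˣ) : ℂ) = -1 := by
            intro z
            have h4 := DFunLike.congr_fun hχ2 z
            have h5 := congrArg (fun u : ℂˣ => (u : ℂ)) h4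
            simp only [MonoidHom.mul_apply, Units.val_mul, MonoidHom.one_apply, Units.val_one] at h5
            exact mul_self_eq_one_iff.1 h5
          simp only [MonoidHom.one_apply, Units.val_one]
          rcases hpm x with h5 | h5 <;> rcases hpm y with h6 | h6 <;> rw [h5, h6]
          · exact ⟨2, by simp; norm_num⟩
          · exact ⟨1, by simp; norm_num⟩
          · exact ⟨1, by simp; norm_num⟩
          · exact ⟨1, by simp; norm_num⟩
        · have h3 : (orderOf χ : ℂ) ∈ AddSubgroup.zmultiples (4 : ℂ) := by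
            obtain ⟨i, rfl⟩ : ∃ i, j = i + 2 := ⟨j - 2, by omega⟩
            rw [hj]
            exact ⟨(2 ^ i : ℕ), by push_cast; simp [pow_add]; norm_num⟩
          have h4 : ∀ z : A, (∑ ψ ∈ Finset.univ.filter (fun ψ => ψ ∈ Subgroup.zpowers χ), ((ψ z : ℂˣ) : ℂ)) ∈
              AddSubgroup.zmultiples (4 : ℂ) := by
            intro z
            rcases hsumz χ z with h4 | h4
            · rw [h4]; exact AddSubgroup.zero_mem _
            · rw [h4]; exact h3
          have h5 : (∑ ψ ∈ Finset.univ.filter (fun ψ : A →* ℂˣ => ψ ∈ Subgroup.zpowers χ),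
              (1 + ((ψ x : ℂˣ) : ℂ)) * (1 + ((ψ y : ℂˣ) : ℂ))) =
              (orderOf χ : ℂ) + (∑ ψ ∈ Finset.univ.filter (fun ψ : A →* ℂˣ => ψ ∈ Subgroup.zpowers χ), ((ψ x : ℂˣ) : ℂ)) +
              (∑ ψ ∈ Finset.univ.filter (fun ψ : A →* ℂˣ => ψ ∈ Subgroup.zpowers χ), ((ψ y : ℂˣ) : ℂ)) +
              (∑ ψ ∈ Finset.univ.filter (fun ψ : A →* ℂˣ => ψ ∈ Subgroup.zpowers χ), ((ψ (x * y) : ℂˣ) : ℂ)) := by
            have h6 : (orderOf χ : ℂ) = ∑ ψ ∈ Finset.univ.filter (fun ψ : A →* ℂˣ => ψ ∈ Subgroup.zpowers χ), (1 : ℂ) := by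
              rw [Finset.sum_const, filter_zpowers_card, nsmul_eq_mul, mul_one]
            rw [h6, ← Finset.sum_add_distrib, ← Finset.sum_add_distrib, ← Finset.sum_add_distrib]
            refine Finset.sum_congr rfl fun ψ _ => ?_
            rw [map_mul, Units.val_mul]
            ring
          rw [h5]
          exact AddSubgroup.add_mem _ (AddSubgroup.add_mem _ (AddSubgroup.add_mem _ h3 (h4 x)) (h4 y)) (h4 _)) m hm2
      have h3 : (∑ ψ : A →* ℂˣ, (m ψ : ℂ) * ((1 + ((ψ x : ℂˣ) : ℂ)) * (1 + ((ψ y : ℂˣ) : ℂ)))) =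
          ((d 1 + d x + d y + d (x * y) : ℤ) : ℂ) := by
        push_cast
        rw [← hd, ← hd, ← hd, ← hd, hm1 1, hm1 x, hm1 y, hm1 (x * y), ← Finset.sum_add_distrib,
          ← Finset.sum_add_distrib, ← Finset.sum_add_distrib]
        refine Finset.sum_congr rfl fun ψ _ => ?_
        rw [map_one, Units.val_one, map_mul, Units.val_mul]; ring
      rw [h3] at h2
      obtain ⟨z, hz⟩ := h2
      refine ⟨z, ?_⟩
      have h4 : (z : ℂ) * (4 : ℂ) = ((d 1 + d x + d y + d (x * y) : ℤ) : ℂ) := by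
        rw [← hz]; simp
      have h5 : ((z * (4 : ℤ) : ℤ) : ℂ) = ((d 1 + d x + d y + d (x * y) : ℤ) : ℂ) := by
        rw [← h4]; push_cast; rfl
      rw [mul_comm]
      exact_mod_cast h5.symm
    have hdodd : ∀ x, ¬ (2 : ℤ) ∣ d x := by
      intro x h
      rcases hdsq x with h2 | h2
      · rw [h2] at h; exact hc x (by exact_mod_cast h)
      · rw [h2] at h; exact hc x (by have := (dvd_neg (α := ℤ)).1 h; exact_mod_cast this)
    -- the sign homomorphism
    set s : A → ℤ := fun x => if (4 : ℤ) ∣ d x - d 1 then 1 else -1 with hs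
    have hs1 : ∀ x, (4 : ℤ) ∣ s x * d x - d 1 := by
      intro x
      rw [hs]
      simp only
      have h2 := hdodd x
      have h3 := hdodd 1
      split_ifs with h
      · rw [one_mul]; exact h
      · omega
    have hspm : ∀ x, s x = 1 ∨ s x = -1 := by
      intro x
      rw [hs]
      simp only
      split_ifs
      · left; rfl
      · right; rfl
    have hsmul : ∀ x y, s (x * y) = s x * s y := by
      intro x y
      have h2 := h4d x y
      have h3 := hs1 x
      have h4 := hs1 y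
      have h5 := hs1 (x * y)
      have h6 := hdodd 1
      rcases hspm x with e1 | e1 <;> rcases hspm y with e2 | e2 <;> rcases hspm (x * y) with e3 | e3 <;>
        rw [e1] at h3 <;> rw [e2] at h4 <;> rw [e3] at h5 <;> rw [e1, e2, e3] <;> omega
    have hs_one : s 1 = 1 := by
      rw [hs]; simp
    let S : A →* ℂˣ :=
      { toFun := fun x => if s x = 1 then (1 : ℂˣ) else -1
        map_one' := by
          show (if s 1 = 1 then (1 : ℂˣ) else -1) = 1
          rw [hs_one]; simp
        map_mul' := by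
          intro x y
          show (if s (x * y) = 1 then (1 : ℂˣ) else -1) = (if s x = 1 then (1 : ℂˣ) else -1) * (if s y = 1 then (1 : ℂˣ) else -1)
          rw [hsmul]
          rcases hspm x with e1 | e1 <;> rcases hspm y with e2 | e2 <;> rw [e1, e2] <;> norm_num }
    have hS : ∀ x, ((S x : ℂˣ) : ℂ) = s x := by
      intro x
      show (((if s x = 1 then (1 : ℂˣ) else -1) : ℂˣ) : ℂ) = s x
      rcases hspm x with e1 | e1 <;> rw [e1] <;> norm_num
    refine ⟨μ * S, fun x => if d x = c x then s x else - s x, fun x => ?_, fun x => ?_, fun x => ?_, fun _ x => ?_⟩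
    · simp only
      rcases hspm x with e1 | e1 <;> rw [e1] <;> split_ifs <;> simp
    · rw [MonoidHom.mul_apply, Units.val_mul, hS, hfd]
      have h2 : (s x : ℂ) * s x = 1 := by
        rcases hspm x with e1 | e1 <;> rw [e1] <;> norm_num
      simp only
      split_ifs with h3
      · rw [h3]
        calc (μ x : ℂ) * (c x : ℂ) = (μ x : ℂ) * (c x : ℂ) * 1 := by ring
          _ = _ := by rw [← h2]; ring
      · have h4 : d x = - c x := (hdsq x).resolve_left h3
        rw [h4]
        push_cast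
        calc (μ x : ℂ) * (-(c x : ℂ)) = - ((μ x : ℂ) * (c x : ℂ)) * 1 := by ring
          _ = _ := by rw [← h2]; ring
    · have h2 := hs1 x
      rw [hd1] at h2
      simp only
      split_ifs with h3
      · rw [← h3]
        push_cast
        omega
      · have h4 : d x = - c x := (hdsq x).resolve_left h3
        have h5 : c x = - d x := by omega
        rw [h5]
        push_cast
        have h6 : -s x * -d x = s x * d x := by ring
        rw [h6]
        omega
    · have h2 := hs1 x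
      rw [hd1] at h2
      simp only
      split_ifs with h3
      · rw [← h3]
        exact h2
      · have h4 : d x = - c x := (hdsq x).resolve_left h3
        have h5 : c x = - d x := by omega
        rw [h5]
        have h6 : -s x * -d x = s x * d x := by ring
        rw [h6]
        exact h2
  · refine ⟨μ, fun x => if d x = c x then 1 else -1, fun x => ?_, fun x => ?_, fun x => ?_, fun h => absurd h hp2⟩
    · simp only
      split_ifs <;> simp
    · rw [hfd]
      simp only
      split_ifs with h3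
      · rw [h3]; push_cast; ring
      · have h4 : d x = - c x := (hdsq x).resolve_left h3
        rw [h4]; push_cast; ring
    · have h2 := hpd x
      rw [hd1] at h2
      simp only
      split_ifs with h3
      · rw [← h3, one_mul]; exact h2
      · have h4 : d x = - c x := (hdsq x).resolve_left h3
        have h5 : c x = - d x := by omega
        rw [h5]
        have h6 : -1 * -d x = d x := by ring
        rw [h6]; exact h2

end

end H78.GPure
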