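import Mathlib
import Cfsg.Prelude.Def_Blocks
import Cfsg.Agent.Lib.H1.Cores
import Cfsg.Agent.Lib.H1.SZ
import Cfsg.Agent.Lib.H4.CenterIndex
import Cfsg.Agent.Lib.H20.Defect
import Cfsg.Agent.Lib.H70.Cover
import Cfsg.Agent.Lib.H31.Clifford

/-! Ito's theorem and its converse for solvable groups (S4493). -/

set_option autoImplicit false
set_option linter.unusedSectionVars false
set_option linter.unusedVariables false
set_option linter.style.haveILetI false
open Cfsg H20.Defect H18.CharBasic H31.Clifford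
open scoped ComplexConjugate Pointwise

namespace H78.Ito

universe u

/-- no degree is divisible by `p` -/
def AllPr (p : ℕ) (G : Type u) [Group G] : Prop :=
  ∀ χ : IrrCharacter G, ¬ p ∣ charDegree (χ : G → ℂ)

variable {G : Type u} [Group G] [Finite G] {p : ℕ}

theorem degree_nat [Fintype G] (N : Subgroup G) [N.Normal] [Fintype N] (θ : IrrCharacter N) :
    ∃ (χ : IrrCharacter G) (c : ℕ), classInner (fun n : N => (χ : G → ℂ) n) (θ : N → ℂ) ≠ 0 ∧
      charDegree (χ : G → ℂ) = c * (inertia N (θ : N → ℂ)).index * charDegree (θ : N → ℂ) := by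
  obtain ⟨χ, hχ, hne⟩ := H18.CharQuot.exists_over N θ.2
  obtain ⟨c, hc⟩ := H18.CharOrtho.inner_char_natCast
    (H18.CharBasic.isCharacter_restrict N (isCharacter_of_isIrr hχ)) (isCharacter_of_isIrr θ.2)
  refine ⟨⟨χ, hχ⟩, c, hne, ?_⟩
  have h1 := degree_eq N hχ θ.2 hne
  rw [hc] at h1
  have h2 : (charDegree χ : ℂ) = χ 1 := charDegree_irr ⟨χ, hχ⟩
  have h3 : (charDegree (θ : N → ℂ) : ℂ) = (θ : N → ℂ) 1 := charDegree_irr θ
  rw [← h2, ← h3] at h1
  exact_mod_cast h1

theorem AllPr.normal (h : AllPr p G) (N : Subgroup G) [N.Normal] : AllPr p N := by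
  intro θ hθ
  letI := Fintype.ofFinite G
  letI := Fintype.ofFinite N
  obtain ⟨χ, c, -, hc⟩ := degree_nat N θ
  exact h χ (hc ▸ Dvd.dvd.mul_left hθ _)

theorem AllPr.quot (h : AllPr p G) (N : Subgroup G) [N.Normal] : AllPr p (G ⧸ N) := by
  intro χ hχ
  apply h (H18.CharQuot.irrQuotEquiv N χ).1
  have h1 : charDegree (((H18.CharQuot.irrQuotEquiv N χ).1 : IrrCharacter G) : G → ℂ) =
      charDegree (χ : G ⧸ N → ℂ) := by
    rw [charDegree, charDegree, H18.CharQuot.irrQuotEquiv_apply]
    rfl
  rwa [h1]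

/-- if the degrees are prime to `p = [G:K]`, conjugation by `G` preserves the classes of `K`. -/
theorem conj_of_index (hp : p.Prime) (h : AllPr p G) (K : Subgroup G) [hK : K.Normal] (hidx : K.index = p)
    (g : G) (k : K) : IsConj k (⟨g * k * g⁻¹, hK.conj_mem k k.2 g⟩ : K) := by
  letI := Fintype.ofFinite G
  letI := Fintype.ofFinite K
  rw [H18.CharInd.isConj_iff_char]
  intro θ
  obtain ⟨χ, c, -, hc⟩ := degree_nat K θ
  have h1 : (inertia K (θ : K → ℂ)).index ∣ p := by
    rw [← hidx]
    exact Subgroup.index_dvd_of_le (le_inertia K (isClassFunction_of_isIrr θ.2))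
  have h2 : inertia K (θ : K → ℂ) = ⊤ := by
    rcases (Nat.dvd_prime hp).1 h1 with h3 | h3
    · exact Subgroup.index_eq_one.1 h3
    · exfalso
      apply h χ
      rw [hc, h3]
      exact Dvd.intro_left c rfl |>.mul_right _
  have h3 : g ∈ inertia K (θ : K → ℂ) := by rw [h2]; trivial
  have h4 := congrFun ((mem_inertia K).1 h3) k
  rw [cj_apply] at h4
  exact h4.symm

/-- Lemma A -/
theorem exists_central (hp : p.Prime) (h : AllPr p G) (K : Subgroup G) [hK : K.Normal]
    (hidx : K.index = p) (hcard : ¬ p ∣ Nat.card K) :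
    ∃ z : G, orderOf z = p ∧ ∀ g : G, Commute g z := by
  haveI : Fact p.Prime := ⟨hp⟩
  have hG : Nat.card G = Nat.card K * p := by rw [← hidx, Subgroup.card_mul_index]
  obtain ⟨z₀, hz₀⟩ := exists_prime_orderOf_dvd_card' (G := G) p (hG ▸ Dvd.intro_left _ rfl)
  have hfac : (Nat.card G).factorization p = 1 := by
    rw [hG, Nat.factorization_mul Nat.card_pos.ne' hp.ne_zero, Finsupp.add_apply,
      Nat.factorization_eq_zero_of_not_dvd hcard, hp.factorization_self]
  -- every subgroup of order `p` is a Sylow subgroup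
  have hsyl : ∀ z : G, orderOf z = p → ∃ P : Sylow p G, (P : Subgroup G) = Subgroup.zpowers z := by
    intro z hz
    refine ⟨Sylow.ofCard (Subgroup.zpowers z) ?_, rfl⟩
    rw [Nat.card_zpowers, hz, hfac, pow_one]
  have hcov : ∀ x : G, ∃ g : G, g⁻¹ * x * g ∈ Subgroup.centralizer ({z₀} : Set G) := by
    intro x
    obtain ⟨z, hz, hxz⟩ : ∃ z : G, orderOf z = p ∧ Commute x z := by
      by_cases hx : x ∈ K
      · -- `G = K C_G(x)`
        have htop : K ⊔ Subgroup.centralizer ({x} : Set G) = ⊤ := by
          rw [eq_top_iff]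
          intro g _
          obtain ⟨k, hk⟩ := isConj_iff.1 (conj_of_index hp h K hidx g ⟨x, hx⟩)
          have hk' : (k : G) * x * (k : G)⁻¹ = g * x * g⁻¹ := congrArg Subtype.val hk
          have hmem : (k : G)⁻¹ * g ∈ Subgroup.centralizer ({x} : Set G) := by
            rw [Subgroup.mem_centralizer_singleton_iff]
            calc (k : G)⁻¹ * g * x = (k : G)⁻¹ * (g * x * g⁻¹) * g := by group
              _ = (k : G)⁻¹ * ((k : G) * x * (k : G)⁻¹) * g := by rw [hk']
              _ = x * ((k : G)⁻¹ * g) := by group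
          have : g = k * ((k : G)⁻¹ * g) := by group
          rw [this]
          exact Subgroup.mul_mem_sup k.2 hmem
        have h1 : p ∣ Nat.card (Subgroup.centralizer ({x} : Set G)) := by
          have h2 := Subgroup.relIndex_sup_left (Subgroup.centralizer ({x} : Set G)) K
          rw [htop, Subgroup.relIndex_top_right, hidx] at h2
          rw [h2]
          exact Subgroup.relIndex_dvd_card _ _
        obtain ⟨z, hz⟩ := exists_prime_orderOf_dvd_card' p h1
        exact ⟨z, by rw [Subgroup.orderOf_coe, hz],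
          (Subgroup.mem_centralizer_singleton_iff.1 z.2).symm⟩
      · have h1 : p ∣ orderOf x := by
          by_contra hnd
          apply hx
          have h5 : Nat.Coprime (orderOf x) K.index := by
            rw [hidx]
            exact ((Nat.Prime.coprime_iff_not_dvd hp).2 hnd).symm
          have h6 : (QuotientGroup.mk' K) x = 1 := by
            rw [← orderOf_eq_one_iff]
            apply Nat.eq_one_of_dvd_coprimes h5
            · exact orderOf_map_dvd _ _
            · rw [Subgroup.index]; exact orderOf_dvd_natCard _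
          exact (QuotientGroup.eq_one_iff x).1 h6
        refine ⟨x ^ (orderOf x / p), ?_, (Commute.refl x).pow_right _⟩
        rw [orderOf_pow_of_dvd]
        · exact Nat.div_div_self h1 (orderOf_pos x).ne'
        · exact (Nat.div_pos (Nat.le_of_dvd (orderOf_pos x) h1) hp.pos).ne'
        · exact Nat.div_dvd_of_dvd h1
    obtain ⟨P, hP⟩ := hsyl z hz
    obtain ⟨P₀, hP₀⟩ := hsyl z₀ hz₀
    obtain ⟨c, hc⟩ := MulAction.exists_smul_eq G P P₀
    refine ⟨c⁻¹, ?_⟩
    rw [inv_inv, Subgroup.mem_centralizer_singleton_iff]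
    have h1 : z₀ ∈ (P₀ : Subgroup G) := by rw [hP₀]; exact Subgroup.mem_zpowers _
    rw [← hc] at h1
    have h2 : c⁻¹ * z₀ * c ∈ (P : Subgroup G) := by
      have h3 : z₀ ∈ MulAut.conj c • (P : Subgroup G) := h1
      rw [Subgroup.mem_pointwise_smul_iff_inv_smul_mem] at h3
      simpa [MulAut.smul_def] using h3
    rw [hP] at h2
    obtain ⟨m, hm⟩ := Subgroup.mem_zpowers_iff.1 h2
    have h3 : Commute x (c⁻¹ * z₀ * c) := by rw [← hm]; exact hxz.zpow_right m
    calc c * x * c⁻¹ * z₀ = c * (x * (c⁻¹ * z₀ * c)) * c⁻¹ := by group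
      _ = c * ((c⁻¹ * z₀ * c) * x) * c⁻¹ := by rw [h3.eq]
      _ = z₀ * (c * x * c⁻¹) := by group
  have htop := H70.Cover.eq_top_of_cover _ hcov
  refine ⟨z₀, hz₀, fun g => ?_⟩
  have : g ∈ Subgroup.centralizer ({z₀} : Set G) := by rw [htop]; trivial
  exact Subgroup.mem_centralizer_singleton_iff.1 this

theorem index_pCore (hp : p.Prime) : ∀ (n : ℕ) (G : Type u) [Group G] [Finite G], Nat.card G = n →
    Group.IsSolvable G → AllPr p G → ¬ p ∣ (pCore p G).index := by
  intro n
  induction n using Nat.strong_induction_on with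
  | _ n ih =>
    intro G _ _ hn hsolv h
    haveI : Fact p.Prime := ⟨hp⟩
    by_cases hG : (⊥ : Subgroup G) = ⊤
    · have h1 : pCore p G = ⊤ := by
        rw [eq_top_iff, ← hG]; exact bot_le
      rw [h1, Subgroup.index_top]
      exact hp.one_lt.ne' ∘ Nat.dvd_one.1
    obtain ⟨K, hKn, -, hKp⟩ := H1.SZ.exists_normal_prime_index (⊥ : Subgroup G) hG inferInstance
    have hKlt : Nat.card K < n := by
      rw [← hn, ← Subgroup.card_mul_index K]
      exact lt_mul_of_one_lt_right Nat.card_pos hKp.one_lt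
    have hIH := ih (Nat.card K) hKlt K rfl inferInstance (h.normal K)
    set L := (pCore p K).map K.subtype with hL
    haveI hLn : L.Normal := ConjAct.normal_of_characteristic_of_normal
    have hLp : IsPGroup p L := (H1.Cores.isPGroup_pCore p).map _
    have hLK : L ≤ K := Subgroup.map_subtype_le _
    have hLidx : L.index = (pCore p K).index * K.index := by
      rw [hL, Subgroup.index_map_subtype]
    by_cases hq : K.index = p
    · -- quotient
      have hsurj := QuotientGroup.mk'_surjective L
      have hK' : (K.map (QuotientGroup.mk' L)).index = p := by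
        rw [← hq]
        exact Subgroup.index_map_eq K hsurj (by rw [QuotientGroup.ker_mk']; exact hLK)
      have hcL : Nat.card L = Nat.card (pCore p K) :=
        Subgroup.card_map_of_injective (Subgroup.subtype_injective K)
      have hKc : Nat.card (K.map (QuotientGroup.mk' L)) = (pCore p K).index := by
        have h1 := H1.Cores.card_map_mk' L K hLK
        have h2 := Subgroup.card_mul_index (pCore p K)
        rw [hcL, ← h2] at h1
        exact Nat.eq_of_mul_eq_mul_left Nat.card_pos h1
      obtain ⟨z, hz, hzc⟩ := exists_central hp (h.quot L) (K.map (QuotientGroup.mk' L)) hK'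
        (by rw [hKc]; exact hIH)
      haveI hzn : (Subgroup.zpowers z).Normal := by
        refine ⟨fun n hn g => ?_⟩
        obtain ⟨k, rfl⟩ := Subgroup.mem_zpowers_iff.1 hn
        rw [((hzc g).zpow_right k).eq, mul_assoc, mul_inv_cancel, mul_one]
        exact Subgroup.zpow_mem_zpowers z k
      have hzp : IsPGroup p (Subgroup.zpowers z) := by
        apply IsPGroup.of_card (n := 1)
        rw [Nat.card_zpowers, hz, pow_one]
      have hP1 : IsPGroup p ((Subgroup.zpowers z).comap (QuotientGroup.mk' L)) := by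
        apply hzp.comap_of_ker_isPGroup
        rw [QuotientGroup.ker_mk']
        exact hLp
      have h1 := Subgroup.index_dvd_of_le (H1.Cores.le_pCore inferInstance hP1)
      rw [Subgroup.index_comap_of_surjective _ hsurj] at h1
      intro hd
      apply hIH
      rw [← hKc]
      have h2 := Subgroup.card_mul_index (Subgroup.zpowers z)
      have h3 := Subgroup.card_mul_index (K.map (QuotientGroup.mk' L))
      rw [Nat.card_zpowers, hz] at h2
      rw [hK', mul_comm] at h3
      have h4 : (Subgroup.zpowers z).index = Nat.card (K.map (QuotientGroup.mk' L)) :=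
        Nat.eq_of_mul_eq_mul_left hp.pos (h2.trans h3.symm)
      rw [← h4]
      exact hd.trans h1
    · have h1 := Subgroup.index_dvd_of_le (H1.Cores.le_pCore hLn hLp)
      intro hd
      have h2 := hd.trans h1
      rw [hLidx, hp.dvd_mul] at h2
      rcases h2 with h2 | h2
      · exact hIH h2
      · exact hq ((Nat.prime_dvd_prime_iff_eq hp hKp).1 h2).symm

/-- S4493 -/
theorem main (hsolv : Group.IsSolvable G) (hp : p.Prime) :
    (∃ P : Subgroup G, P.Normal ∧ (∀ x ∈ P, ∀ y ∈ P, x * y = y * x) ∧ IsPGroup p P ∧ ¬ p ∣ P.index) ↔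
      ∀ χ : IrrCharacter G, ¬ p ∣ charDegree (χ : G → ℂ) := by
  haveI : Fact p.Prime := ⟨hp⟩
  constructor
  · rintro ⟨P, hPn, hcomm, -, hidx⟩ χ hd
    exact hidx (hd.trans (H4.CenterIndex.ito χ.2 (charDegree_irr χ).symm P hcomm))
  · intro h
    refine ⟨pCore p G, inferInstance, ?_, H1.Cores.isPGroup_pCore p, index_pCore hp _ G rfl hsolv h⟩
    have hN : AllPr p (pCore p G) := AllPr.normal h (pCore p G)
    have hlin : ∀ χ : IrrCharacter (pCore p G), (χ : pCore p G → ℂ) 1 = 1 := by
      intro χ
      have h1 := charDegree_dvd_card χ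
      obtain ⟨k, hk⟩ := IsPGroup.iff_card.1 (H1.Cores.isPGroup_pCore (G := G) p)
      rw [hk] at h1
      obtain ⟨j, hj, hj'⟩ := (Nat.dvd_prime_pow hp).1 h1
      have hj0 : j = 0 := by
        by_contra hne
        exact hN χ (hj' ▸ dvd_pow_self p hne)
      rw [← charDegree_irr χ, hj', hj0]
      simp
    intro x hx y hy
    have h1 : (⟨x, hx⟩ : pCore p G) * ⟨y, hy⟩ * (⟨x, hx⟩)⁻¹ * (⟨y, hy⟩)⁻¹ = 1 := by
      apply H18.CharQuot.eq_one_of_forall_irr
      intro χ hχ
      obtain ⟨f, rfl⟩ := H18.CharQuot.exists_hom_of_degree_one (isCharacter_of_isIrr hχ) (hlin ⟨χ, hχ⟩)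
      simp only [map_mul, map_inv, map_one, Units.val_one]
      rw [mul_comm (f ⟨x, hx⟩) (f ⟨y, hy⟩)]
      simp
    have h2 : x * y * x⁻¹ * y⁻¹ = 1 := congrArg Subtype.val h1
    calc x * y = (x * y * x⁻¹ * y⁻¹) * (y * x) := by group
      _ = y * x := by rw [h2, one_mul]

end H78.Ito
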