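import Mathlib
import Cfsg.Prelude.Def_Blocks
import Cfsg.Agent.Lib.H78.BF
import Cfsg.Agent.Lib.H78.Galois
import Cfsg.Agent.Lib.H78.Cong
import Cfsg.Agent.Lib.H20.PPart

/-! `p`-conjugate characters (S4506). -/

set_option autoImplicit false
set_option linter.unusedSectionVars false
set_option linter.unusedVariables false
set_option linter.style.haveILetI false
open Cfsg H20.Loc H20.GA H20.Blk H20.Orth H20.DefGrp H20.Defect H20.Height
open H18.CharBasic
open scoped ComplexConjugate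

namespace H78.PConj

universe u
variable {G : Type u} [Group G] [Finite G]

theorem pow_congr_card {m k : ℕ} (h : m ≡ k [MOD Nat.card G]) (g : G) : g ^ m = g ^ k :=
  pow_eq_pow_iff_modEq.2 (h.of_dvd (orderOf_dvd_natCard g))

/-- Galois action on irreducible characters through power maps. -/
@[reducible] noncomputable def galAct : MulAction (ZMod (Nat.card G))ˣ (IrrCharacter G) where
  smul u χ := Galois.powIrr (ZMod.val_coe_unit_coprime u) χ
  one_smul χ := by
    apply Subtype.ext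
    funext g
    show (χ : G → ℂ) (g ^ ((1 : (ZMod (Nat.card G))ˣ) : ZMod (Nat.card G)).val) = (χ : G → ℂ) g
    rw [Units.val_one, ZMod.val_one_eq_one_mod]
    rw [pow_congr_card (Nat.mod_modEq 1 _), pow_one]
  mul_smul u v χ := by
    apply Subtype.ext
    funext g
    show (χ : G → ℂ) (g ^ ((u * v : (ZMod (Nat.card G))ˣ) : ZMod (Nat.card G)).val) =
      (χ : G → ℂ) ((g ^ ((u : ZMod (Nat.card G)).val)) ^ ((v : ZMod (Nat.card G)).val))
    rw [Units.val_mul, ZMod.val_mul, pow_congr_card (Nat.mod_modEq _ _), pow_mul]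

attribute [local instance] galAct

theorem smul_apply (u : (ZMod (Nat.card G))ˣ) (χ : IrrCharacter G) (g : G) :
    ((u • χ : IrrCharacter G) : G → ℂ) g = (χ : G → ℂ) (g ^ (u : ZMod (Nat.card G)).val) := rfl

/-- the `p`-conjugates -/
def PC (p : ℕ) (χ : IrrCharacter G) : Set (IrrCharacter G) :=
  {ψ | ∃ σ : ℂ ≃+* ℂ, σ (Complex.exp (2 * Real.pi * Complex.I / ((Nat.card G / p ^ (Nat.card G).factorization p) : ℕ))) = Complex.exp (2 * Real.pi * Complex.I / ((Nat.card G / p ^ (Nat.card G).factorization p) : ℕ)) ∧ (ψ : G → ℂ) = fun g => σ ((χ : G → ℂ) g)}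

/-- units congruent to one modulo the `p'`-part -/
def AA (G : Type u) [Group G] [Finite G] (p : ℕ) : Subgroup (ZMod (Nat.card G))ˣ where
  carrier := {u | (u : ZMod (Nat.card G)).val ≡ 1 [MOD Nat.card G / p ^ (Nat.card G).factorization p]}
  one_mem' := by
    show ((1 : (ZMod (Nat.card G))ˣ) : ZMod (Nat.card G)).val ≡ 1 [MOD _]
    rw [Units.val_one, ZMod.val_one_eq_one_mod]
    exact (Nat.mod_modEq 1 _).of_dvd (Nat.ordCompl_dvd _ _)
  mul_mem' := by
    intro u v hu hv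
    show ((u * v : (ZMod (Nat.card G))ˣ) : ZMod (Nat.card G)).val ≡ 1 [MOD _]
    rw [Units.val_mul, ZMod.val_mul]
    refine ((Nat.mod_modEq _ _).of_dvd (Nat.ordCompl_dvd _ _)).trans ?_
    exact Nat.ModEq.mul hu hv
  inv_mem' := by
    intro u hu
    show ((u⁻¹ : (ZMod (Nat.card G))ˣ) : ZMod (Nat.card G)).val ≡ 1 [MOD _]
    have h1 : (u : ZMod (Nat.card G)).val ≡ 1 [MOD _] := hu
    have h2 : ((u * u⁻¹ : (ZMod (Nat.card G))ˣ) : ZMod (Nat.card G)).val ≡ 1
        [MOD Nat.card G / p ^ (Nat.card G).factorization p] := by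
      rw [mul_inv_cancel, Units.val_one, ZMod.val_one_eq_one_mod]
      exact (Nat.mod_modEq 1 _).of_dvd (Nat.ordCompl_dvd _ _)
    rw [Units.val_mul, ZMod.val_mul] at h2
    have h3 := ((Nat.mod_modEq ((u : ZMod (Nat.card G)).val *
      ((u⁻¹ : (ZMod (Nat.card G))ˣ) : ZMod (Nat.card G)).val) (Nat.card G)).of_dvd
      (Nat.ordCompl_dvd (Nat.card G) p)).symm.trans h2
    have h4 := (Nat.ModEq.mul_right ((u⁻¹ : (ZMod (Nat.card G))ˣ) : ZMod (Nat.card G)).val h1).symm.trans h3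
    rwa [one_mul] at h4

theorem mem_AA {p : ℕ} {u : (ZMod (Nat.card G))ˣ} :
    u ∈ AA G p ↔ (u : ZMod (Nat.card G)).val ≡ 1 [MOD Nat.card G / p ^ (Nat.card G).factorization p] :=
  Iff.rfl

theorem pr_pow {ζ : ℂ} {m k : ℕ} (h : IsPrimitiveRoot ζ m) (hm : m ≠ 0) :
    ζ ^ k = ζ ↔ k ≡ 1 [MOD m] := by
  have h0 : ζ ≠ 0 := h.ne_zero hm
  have h1 : ζ ^ k = ζ ↔ ζ ^ ((1 : ℤ) - k) = 1 := by
    rw [zpow_sub₀ h0, zpow_one, zpow_natCast, div_eq_one_iff_eq (pow_ne_zero _ h0)]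
    exact eq_comm
  rw [h1, h.zpow_eq_one_iff_dvd, Nat.modEq_iff_dvd]
  norm_num

/-- an automorphism of ℂ acts on the `n`-th roots of unity as a power map. -/
theorem exists_pow_of_aut {n : ℕ} (hn : n ≠ 0) (σ : ℂ ≃+* ℂ) :
    ∃ k : ℕ, k.Coprime n ∧ ∀ z : ℂ, z ^ n = 1 → σ z = z ^ k := by
  haveI : NeZero n := ⟨hn⟩
  have hζ := Complex.isPrimitiveRoot_exp n hn
  set ζ := Complex.exp (2 * Real.pi * Complex.I / n) with hζdef
  have hσ : IsPrimitiveRoot (σ ζ) n := hζ.map_of_injective (f := σ) σ.injective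
  obtain ⟨k, hk, hkc, hkeq⟩ := hζ.isPrimitiveRoot_iff.1 hσ
  refine ⟨k, hkc, fun z hz => ?_⟩
  obtain ⟨i, _, rfl⟩ := hζ.eq_pow_of_pow_eq_one hz
  rw [map_pow, ← hkeq, ← pow_mul, ← pow_mul, mul_comm]

theorem PC_eq_orbit (p : ℕ) (χ : IrrCharacter G) : PC p χ = MulAction.orbit (AA G p) χ := by
  set n := Nat.card G with hn
  have hn0 : n ≠ 0 := Nat.card_pos.ne'
  set g' := n / p ^ n.factorization p with hg'
  have hg'0 : g' ≠ 0 := (Nat.ordCompl_pos p hn0).ne'
  have hg'n : g' ∣ n := Nat.ordCompl_dvd _ _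
  have hprim := Complex.isPrimitiveRoot_exp g' hg'0
  have hroot : Complex.exp (2 * Real.pi * Complex.I / g') ^ n = 1 := by
    obtain ⟨c, hc⟩ := hg'n
    rw [hc, pow_mul, hprim.pow_eq_one, one_pow]
  ext ψ
  constructor
  · rintro ⟨σ, hσ1, hσ2⟩
    obtain ⟨k, hk, hkσ⟩ := exists_pow_of_aut hn0 σ
    have h1 : k ≡ 1 [MOD g'] := by
      have h2 := hkσ _ hroot
      rw [hσ1] at h2
      exact (pr_pow hprim hg'0).1 h2.symm
    let u : (ZMod n)ˣ := ZMod.unitOfCoprime k hk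
    have hu : (u : ZMod n).val ≡ k [MOD n] := by
      rw [ZMod.coe_unitOfCoprime, ZMod.val_natCast]
      exact Nat.mod_modEq _ _
    refine ⟨⟨u, ?_⟩, ?_⟩
    · rw [mem_AA]
      exact (hu.of_dvd hg'n).trans h1
    · apply Subtype.ext
      funext g
      show (χ : G → ℂ) (g ^ (u : ZMod n).val) = _
      rw [pow_congr_card hu, hσ2]
      exact (Galois.char_map_eq_pow dvd_rfl (σ := (σ : ℂ →+* ℂ)) hkσ (isCharacter_of_isIrr χ.2) g).symm
  · rintro ⟨⟨u, hu⟩, rfl⟩
    rw [mem_AA] at hu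
    obtain ⟨σ, hσ⟩ := Galois.exists_ringEquiv hn0 (ZMod.val_coe_unit_coprime u)
    refine ⟨σ, ?_, ?_⟩
    · rw [hσ _ hroot]
      exact (pr_pow hprim hg'0).2 hu
    · funext g
      exact (Galois.char_map_eq_pow dvd_rfl (σ := (σ : ℂ →+* ℂ)) hσ (isCharacter_of_isIrr χ.2) g).symm

/-- `p`-conjugate characters agree on `p`-regular elements -/
theorem pc_regular {p : ℕ} (hp : p.Prime) {χ ψ : IrrCharacter G} (h : ψ ∈ PC p χ) {g : G}
    (hg : ¬ p ∣ orderOf g) : (ψ : G → ℂ) g = (χ : G → ℂ) g := by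
  rw [PC_eq_orbit] at h
  obtain ⟨⟨u, hu⟩, rfl⟩ := h
  show (χ : G → ℂ) (g ^ (u : ZMod (Nat.card G)).val) = _
  have h1 : g ^ (u : ZMod (Nat.card G)).val = g ^ 1 := by
    rw [pow_eq_pow_iff_modEq]
    refine Nat.ModEq.of_dvd ?_ (mem_AA.1 hu)
    have h2 : (orderOf g).Coprime (p ^ (Nat.card G).factorization p) :=
      Nat.Coprime.pow_right _ ((Nat.Prime.coprime_iff_not_dvd hp).2 hg).symm
    refine h2.dvd_of_dvd_mul_left (n := Nat.card G / p ^ (Nat.card G).factorization p) ?_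
    rw [Nat.ordProj_mul_ordCompl_eq_self]
    exact orderOf_dvd_natCard g
  rw [h1, pow_one]

theorem pc_one {p : ℕ} {χ ψ : IrrCharacter G} (h : ψ ∈ PC p χ) :
    (ψ : G → ℂ) 1 = (χ : G → ℂ) 1 := by
  rw [PC_eq_orbit] at h
  obtain ⟨⟨u, hu⟩, rfl⟩ := h
  show (χ : G → ℂ) (1 ^ (u : ZMod (Nat.card G)).val) = _
  rw [one_pow]

theorem self_mem_PC (p : ℕ) (χ : IrrCharacter G) : χ ∈ PC p χ :=
  ⟨RingEquiv.refl ℂ, rfl, rfl⟩


theorem inner_reg_pc [Fintype G] {p : ℕ} (hp : p.Prime) {χ ψ : IrrCharacter G} (h : ψ ∈ PC p χ) :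
    classInner (reg p (χ : G → ℂ)) (ψ : G → ℂ) = classInner (reg p (χ : G → ℂ)) (χ : G → ℂ) := by
  unfold classInner
  congr 1
  refine Finset.sum_congr rfl fun g _ => ?_
  by_cases hg : p ∣ orderOf g
  · rw [reg_not hg, zero_mul, zero_mul]
  · rw [pc_regular hp h hg]

variable {p : ℕ} {M : Ideal AlgInt}

/-- the key numerical information. -/
theorem num [Fintype G] [Fintype (IrrCharacter G)] (hM : IsPModular p M) {B : Set (IrrCharacter G)}
    (hB : IsPBlock M B) {χ : IrrCharacter G} (hχ : χ ∈ B) {n : IrrCharacter G → ℤ}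
    (hn1 : ∀ ψ : IrrCharacter G, (p : ℂ) ^ blockDefect p B *
        classInner (reg p (χ : G → ℂ)) (ψ : G → ℂ) =
        (p : ℂ) ^ blockHeight p B (χ : G → ℂ) * n ψ) {ψ : IrrCharacter G} (h : ψ ∈ PC p χ) :
    n ψ = n χ := by
  have hp := pm_prime hM
  have hp0 : (p : ℂ) ≠ 0 := by exact_mod_cast hp.ne_zero
  have h1 := hn1 ψ
  rw [inner_reg_pc hp h, hn1 χ] at h1
  have h2 := mul_left_cancel₀ (pow_ne_zero _ hp0) h1
  exact_mod_cast h2.symm

theorem sum_ge [Fintype (IrrCharacter G)] (χ : IrrCharacter G) (n : IrrCharacter G → ℤ)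
    (h : ∀ ψ ∈ PC p χ, n ψ = n χ) :
    (Nat.card (PC p χ) : ℤ) * n χ ^ 2 ≤ ∑ ψ, n ψ ^ 2 ∧
    ((Nat.card (PC p χ) : ℤ) * n χ ^ 2 = ∑ ψ, n ψ ^ 2 → ∀ ψ, n ψ ≠ 0 → ψ ∈ PC p χ) := by
  classical
  have h1 : (Nat.card (PC p χ) : ℤ) * n χ ^ 2 = ∑ ψ : IrrCharacter G, if ψ ∈ PC p χ then n ψ ^ 2 else 0 := by
    rw [← Finset.sum_filter]
    have h2 : ∀ ψ ∈ Finset.univ.filter (fun ψ : IrrCharacter G => ψ ∈ PC p χ), n ψ ^ 2 = n χ ^ 2 := by
      intro ψ hψ
      rw [h ψ (Finset.mem_filter.1 hψ).2]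
    rw [Finset.sum_congr rfl h2, Finset.sum_const, nsmul_eq_mul]
    congr 2
    rw [Nat.card_eq_fintype_card, Fintype.card_subtype]
  constructor
  · rw [h1]
    refine Finset.sum_le_sum fun ψ _ => ?_
    split_ifs
    · exact le_rfl
    · positivity
  · intro h3 ψ hψ
    by_contra h4
    rw [h1] at h3
    have h5 : ∑ ψ : IrrCharacter G, (if ψ ∈ PC p χ then n ψ ^ 2 else 0) < ∑ ψ, n ψ ^ 2 := by
      refine Finset.sum_lt_sum (fun φ _ => ?_) ⟨ψ, Finset.mem_univ _, ?_⟩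
      · split_ifs
        · exact le_rfl
        · positivity
      · rw [if_neg h4]
        positivity
    exact absurd h3 h5.ne

theorem card_PC (p : ℕ) (χ : IrrCharacter G) :
    Nat.card (PC p χ) = (MulAction.stabilizer (AA G p) χ).index := by
  rw [MulAction.index_stabilizer, PC_eq_orbit]
  rfl

/-- if the number of `p`-conjugates is a power of `p`, then they all have the same values at
elements whose `p`-part has order dividing `p`. -/
theorem pc_value (hp : p.Prime) {χ ψ : IrrCharacter G} {d : ℕ} (hd : Nat.card (PC p χ) = p ^ d)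
    (hψ : ψ ∈ PC p χ) {z s : G} (hz : z ^ p = 1) (hs : ¬ p ∣ orderOf s) (hzs : Commute z s)
    (hpG : p ∣ Nat.card G) : (ψ : G → ℂ) (z * s) = (χ : G → ℂ) (z * s) := by
  have hψ' := hψ
  rw [PC_eq_orbit] at hψ'
  obtain ⟨⟨u, hu⟩, rfl⟩ := hψ'
  have hcop : Nat.Coprime (p ^ d) (p - 1) := by
    apply Nat.Coprime.pow_left
    rw [Nat.Prime.coprime_iff_not_dvd hp]
    intro h
    have h1 := Nat.le_of_dvd (Nat.sub_pos_of_lt hp.one_lt) h
    have := hp.one_lt
    omega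
  obtain ⟨N0, h1, h2⟩ := Nat.chineseRemainder hcop 1 0
  -- make `N ≥ 1`
  set N := N0 + p ^ d * (p - 1) with hN
  have hpos : 0 < p ^ d * (p - 1) := Nat.mul_pos (pow_pos hp.pos _) (Nat.sub_pos_of_lt hp.one_lt)
  have hN1 : N ≡ 1 [MOD p ^ d] := by
    have : N ≡ N0 [MOD p ^ d] := by rw [hN]; simp [Nat.ModEq]
    exact this.trans h1
  have hN2 : N ≡ 0 [MOD p - 1] := by
    have : N ≡ N0 [MOD p - 1] := by rw [hN]; simp [Nat.ModEq]
    exact this.trans h2
  have hNge : 1 ≤ N := by omega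
  have hstab : (⟨u, hu⟩ : AA G p) ^ (N - 1) ∈ MulAction.stabilizer (AA G p) χ := by
    have h3 : p ^ d ∣ N - 1 := (Nat.modEq_iff_dvd' hNge).1 hN1.symm
    obtain ⟨c, hc⟩ := h3
    rw [hc, pow_mul]
    apply Subgroup.pow_mem
    rw [← hd, card_PC]
    exact Subgroup.pow_index_mem _ _
  have h4 : ((⟨u, hu⟩ : AA G p) ^ N) • χ = (⟨u, hu⟩ : AA G p) • χ := by
    have : (⟨u, hu⟩ : AA G p) ^ N = ⟨u, hu⟩ * (⟨u, hu⟩ : AA G p) ^ (N - 1) := by
      rw [← pow_succ', Nat.sub_add_cancel hNge]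
    rw [this, mul_smul, MulAction.mem_stabilizer_iff.1 hstab]
  show (((⟨u, hu⟩ : AA G p) • χ : IrrCharacter G) : G → ℂ) (z * s) = _
  rw [← h4]
  show (χ : G → ℂ) ((z * s) ^ (((u ^ N : (ZMod (Nat.card G))ˣ)) : ZMod (Nat.card G)).val) = _
  have hval : (((u ^ N : (ZMod (Nat.card G))ˣ)) : ZMod (Nat.card G)).val ≡
      (u : ZMod (Nat.card G)).val ^ N [MOD Nat.card G] := by
    rw [Units.val_pow_eq_pow_val]
    have : ((u : ZMod (Nat.card G)).val ^ N : ℕ) = ((u : ZMod (Nat.card G)).val ^ N : ℕ) := rfl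
    rw [← ZMod.natCast_eq_natCast_iff]
    push_cast
    haveI : NeZero (Nat.card G) := ⟨Nat.card_pos.ne'⟩
    rw [ZMod.natCast_zmod_val, ZMod.natCast_zmod_val]
  rw [pow_congr_card hval, hzs.mul_pow]
  congr 1
  have hz1 : z ^ (u : ZMod (Nat.card G)).val ^ N = z := by
    obtain ⟨c, hc⟩ := (Nat.modEq_zero_iff_dvd).1 hN2
    have hcu : ((u : ZMod (Nat.card G)).val).Coprime p :=
      (ZMod.val_coe_unit_coprime u).coprime_dvd_right hpG
    have h5 : (u : ZMod (Nat.card G)).val ^ N ≡ 1 [MOD p] := by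
      rw [hc, pow_mul]
      have h6 := Nat.ModEq.pow_totient hcu
      rw [Nat.totient_prime hp] at h6
      calc ((u : ZMod (Nat.card G)).val ^ (p - 1)) ^ c ≡ 1 ^ c [MOD p] := h6.pow c
        _ = 1 := one_pow c
    have h7 : z ^ (u : ZMod (Nat.card G)).val ^ N = z ^ 1 :=
      pow_eq_pow_iff_modEq.2 (h5.of_dvd (orderOf_dvd_of_pow_eq_one hz))
    rw [h7, pow_one]
  have hs1 : s ^ (u : ZMod (Nat.card G)).val ^ N = s := by
    have h2 : (orderOf s).Coprime (p ^ (Nat.card G).factorization p) :=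
      Nat.Coprime.pow_right _ ((Nat.Prime.coprime_iff_not_dvd hp).2 hs).symm
    have h3 : orderOf s ∣ Nat.card G / p ^ (Nat.card G).factorization p := by
      refine h2.dvd_of_dvd_mul_left (n := Nat.card G / p ^ (Nat.card G).factorization p) ?_
      rw [Nat.ordProj_mul_ordCompl_eq_self]
      exact orderOf_dvd_natCard s
    have h5 : (u : ZMod (Nat.card G)).val ^ N ≡ 1 [MOD orderOf s] := by
      have h6 := ((mem_AA.1 hu).of_dvd h3).pow N
      rwa [one_pow] at h6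
    have h7 : s ^ (u : ZMod (Nat.card G)).val ^ N = s ^ 1 := pow_eq_pow_iff_modEq.2 h5
    rw [h7, pow_one]
  rw [hz1, hs1]

/-- S4506 -/
theorem main (hM : IsPModular p M) (χ : IrrCharacter G) :
    (Nat.card (PC p χ) * charDegree (χ : G → ℂ)).factorization p ≤
        (Nat.card G).factorization p ∧
      (p ^ (Nat.card G).factorization p ∣ Nat.card (PC p χ) * charDegree (χ : G → ℂ) →
        p ^ (Nat.card G).factorization p ∣ charDegree (χ : G → ℂ)) := by
  classical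
  haveI := pm_isPrime hM
  letI := Fintype.ofFinite G
  letI := Fintype.ofFinite (IrrCharacter G)
  have hp := pm_prime hM
  have hB : IsPBlock M (blockOf M (χ : G → ℂ)) := isPBlock_blockOf χ
  have hχ : χ ∈ blockOf M (χ : G → ℂ) := mem_blockOf_self χ
  generalize blockOf M (χ : G → ℂ) = B at hB hχ
  obtain ⟨n, hn1, hn2, hn3, hn4⟩ := BF.exists_matrix hM hB hχ
  obtain ⟨hs1, hs2⟩ := sum_ge (p := p) χ n fun ψ hψ => num hM hB hχ hn1 hψ
  have hht := BF.height_eq hM hB hχ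
  set a := (Nat.card G).factorization p with ha
  set d := blockDefect p B with hd
  set h := blockHeight p B (χ : G → ℂ) with hh
  set r := Nat.card (PC p χ) with hr
  have hr0 : r ≠ 0 := by
    rw [hr]
    haveI : Nonempty (PC p χ) := ⟨⟨χ, self_mem_PC p χ⟩⟩
    exact Nat.card_pos.ne'
  have hdeg0 := charDegree_ne_zero χ
  have hpp : (0 : ℤ) < p := by exact_mod_cast hp.pos
  have hph : (0 : ℤ) < (p : ℤ) ^ h := by positivity
  -- `p^h r n ≤ p^d`
  have h1 : (p : ℤ) ^ h * r * n χ ≤ (p : ℤ) ^ d := by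
    have h2 : ((p : ℤ) ^ h * r * n χ) * n χ ≤ (p : ℤ) ^ d * n χ := by
      rw [← hn4]
      calc ((p : ℤ) ^ h * r * n χ) * n χ = (p : ℤ) ^ h * (r * n χ ^ 2) := by ring
        _ ≤ _ := mul_le_mul_of_nonneg_left hs1 hph.le
    exact le_of_mul_le_mul_right h2 hn3
  have h2 : p ^ h * r ≤ p ^ d := by
    have h3 : (p : ℤ) ^ h * r ≤ (p : ℤ) ^ h * r * n χ := by
      have : (0 : ℤ) ≤ (p : ℤ) ^ h * r := by positivity
      nlinarith
    exact_mod_cast h3.trans h1
  have h3 : p ^ r.factorization p ≤ r := Nat.ordProj_le p hr0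
  have h4 : h + r.factorization p ≤ d := by
    have : p ^ (h + r.factorization p) ≤ p ^ d := by
      rw [pow_add]
      exact (Nat.mul_le_mul_left _ h3).trans h2
    exact (Nat.pow_le_pow_iff_right hp.one_lt).1 this
  have hfac : (r * charDegree (χ : G → ℂ)).factorization p =
      r.factorization p + (charDegree (χ : G → ℂ)).factorization p := by
    rw [Nat.factorization_mul hr0 hdeg0]; rfl
  refine ⟨by rw [hfac]; omega, fun hdvd => ?_⟩
  have h5 : a ≤ r.factorization p + (charDegree (χ : G → ℂ)).factorization p := by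
    rw [← hfac]
    exact (hp.pow_dvd_iff_le_factorization (mul_ne_zero hr0 hdeg0)).1 hdvd
  have h6 : h + r.factorization p = d := by omega
  -- equality
  have h7 : r ≤ p ^ r.factorization p := by
    have : p ^ h * r ≤ p ^ h * p ^ r.factorization p := by rw [← pow_add, h6]; exact h2
    exact Nat.le_of_mul_le_mul_left this (pow_pos hp.pos _)
  have h8 : r = p ^ r.factorization p := le_antisymm h7 h3
  have h9 : (p : ℤ) ^ h * r = (p : ℤ) ^ d := by
    rw [← h6, pow_add]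
    congr 1
    exact_mod_cast h8
  have h10 : n χ = 1 := by
    have h11 : (p : ℤ) ^ d * n χ ≤ (p : ℤ) ^ d * 1 := by rw [mul_one, ← h9]; rw [h9]; rw [← h9]; exact h9 ▸ h1
    have := le_of_mul_le_mul_left h11 (by positivity)
    omega
  have h11 : ∀ ψ, n ψ ≠ 0 → ψ ∈ PC p χ := by
    apply hs2
    rw [h10] at hn4 ⊢
    have : (p : ℤ) ^ h * (r * 1 ^ 2) = (p : ℤ) ^ h * ∑ ψ, n ψ ^ 2 := by
      rw [hn4, ← h9]; ring
    exact mul_left_cancel₀ hph.ne' this
  have hPB : ∀ ψ ∈ PC p χ, ψ ∈ B := by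
    intro ψ hψ
    have h12 : ¬ (p : ℤ) ∣ n ψ := by
      rw [num hM hB hχ hn1 hψ, h10]
      intro h13
      have : p ∣ 1 := by exact_mod_cast h13
      exact hp.one_lt.ne' (Nat.dvd_one.1 this)
    exact ((hn2 ψ).1 h12).1
  have hh0 : h = 0 := by
    have h12 : ¬ (p : ℤ) ∣ n χ := by
      rw [h10]
      intro h13
      have : p ∣ 1 := by exact_mod_cast h13
      exact hp.one_lt.ne' (Nat.dvd_one.1 this)
    exact ((hn2 χ).1 h12).2
  have hBP : ∀ ψ ∈ B, ψ ∈ PC p χ := by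
    intro ψ hψ
    apply h11
    intro h0
    obtain ⟨m, hm1, hm2⟩ := BF.exists_n hM hB hψ χ
    have h12 := hm2.2 ⟨hχ, hh0⟩
    have h13 : classInner (reg p (χ : G → ℂ)) (ψ : G → ℂ) = 0 := by
      have h14 := hn1 ψ
      rw [h0, Int.cast_zero, mul_zero] at h14
      have hp0 : (p : ℂ) ≠ 0 := by exact_mod_cast hp.ne_zero
      exact (mul_eq_zero.1 h14).resolve_left (pow_ne_zero _ hp0)
    have h14 : classInner (reg p (ψ : G → ℂ)) (χ : G → ℂ) = 0 := by
      rw [inner_reg_symm (irr_char ψ) (irr_char χ), h13]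
    rw [h14, mul_zero] at hm1
    have hp0 : (p : ℂ) ≠ 0 := by exact_mod_cast hp.ne_zero
    have h15 := (mul_eq_zero.1 hm1.symm).resolve_left (pow_ne_zero _ hp0)
    have h16 : m = 0 := by exact_mod_cast h15
    exact h12 (h16 ▸ dvd_zero _)
  -- now the defect must be zero
  have hd0 : d = 0 := by
    by_contra hd0
    obtain ⟨s, hs⟩ := exists_isDefectClass hB
    have hsr := regular_of_isDefectClass hM hB hs
    have hcs : (Nat.card (Subgroup.centralizer ({s} : Set G))).factorization p = d :=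
      (blockDefect_eq hM hB hs).symm
    have hpc : p ∣ Nat.card (Subgroup.centralizer ({s} : Set G)) :=
      Nat.dvd_of_factorization_pos (by rw [hcs]; exact hd0)
    haveI : Fact p.Prime := ⟨hp⟩
    obtain ⟨z, hz⟩ := exists_prime_orderOf_dvd_card' p hpc
    have hzs : Commute (z : G) s := Subgroup.mem_centralizer_singleton_iff.1 z.2
    have hzo : orderOf (z : G) = p := by rw [Subgroup.orderOf_coe, hz]
    have hunit := H20.PPart.unit_mul hM hB hs (x := (z : G)) ⟨1, by rw [hzo, pow_one]⟩ hzs hχ hh0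
    have hpG : p ∣ Nat.card G := hpc.trans (Subgroup.card_subgroup_dvd_card _)
    have hsing : p ∣ orderOf ((z : G) * s) := by
      obtain ⟨h1, -⟩ := H20.PPart.mem_zpowers_mul hzs
        (H20.PPart.coprime_of_pelt (p := p) ⟨1, by rw [hzo, pow_one]⟩ hsr)
      have h2 := orderOf_dvd_of_mem_zpowers h1
      rwa [hzo] at h2
    have hw := weak_orth (x := (1 : G)) hM (isUnion_of_isPBlock hB)
      (by rw [orderOf_one]; exact hp.one_lt.ne' ∘ Nat.dvd_one.1) hsing
    have hrd : Nat.card (PC p χ) = p ^ r.factorization p := h8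
    have hval : ∀ ψ : IrrCharacter G, (if ψ ∈ B then (ψ : G → ℂ) 1 * conj ((ψ : G → ℂ) (z * s)) else 0) =
        if ψ ∈ B then (χ : G → ℂ) 1 * conj ((χ : G → ℂ) (z * s)) else 0 := by
      intro ψ
      split_ifs with hψ
      · rw [pc_one (hBP ψ hψ), pc_value hp hrd (hBP ψ hψ) (by rw [← hzo]; exact pow_orderOf_eq_one _)
          hsr hzs hpG]
      · rfl
    simp_rw [hval] at hw
    rw [← Finset.sum_filter, Finset.sum_const, nsmul_eq_mul] at hw
    have hne : ((Finset.univ.filter fun ψ : IrrCharacter G => ψ ∈ B).card : ℂ) ≠ 0 := by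
      have : 0 < (Finset.univ.filter fun ψ : IrrCharacter G => ψ ∈ B).card :=
        Finset.card_pos.2 ⟨χ, Finset.mem_filter.2 ⟨Finset.mem_univ _, hχ⟩⟩
      exact_mod_cast this.ne'
    have h12 := (mul_eq_zero.1 hw).resolve_left hne
    have h13 := (mul_eq_zero.1 h12).resolve_left (irr_one_ne_zero χ.2)
    exact ne_zero_of_not_locI hunit ((map_eq_zero _).1 h13)
  rw [hp.pow_dvd_iff_le_factorization hdeg0]
  omega

end H78.PConj
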