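import Cfsg.Agent.Lib.H21.PBlock
import Cfsg.Agent.Lib.H78.BlkRed
import Cfsg.Agent.Lib.H18.DetChar
import Cfsg.Agent.Lib.H4.Eigen

/-!
Self-centralizing elements of prime order and characters of degree `p - 1`.
-/

set_option autoImplicit false
set_option linter.unusedSectionVars false
set_option linter.style.haveILetI false

namespace H78.PM1

open Cfsg H18.CharBasic H18.CharOrtho H18.CharInd H20.Loc H20.Blk H21.PLat

universe u v

/-- the product of the `m`-th roots of unity, `m` even -/
theorem prod_roots {m : ℕ} (hm : 0 < m) (hme : Even m) :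
    ∏ z ∈ Polynomial.nthRootsFinset m (1 : ℂ), z = -1 := by
  have h1 := Complex.isPrimitiveRoot_exp m hm.ne'
  have h2 := Polynomial.X_pow_sub_one_eq_prod hm h1
  have h3 := congrArg (Polynomial.eval 0) h2
  rw [Polynomial.eval_prod] at h3
  simp only [Polynomial.eval_sub, Polynomial.eval_pow, Polynomial.eval_X, Polynomial.eval_one,
    Polynomial.eval_C, zero_sub, zero_pow hm.ne'] at h3
  rw [Finset.prod_neg, h1.card_nthRootsFinset, hme.neg_one_pow, one_mul] at h3
  exact h3.symm

/-- the determinant of an element all of whose non-trivial powers have trace zero -/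
theorem det_of_traces {V : Type v} [AddCommGroup V] [Module ℂ V] [FiniteDimensional ℂ V]
    (T : Module.End ℂ V) {m c : ℕ} (hm : 0 < m) (hme : Even m) (hT : T ^ m = 1)
    (hd : Module.finrank ℂ V = m * c) (htr : ∀ k : ℕ, ¬ m ∣ k → LinearMap.trace ℂ V (T ^ k) = 0) :
    LinearMap.det T = (-1) ^ c := by
  classical
  obtain ⟨b, μ, hb⟩ := H4.Eigen.exists_eigenbasis T m hm.ne' hT
  have hdet : LinearMap.det T = ∏ i, μ i := by
    rw [← LinearMap.det_toMatrix b]
    have : LinearMap.toMatrix b b T = Matrix.diagonal μ := by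
      ext i j
      rw [LinearMap.toMatrix_apply, (hb j).1, map_smul, Module.Basis.repr_self, Finsupp.smul_single,
        Finsupp.single_apply, Matrix.diagonal_apply]
      by_cases h : i = j
      · subst h; simp
      · rw [if_neg (Ne.symm h), if_neg h]
    rw [this, Matrix.det_diagonal]
  have hsum : ∀ k : ℕ, ¬ m ∣ k → ∑ i, μ i ^ k = 0 := fun k hk => by
    rw [← H4.Eigen.trace_pow_eq_sum T b μ (fun i => (hb i).1) k]
    exact htr k hk
  have hgeom : ∀ w : ℂ, w ^ m = 1 → w ≠ 1 → ∑ k ∈ Finset.range m, w ^ k = 0 := by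
    intro w hw hw1
    have h1 := mul_geom_sum w m
    rw [hw, sub_self] at h1
    exact (mul_eq_zero.1 h1).resolve_left (sub_ne_zero.2 hw1)
  have hcount : ∀ z ∈ Polynomial.nthRootsFinset m (1 : ℂ),
      (Finset.univ.filter (fun i => μ i = z)).card = c := by
    intro z hz
    rw [Polynomial.mem_nthRootsFinset hm] at hz
    have hz0 : z ≠ 0 := by
      rintro rfl
      rw [zero_pow hm.ne'] at hz
      exact zero_ne_one hz
    have h1 : ∑ k ∈ Finset.range m, ∑ i, (μ i * z⁻¹) ^ k = (m : ℂ) * c := by
      have h2 : ∀ k ∈ Finset.range m, ∑ i, (μ i * z⁻¹) ^ k = if k = 0 then (m : ℂ) * c else 0 := by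
        intro k hk
        rw [Finset.mem_range] at hk
        split_ifs with h
        · subst h
          simp only [pow_zero, Finset.sum_const, Finset.card_univ, Fintype.card_fin, hd]
          rw [nsmul_eq_mul, mul_one]
          push_cast
          ring
        · simp only [mul_pow]
          rw [← Finset.sum_mul, hsum k (fun hdv => h (Nat.eq_zero_of_dvd_of_lt hdv hk)), zero_mul]
      rw [Finset.sum_congr rfl h2, Finset.sum_ite_eq' (Finset.range m) 0,
        if_pos (Finset.mem_range.2 hm)]
    rw [Finset.sum_comm] at h1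
    have h3 : ∀ i, ∑ k ∈ Finset.range m, (μ i * z⁻¹) ^ k = if μ i = z then (m : ℂ) else 0 := by
      intro i
      split_ifs with h
      · rw [h, mul_inv_cancel₀ hz0]
        simp
      · apply hgeom
        · rw [mul_pow, (hb i).2, inv_pow, hz, inv_one, mul_one]
        · intro hcon
          apply h
          field_simp at hcon
          exact hcon
    rw [Finset.sum_congr rfl (fun i _ => h3 i), ← Finset.sum_filter, Finset.sum_const,
      nsmul_eq_mul, mul_comm] at h1
    have hm0 : (m : ℂ) ≠ 0 := by exact_mod_cast hm.ne'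
    have := mul_left_cancel₀ hm0 h1
    exact_mod_cast this
  rw [hdet, ← Finset.prod_fiberwise_of_maps_to (s := Finset.univ)
    (t := Polynomial.nthRootsFinset m (1 : ℂ)) (g := μ)
    (fun i _ => (Polynomial.mem_nthRootsFinset hm _).2 (hb i).2)]
  rw [← prod_roots hm hme, ← Finset.prod_pow]
  refine Finset.prod_congr rfl fun z hz => ?_
  rw [Finset.prod_congr rfl (g := fun _ => z) (fun i hi => (Finset.mem_filter.1 hi).2),
    Finset.prod_const, hcount z hz]

section grp
variable {G : Type u} [Group G] {p : ℕ} [hp : Fact p.Prime] {x0 : G} {M : Ideal AlgInt}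

theorem deg_cast [Finite G] (χ : IrrCharacter G) : (charDegree (χ : G → ℂ) : ℂ) = (χ : G → ℂ) 1 := by
  obtain ⟨n, hn0, hn⟩ := exists_degree_pos χ.2
  rw [charDegree, hn]
  simp

/-- characters of degree prime to `p` are in the principal block -/
theorem mem_B0 [Finite G] (hM : IsPModular p M) (hx0 : orderOf x0 = p)
    (hidx : ¬ p ∣ (Subgroup.zpowers x0).index)
    (hC : Subgroup.centralizer ({x0} : Set G) = Subgroup.zpowers x0) (χ : IrrCharacter G)
    (hχ : ¬ p ∣ charDegree (χ : G → ℂ)) : χ ∈ principalBlock M G := by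
  have := pm_isPrime hM
  have key : ∀ g : G, ¬ p ∣ orderOf g →
      MemLocalIdeal M (centralChar (χ : G → ℂ) g - centralChar (triv G : G → ℂ) g) := by
   intro g hg
   by_cases hg1 : g = 1
   · subst hg1
     have hχ1 : (χ : G → ℂ) 1 ≠ 0 := by
       intro h0
       apply hχ
       rw [charDegree, h0]
       simp
     have h1 : (Subgroup.centralizer ({(1 : G)} : Set G)).index = 1 := by
       rw [Subgroup.index_eq_one, Subgroup.centralizer_eq_top_iff_subset]
       simp
     rw [centralChar, centralChar, h1]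
     rw [Nat.cast_one, one_mul, div_self hχ1, one_mul]
     simp only [div_one, sub_self]
     exact locI_zero
   · have h1 : p ∣ (Subgroup.centralizer ({g} : Set G)).index := by
       by_contra hcon
       -- the centralizer contains an element of order p
       have h2 : p ∣ Nat.card (Subgroup.centralizer ({g} : Set G)) := by
         have h3 := (Subgroup.centralizer ({g} : Set G)).card_mul_index
         have h4 : p ∣ Nat.card G := hx0 ▸ orderOf_dvd_natCard x0
         rw [← h3] at h4
         exact (hp.out.dvd_mul.1 h4).resolve_right hcon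
       obtain ⟨z, hz⟩ := exists_prime_orderOf_dvd_card' p h2
       have hz' : orderOf (z : G) = p := by rw [Subgroup.orderOf_coe]; exact hz
       -- z is conjugate to a power of x0
       have hzP : IsPGroup p (Subgroup.zpowers (z : G)) := by
         apply IsPGroup.of_card (n := 1)
         rw [Nat.card_zpowers, hz', pow_one]
       have hxP : IsPGroup p (Subgroup.zpowers x0) := by
         apply IsPGroup.of_card (n := 1)
         rw [Nat.card_zpowers, hx0, pow_one]
       obtain ⟨Q, hQ⟩ := hzP.exists_le_sylow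
       let P : Sylow p G := hxP.toSylow hidx
       obtain ⟨h, hh⟩ := MulAction.exists_smul_eq G Q P
       have hzh : h * z * h⁻¹ ∈ Subgroup.zpowers x0 := by
         have h5 : h * z * h⁻¹ ∈ (h • Q : Sylow p G) := by
           rw [Sylow.smul_def]
           exact Subgroup.smul_mem_pointwise_smul _ (MulAut.conj h) _ (hQ (Subgroup.mem_zpowers _))
         rw [hh] at h5
         exact h5
       obtain ⟨k, hk⟩ := mem_zpowers_pw hx0 hzh
       have hk0 : k ≠ 0 := by
         rintro rfl
         rw [pw_zero] at hk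
         have h6 : (z : G) = 1 := by
           have := hk.symm
           rw [conj_eq_one_iff] at this
           exact this
         rw [h6, orderOf_one] at hz'
         exact hp.out.one_lt.ne hz'
       have h7 : h * g * h⁻¹ ∈ Subgroup.centralizer ({pw x0 k} : Set G) := by
         rw [Subgroup.mem_centralizer_singleton_iff, hk]
         have h8 := Subgroup.mem_centralizer_singleton_iff.1 z.2
         calc h * g * h⁻¹ * (h * z * h⁻¹) = h * (g * z) * h⁻¹ := by group
           _ = h * (z * g) * h⁻¹ := by rw [h8]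
           _ = _ := by group
       rw [centralizer_pw hx0 hk0] at h7
       have h8 : h * g * h⁻¹ ∈ Subgroup.zpowers x0 := by
         rw [← hC, Subgroup.mem_centralizer_singleton_iff]
         exact (Subgroup.mem_centralizer_iff.1 h7 x0 (Subgroup.mem_zpowers x0)).symm
       obtain ⟨l, hl⟩ := mem_zpowers_pw hx0 h8
       have hl0 : l ≠ 0 := by
         rintro rfl
         rw [pw_zero] at hl
         exact hg1 (conj_eq_one_iff.1 hl.symm)
       have h9 : orderOf (h * g * h⁻¹) = p := by rw [← hl, orderOf_pw hx0 hl0]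
       apply hg
       rw [← h9]
       have : h * g * h⁻¹ = MulAut.conj h g := rfl
       rw [this, MulEquiv.orderOf_eq]
     obtain ⟨c, hc⟩ := h1
     have h2 : ∀ ψ : IrrCharacter G, ¬ p ∣ charDegree (ψ : G → ℂ) →
         MemLocalIdeal M (centralChar (ψ : G → ℂ) g) := by
       intro ψ hψ
       have h3 : centralChar (ψ : G → ℂ) g = (p : ℂ) * (c * (ψ : G → ℂ) g *
           (charDegree (ψ : G → ℂ) : ℂ)⁻¹) := by
         rw [centralChar, hc, ← deg_cast ψ]
         push_cast
         rw [div_eq_mul_inv]
         ring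
       rw [h3]
       exact locI_mul_right (locI_p hM) (locR_mul (locR_mul (locR_natCast c) (isIntegral_mem (char_isIntegral (isCharacter_of_isIrr ψ.2) g))) (locR_natCast_inv hM hψ))
     exact locI_sub (h2 χ hχ) (h2 _ (by
       have : charDegree (triv G : G → ℂ) = 1 := by simp [charDegree]
       rw [this]
       exact hp.out.one_lt.ne' ∘ Nat.dvd_one.1))
  exact sameBlock_symm (H78.BlkRed.sameBlock_of_regular hM (χ := χ) (ψ := triv G) key)

/-- elements of `N \ P` are conjugate to all elements of their coset -/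
theorem isConj_coset (hx0 : orderOf x0 = p) (y : Subgroup.normalizer (Subgroup.zpowers x0 : Set G))
    (hy : psi hx0 y ≠ 1) (l : ZMod p) : IsConj (y : G) (y * pw x0 l) := by
  have h1 : ((psi hx0 y)⁻¹ : (ZMod p)ˣ) ≠ 1 := fun h => hy (inv_eq_one.1 h)
  have h2 : (((psi hx0 y)⁻¹ : (ZMod p)ˣ) : ZMod p) - 1 ≠ 0 := by
    intro h
    apply h1
    ext
    rw [Units.val_one]
    exact sub_eq_zero.1 h
  rw [isConj_iff]
  refine ⟨pw x0 (l * ((((psi hx0 y)⁻¹ : (ZMod p)ˣ) : ZMod p) - 1)⁻¹), ?_⟩
  generalize hk : l * ((((psi hx0 y)⁻¹ : (ZMod p)ˣ) : ZMod p) - 1)⁻¹ = k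
  have h3 : (((psi hx0 y)⁻¹ : (ZMod p)ˣ) : ZMod p) * k - k = l := by
    rw [← hk]
    field_simp
  have h4 := psi_spec hx0 y⁻¹ k
  rw [map_inv] at h4
  rw [← h3, sub_eq_add_neg, pw_add hx0, ← pw_inv hx0, ← h4]
  simp only [Subgroup.coe_inv, inv_inv]
  group

theorem trace_zero [Finite G] {V : Type v} [AddCommGroup V] [Module ℂ V] [FiniteDimensional ℂ V]
    (ρ : Representation ℂ G V) (hx0 : orderOf x0 = p)
    (hd : Module.finrank ℂ V + 1 = p) (hval : ∀ k : ZMod p, k ≠ 0 → ρ.character (pw x0 k) = -1)
    (y : Subgroup.normalizer (Subgroup.zpowers x0 : Set G)) (hy : psi hx0 y ≠ 1) :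
    ρ.character (y : G) = 0 := by
  classical
  have hp0 : (p : ℂ) ≠ 0 := by exact_mod_cast hp.out.ne_zero
  let E : Module.End ℂ V := (p : ℂ)⁻¹ • ∑ k : ZMod p, ρ (pw x0 k)
  have hEk : ∀ l : ZMod p, (∑ k : ZMod p, ρ (pw x0 k)) * ρ (pw x0 l) = ∑ k : ZMod p, ρ (pw x0 k) := by
    intro l
    rw [Finset.sum_mul]
    simp only [← map_mul, ← pw_add hx0]
    exact Fintype.sum_equiv (Equiv.addRight l) _ _ (fun k => rfl)
  have hE : IsIdempotentElem E := by
    show E * E = E
    simp only [E]
    rw [smul_mul_smul_comm, Finset.mul_sum, Finset.sum_congr rfl (fun l _ => hEk l),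
      Finset.sum_const, Finset.card_univ, ZMod.card, ← Nat.cast_smul_eq_nsmul ℂ, smul_smul]
    congr 1
    field_simp
  have htr : LinearMap.trace ℂ V E = 0 := by
    simp only [E]
    rw [map_smul, map_sum]
    have h1 : ∀ k : ZMod p, LinearMap.trace ℂ V (ρ (pw x0 k)) = (if k = 0 then (p : ℂ) else 0) - 1 := by
      intro k
      split_ifs with h
      · subst h
        rw [pw_zero, map_one, LinearMap.trace_one]
        have : (Module.finrank ℂ V : ℂ) + 1 = p := by exact_mod_cast hd
        rw [← this]; ring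
      · rw [zero_sub]; exact hval k h
    rw [Finset.sum_congr rfl (fun k _ => h1 k), Finset.sum_sub_distrib,
      Finset.sum_ite_eq' Finset.univ (0 : ZMod p), if_pos (Finset.mem_univ _), Finset.sum_const,
      Finset.card_univ, ZMod.card]
    simp
  have hE0 : E = 0 := by
    have h1 := (LinearMap.isProj_range_iff_isIdempotentElem E).2 hE
    have h2 := h1.trace
    rw [htr] at h2
    have h3 : Module.finrank ℂ (LinearMap.range E) = 0 := by exact_mod_cast h2.symm
    rw [Submodule.finrank_eq_zero, LinearMap.range_eq_bot] at h3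
    exact h3
  have hS : ∑ k : ZMod p, ρ (pw x0 k) = 0 := by
    have h1 : (p : ℂ) • E = ∑ k : ZMod p, ρ (pw x0 k) := by
      simp only [E]
      rw [smul_smul, mul_inv_cancel₀ hp0, one_smul]
    rw [← h1, hE0, smul_zero]
  have h5 : (p : ℂ) * ρ.character (y : G) = 0 := by
    have h6 : ∑ k : ZMod p, ρ.character ((y : G) * pw x0 k) = (p : ℂ) * ρ.character (y : G) := by
      rw [Finset.sum_congr rfl (g := fun _ => ρ.character (y : G)) (fun k _ => ?_), Finset.sum_const,
        Finset.card_univ, ZMod.card, nsmul_eq_mul]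
      obtain ⟨c, hc⟩ := isConj_iff.1 (isConj_coset hx0 y hy k)
      rw [← hc]
      exact ρ.char_conj _ _
    rw [← h6]
    have h7 : ∀ k : ZMod p, ρ.character ((y : G) * pw x0 k) =
        LinearMap.trace ℂ V (ρ y * ρ (pw x0 k)) := by
      intro k
      rw [← map_mul]
      rfl
    rw [Finset.sum_congr rfl (fun k _ => h7 k), ← map_sum, ← Finset.mul_sum, hS, mul_zero, map_zero]
  exact (mul_eq_zero.1 h5).resolve_left hp0

end grp

end H78.PM1
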