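import Mathlib.GroupTheory.Sylow
import Mathlib.GroupTheory.Transfer
import Mathlib.GroupTheory.Abelianization.Finite
import Mathlib.GroupTheory.GroupAction.ConjAct
import Mathlib.GroupTheory.SpecificGroups.Cyclic

/-! Groups with a self-centralizing element of prime order. -/

set_option autoImplicit false

namespace H78.SelfCent

variable {G : Type*} [Group G] [Finite G] {p : ℕ} {x : G}

/-- A `p`-subgroup containing `x` is `⟨x⟩`. -/
theorem pgroup_eq (hp : p.Prime) (hx : orderOf x = p)
    (hC : Subgroup.centralizer ({x} : Set G) = Subgroup.zpowers x)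
    (Q : Subgroup G) (hQ : IsPGroup p Q) (hxQ : x ∈ Q) : Q = Subgroup.zpowers x := by
  have := Fact.mk hp
  have hxle : Subgroup.zpowers x ≤ Q := Subgroup.zpowers_le.2 hxQ
  have hx1 : x ≠ 1 := by
    rintro rfl
    rw [orderOf_one] at hx
    exact hp.one_lt.ne hx
  have : Nontrivial Q := ⟨⟨⟨x, hxQ⟩, 1, fun h => hx1 (by simpa using congrArg Subtype.val h)⟩⟩
  have hnt : Nontrivial (Subgroup.center Q) := hQ.center_nontrivial
  obtain ⟨⟨z, hz⟩, hz1⟩ := exists_ne (1 : Subgroup.center Q)
  have hz1' : (z : G) ≠ 1 := by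
    intro h
    apply hz1
    ext
    exact h
  have hzC : (z : G) ∈ Subgroup.zpowers x := by
    rw [← hC, Subgroup.mem_centralizer_singleton_iff]
    have := (Subgroup.mem_center_iff.1 hz) ⟨x, hxQ⟩
    simpa using (congrArg Subtype.val this).symm
  have hcard : Nat.card (Subgroup.zpowers x) = p := by rw [Nat.card_zpowers, hx]
  have hzz : Subgroup.zpowers (z : G) = Subgroup.zpowers x := by
    apply Subgroup.eq_of_le_of_card_ge (Subgroup.zpowers_le.2 hzC)
    rw [hcard]
    have h1 : Nat.card (Subgroup.zpowers (z : G)) ∣ p := by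
      rw [← hcard]
      exact Subgroup.card_dvd_of_le (Subgroup.zpowers_le.2 hzC)
    rcases (Nat.dvd_prime hp).1 h1 with h | h
    · exfalso
      apply hz1'
      rw [Nat.card_zpowers] at h
      exact orderOf_eq_one_iff.1 h
    · exact h.ge
  refine le_antisymm ?_ hxle
  intro y hy
  rw [← hC, Subgroup.mem_centralizer_singleton_iff]
  have hxz : x ∈ Subgroup.zpowers (z : G) := by rw [hzz]; exact Subgroup.mem_zpowers x
  obtain ⟨k, hk⟩ := Subgroup.mem_zpowers_iff.1 hxz
  have hyz : y * (z : G) = z * y := by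
    have := (Subgroup.mem_center_iff.1 hz) ⟨y, hy⟩
    simpa using congrArg Subtype.val this
  have : Commute y x := by
    rw [← hk]
    exact (show Commute y (z : G) from hyz).zpow_right k
  exact this

theorem exists_sylow (hp : p.Prime) (hx : orderOf x = p)
    (hC : Subgroup.centralizer ({x} : Set G) = Subgroup.zpowers x) :
    ∃ P : Sylow p G, (P : Subgroup G) = Subgroup.zpowers x := by
  have := Fact.mk hp
  have hpg : IsPGroup p (Subgroup.zpowers x) := by
    apply IsPGroup.of_card (n := 1)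
    rw [Nat.card_zpowers, hx, pow_one]
  obtain ⟨P, hP⟩ := hpg.exists_le_sylow
  exact ⟨P, pgroup_eq hp hx hC P P.2 (hP (Subgroup.mem_zpowers x))⟩

theorem not_sq_dvd (hp : p.Prime) (hx : orderOf x = p)
    (hC : Subgroup.centralizer ({x} : Set G) = Subgroup.zpowers x) :
    ¬ p ^ 2 ∣ Nat.card G := by
  have := Fact.mk hp
  obtain ⟨P, hP⟩ := exists_sylow hp hx hC
  intro h
  have h1 := P.card_eq_multiplicity
  rw [show Nat.card P = Nat.card (P : Subgroup G) from rfl, hP, Nat.card_zpowers, hx] at h1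
  have h2 : 2 ≤ (Nat.card G).factorization p :=
    (hp.pow_dvd_iff_le_factorization Nat.card_pos.ne').1 h
  have h3 : (Nat.card G).factorization p = 1 := by
    have : p ^ 1 = p ^ (Nat.card G).factorization p := by rw [pow_one]; exact h1
    exact (Nat.pow_right_injective hp.two_le this).symm
  omega

/-- If `p ∥ |H|` and `M` is normal of order divisible by `p`, all elements of order `p`
are in `M`. -/
theorem mem_of_dvd {H : Type*} [Group H] [Finite H] (hp : p.Prime) (hsq : ¬ p ^ 2 ∣ Nat.card H)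
    (M : Subgroup H) [M.Normal] (hM : p ∣ Nat.card M) {y : H} (hy : orderOf y = p) : y ∈ M := by
  rw [← QuotientGroup.eq_one_iff, ← orderOf_eq_one_iff]
  have h1 : orderOf (y : H ⧸ M) ∣ p := by
    rw [← hy]; exact orderOf_map_dvd (QuotientGroup.mk' M) y
  rcases (Nat.dvd_prime hp).1 h1 with h | h
  · exact h
  · exfalso
    apply hsq
    have h2 : p ∣ Nat.card (H ⧸ M) := by rw [← h]; exact orderOf_dvd_natCard _
    rw [Subgroup.card_eq_card_quotient_mul_card_subgroup M, sq]
    exact mul_dvd_mul h2 hM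

/-- Elements normalizing `⟨x⟩` commute modulo the centralizer. -/
theorem commutator_mem {n m : G}
    (hn : n * x * n⁻¹ ∈ Subgroup.zpowers x) (hm : m * x * m⁻¹ ∈ Subgroup.zpowers x) :
    (m * n)⁻¹ * (n * m) ∈ Subgroup.centralizer ({x} : Set G) := by
  obtain ⟨a, ha⟩ := Subgroup.mem_zpowers_iff.1 hn
  obtain ⟨b, hb⟩ := Subgroup.mem_zpowers_iff.1 hm
  have key : ∀ (g : G) (k : ℤ), g * x ^ k * g⁻¹ = (g * x * g⁻¹) ^ k := fun g k => by
    rw [conj_zpow]
  have h1 : n * m * x * (n * m)⁻¹ = m * n * x * (m * n)⁻¹ := by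
    have e1 : n * m * x * (n * m)⁻¹ = n * (m * x * m⁻¹) * n⁻¹ := by group
    have e2 : m * n * x * (m * n)⁻¹ = m * (n * x * n⁻¹) * m⁻¹ := by group
    rw [e1, e2, ← ha, ← hb, key, key, ← ha, ← hb, ← zpow_mul, ← zpow_mul, mul_comm]
  rw [Subgroup.mem_centralizer_singleton_iff]
  have := congrArg (fun y => (m * n)⁻¹ * y * (n * m)) h1
  calc (m * n)⁻¹ * (n * m) * x = (m * n)⁻¹ * (n * m * x * (n * m)⁻¹) * (n * m) := by group
    _ = (m * n)⁻¹ * (m * n * x * (m * n)⁻¹) * (n * m) := this
    _ = x * ((m * n)⁻¹ * (n * m)) := by group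

theorem conj_mem_of_mem_normalizer {n : G}
    (hn : n ∈ Subgroup.normalizer ((Subgroup.zpowers x : Subgroup G) : Set G)) :
    n * x * n⁻¹ ∈ Subgroup.zpowers x :=
  (Subgroup.mem_normalizer_iff.1 hn x).1 (Subgroup.mem_zpowers x)

/-- (a) A normal subgroup of order divisible by `p` contains the commutator subgroup. -/
theorem commutator_le (hp : p.Prime) (hx : orderOf x = p)
    (hC : Subgroup.centralizer ({x} : Set G) = Subgroup.zpowers x)
    (S : Subgroup G) [S.Normal] (hS : p ∣ Nat.card S) : commutator G ≤ S := by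
  have := Fact.mk hp
  obtain ⟨P, hP⟩ := exists_sylow hp hx hC
  have hxS : x ∈ S := mem_of_dvd hp (not_sq_dvd hp hx hC) S hS hx
  have hPS : (P : Subgroup G) ≤ S := by rw [hP]; exact Subgroup.zpowers_le.2 hxS
  have hfr := P.normalizer_sup_eq_top' hPS
  have hcos : ∀ g : G, ∃ n ∈ Subgroup.normalizer ((Subgroup.zpowers x : Subgroup G) : Set G),
      (n : G ⧸ S) = g := by
    intro g
    have hg : g ∈ Subgroup.normalizer ((P : Subgroup G) : Set G) ⊔ S := by
      have : Subgroup.normalizer ((P : Subgroup G) : Set G) ⊔ S = ⊤ := hfr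
      rw [this]; trivial
    rw [Subgroup.mem_sup_of_normal_right] at hg
    obtain ⟨n, hn, s, hs, rfl⟩ := hg
    rw [hP] at hn
    refine ⟨n, hn, ?_⟩
    rw [QuotientGroup.eq]
    simpa using hs
  rw [commutator_def, Subgroup.commutator_le]
  intro g _ h _
  obtain ⟨n, hn, hng⟩ := hcos g
  obtain ⟨m, hm, hmh⟩ := hcos h
  rw [← QuotientGroup.eq_one_iff, commutatorElement_def]
  simp only [QuotientGroup.mk_mul, QuotientGroup.mk_inv]
  rw [← hng, ← hmh]
  have h1 := commutator_mem (conj_mem_of_mem_normalizer hn) (conj_mem_of_mem_normalizer hm)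
  rw [hC] at h1
  have h2 : (m * n)⁻¹ * (n * m) ∈ S := (Subgroup.zpowers_le.2 hxS) h1
  have h3 : ((m * n : G) : G ⧸ S) = (n * m : G) := QuotientGroup.eq.2 h2
  simp only [QuotientGroup.mk_mul] at h3
  rw [← h3]
  group

/-- `x` acts fixed-point-freely on a normal `p'`-subgroup, so every element is a commutator
with `x`. -/
theorem exists_commutator (hp : p.Prime) (hx : orderOf x = p)
    (hC : Subgroup.centralizer ({x} : Set G) = Subgroup.zpowers x)
    (S : Subgroup G) [hN : S.Normal] (hS : ¬ p ∣ Nat.card S) {s : G} (hs : s ∈ S) :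
    ∃ u ∈ S, u * x * u⁻¹ * x⁻¹ = s := by
  let f : S → S := fun u => ⟨(u : G) * (x * (u : G)⁻¹ * x⁻¹),
    S.mul_mem u.2 (hN.conj_mem _ (S.inv_mem u.2) x)⟩
  have hinj : Function.Injective f := by
    intro u v huv
    have h1 : (u : G) * (x * (u : G)⁻¹ * x⁻¹) = (v : G) * (x * (v : G)⁻¹ * x⁻¹) :=
      congrArg Subtype.val huv
    have h2 : (v : G)⁻¹ * u ∈ Subgroup.zpowers x := by
      rw [← hC, Subgroup.mem_centralizer_singleton_iff]
      calc (v : G)⁻¹ * u * x = (v : G)⁻¹ * ((u : G) * (x * (u : G)⁻¹ * x⁻¹)) * (x * u) := by group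
        _ = (v : G)⁻¹ * ((v : G) * (x * (v : G)⁻¹ * x⁻¹)) * (x * u) := by rw [h1]
        _ = x * ((v : G)⁻¹ * u) := by group
    have h3 : (v : G)⁻¹ * u ∈ S := S.mul_mem (S.inv_mem v.2) u.2
    have h4 : orderOf ((v : G)⁻¹ * u) ∣ p := by
      rw [← hx, ← Nat.card_zpowers x]
      exact Subgroup.orderOf_dvd_natCard _ h2
    have h5 : orderOf ((v : G)⁻¹ * u) ∣ Nat.card S := Subgroup.orderOf_dvd_natCard _ h3
    rcases (Nat.dvd_prime hp).1 h4 with h | h
    · rw [orderOf_eq_one_iff] at h
      have : (u : G) = v := by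
        calc (u : G) = (v : G) * ((v : G)⁻¹ * u) := by group
          _ = v := by rw [h, mul_one]
      exact Subtype.ext this
    · exact absurd (h ▸ h5) hS
  have hsurj : Function.Surjective f := Finite.surjective_of_injective hinj
  obtain ⟨u, hu⟩ := hsurj ⟨s, hs⟩
  refine ⟨u, u.2, ?_⟩
  have := congrArg Subtype.val hu
  simp only [f] at this
  rw [← this]
  group

theorem le_commutator (hp : p.Prime) (hx : orderOf x = p)
    (hC : Subgroup.centralizer ({x} : Set G) = Subgroup.zpowers x)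
    (S : Subgroup G) [hN : S.Normal] (hS : ¬ p ∣ Nat.card S)
    (D : Subgroup G) (hD : x ∈ D) (hSD : S ≤ D) : S ≤ ⁅D, D⁆ := by
  intro s hs
  obtain ⟨u, hu, rfl⟩ := exists_commutator hp hx hC S hS hs
  have := Subgroup.commutator_mem_commutator (hSD hu) hD
  rwa [commutatorElement_def] at this

theorem le_commutator_top (hp : p.Prime) (hx : orderOf x = p)
    (hC : Subgroup.centralizer ({x} : Set G) = Subgroup.zpowers x)
    (S : Subgroup G) [hN : S.Normal] (hS : ¬ p ∣ Nat.card S) : S ≤ commutator G := by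
  rw [commutator_def]
  exact le_commutator hp hx hC S hS ⊤ trivial le_top

theorem orderOf_mk (hp : p.Prime) (hx : orderOf x = p)
    (S : Subgroup G) [hN : S.Normal] (hS : ¬ p ∣ Nat.card S) :
    orderOf (QuotientGroup.mk x : G ⧸ S) = p := by
  have h1 : orderOf (x : G ⧸ S) ∣ p := by
    rw [← hx]; exact orderOf_map_dvd (QuotientGroup.mk' S) x
  rcases (Nat.dvd_prime hp).1 h1 with h | h
  · exfalso
    rw [orderOf_eq_one_iff, QuotientGroup.eq_one_iff] at h
    exact hS (hx ▸ Subgroup.orderOf_dvd_natCard _ h)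
  · exact h

theorem centralizer_mk (hp : p.Prime) (hx : orderOf x = p)
    (hC : Subgroup.centralizer ({x} : Set G) = Subgroup.zpowers x)
    (S : Subgroup G) [hN : S.Normal] (hS : ¬ p ∣ Nat.card S) :
    Subgroup.centralizer ({(QuotientGroup.mk x : G ⧸ S)} : Set (G ⧸ S)) =
      Subgroup.zpowers (QuotientGroup.mk x : G ⧸ S) := by
  apply le_antisymm
  · intro g hg
    obtain ⟨g, rfl⟩ := QuotientGroup.mk_surjective g
    rw [Subgroup.mem_centralizer_singleton_iff] at hg
    rw [← QuotientGroup.mk_mul, ← QuotientGroup.mk_mul, QuotientGroup.eq] at hg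
    -- hg : (g*x)⁻¹ * (x*g) ∈ S
    have hg' : g * x * g⁻¹ * x⁻¹ ∈ S := by
      have := hN.conj_mem _ (S.inv_mem hg) (x * g)
      have e : x * g * ((g * x)⁻¹ * (x * g))⁻¹ * (x * g)⁻¹ = g * x * g⁻¹ * x⁻¹ := by group
      rwa [e] at this
    obtain ⟨u, hu, hux⟩ := exists_commutator hp hx hC S hS hg'
    have h1 : u * x * u⁻¹ = g * x * g⁻¹ := by
      have := congrArg (fun y => y * x) hux
      simpa using this
    have h2 : u⁻¹ * g ∈ Subgroup.zpowers x := by
      rw [← hC, Subgroup.mem_centralizer_singleton_iff]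
      calc u⁻¹ * g * x = u⁻¹ * (g * x * g⁻¹) * g := by group
        _ = u⁻¹ * (u * x * u⁻¹) * g := by rw [h1]
        _ = x * (u⁻¹ * g) := by group
    obtain ⟨k, hk⟩ := Subgroup.mem_zpowers_iff.1 h2
    rw [Subgroup.mem_zpowers_iff]
    refine ⟨k, ?_⟩
    rw [← QuotientGroup.mk_zpow, hk, QuotientGroup.mk_mul]
    have : (u⁻¹ : G ⧸ S) = 1 := by
      rw [inv_eq_one, QuotientGroup.eq_one_iff]; exact hu
    rw [QuotientGroup.mk_inv, this, one_mul]
  · rw [Subgroup.zpowers_le, Subgroup.mem_centralizer_singleton_iff]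

/-- The subgroups of order `p` are the Sylow `p`-subgroups. -/
noncomputable def equivSylow (hp : p.Prime) (hx : orderOf x = p)
    (hC : Subgroup.centralizer ({x} : Set G) = Subgroup.zpowers x) :
    {H : Subgroup G // Nat.card H = p} ≃ Sylow p G := by
  have hf := Fact.mk hp
  have hfac : (Nat.card G).factorization p = 1 := by
    have h1 : 1 ≤ (Nat.card G).factorization p := by
      rw [← hp.pow_dvd_iff_le_factorization Nat.card_pos.ne', pow_one, ← hx]
      exact orderOf_dvd_natCard x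
    have h2 : ¬ 2 ≤ (Nat.card G).factorization p := by
      rw [← hp.pow_dvd_iff_le_factorization Nat.card_pos.ne']
      exact not_sq_dvd hp hx hC
    omega
  refine ⟨fun H => Sylow.ofCard H.1 (by rw [H.2, hfac, pow_one]),
    fun P => ⟨P, by rw [P.card_eq_multiplicity, hfac, pow_one]⟩, ?_, ?_⟩
  · intro H; rfl
  · intro P; rfl

theorem card_eq_index (hp : p.Prime) (hx : orderOf x = p)
    (hC : Subgroup.centralizer ({x} : Set G) = Subgroup.zpowers x) :
    Nat.card {H : Subgroup G // Nat.card H = p} =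
      (Subgroup.normalizer ((Subgroup.zpowers x : Subgroup G) : Set G)).index := by
  have hf := Fact.mk hp
  obtain ⟨P, hP⟩ := exists_sylow hp hx hC
  rw [Nat.card_congr (equivSylow hp hx hC), P.card_eq_index_normalizer]
  congr 2
  rw [← hP]; rfl

/-- A normal `p'`-subgroup meets the normalizer of `⟨x⟩` trivially. -/
theorem inf_normalizer (hp : p.Prime) (hx : orderOf x = p)
    (hC : Subgroup.centralizer ({x} : Set G) = Subgroup.zpowers x)
    (S : Subgroup G) [hN : S.Normal] (hS : ¬ p ∣ Nat.card S) :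
    S ⊓ Subgroup.normalizer ((Subgroup.zpowers x : Subgroup G) : Set G) = ⊥ := by
  rw [eq_bot_iff]
  intro s hs
  obtain ⟨hs1, hs2⟩ := hs
  have h1 := conj_mem_of_mem_normalizer hs2
  have h2 : s * x * s⁻¹ * x⁻¹ ∈ Subgroup.zpowers x :=
    Subgroup.mul_mem _ h1 (Subgroup.inv_mem _ (Subgroup.mem_zpowers x))
  have h3 : s * x * s⁻¹ * x⁻¹ ∈ S := by
    have := S.mul_mem hs1 (hN.conj_mem _ (S.inv_mem hs1) x)
    have e : s * (x * s⁻¹ * x⁻¹) = s * x * s⁻¹ * x⁻¹ := by group
    rwa [e] at this
  have key : ∀ y : G, y ∈ Subgroup.zpowers x → y ∈ S → y = 1 := by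
    intro y hy1 hy2
    have h4 : orderOf y ∣ p := by
      rw [← hx, ← Nat.card_zpowers x]
      exact Subgroup.orderOf_dvd_natCard _ hy1
    have h5 : orderOf y ∣ Nat.card S := Subgroup.orderOf_dvd_natCard _ hy2
    rcases (Nat.dvd_prime hp).1 h4 with h | h
    · rwa [orderOf_eq_one_iff] at h
    · exact absurd (h ▸ h5) hS
  have h4 := key _ h2 h3
  have h5 : s ∈ Subgroup.zpowers x := by
    rw [← hC, Subgroup.mem_centralizer_singleton_iff]
    calc s * x = (s * x * s⁻¹ * x⁻¹) * (x * s) := by group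
      _ = x * s := by rw [h4, one_mul]
  exact Subgroup.mem_bot.2 (key s h5 hs1)

theorem card_mul_card_normalizer (hp : p.Prime) (hx : orderOf x = p)
    (hC : Subgroup.centralizer ({x} : Set G) = Subgroup.zpowers x)
    (S : Subgroup G) [hN : S.Normal] (hS : ¬ p ∣ Nat.card S) :
    (Subgroup.normalizer ((Subgroup.zpowers x : Subgroup G) : Set G)).relIndex
      (S ⊔ Subgroup.normalizer ((Subgroup.zpowers x : Subgroup G) : Set G)) = Nat.card S := by
  set N := Subgroup.normalizer ((Subgroup.zpowers x : Subgroup G) : Set G) with hNdef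
  have h1 : (⊥ : Subgroup G).relIndex S * S.relIndex (S ⊔ N) = (⊥ : Subgroup G).relIndex (S ⊔ N) :=
    Subgroup.relIndex_mul_relIndex _ _ _ bot_le le_sup_left
  have h2 : (⊥ : Subgroup G).relIndex N * N.relIndex (S ⊔ N) = (⊥ : Subgroup G).relIndex (S ⊔ N) :=
    Subgroup.relIndex_mul_relIndex _ _ _ bot_le le_sup_right
  have h3 : S.relIndex (S ⊔ N) = Nat.card N := by
    rw [Subgroup.relIndex_sup_left, ← Subgroup.inf_relIndex_right,
      inf_normalizer hp hx hC S hS, Subgroup.relIndex_bot_left]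
  rw [Subgroup.relIndex_bot_left, h3] at h1
  rw [Subgroup.relIndex_bot_left, ← h1] at h2
  have : 0 < Nat.card N := Nat.card_pos
  rw [mul_comm (Nat.card S)] at h2
  exact Nat.eq_of_mul_eq_mul_left this h2

theorem card_dvd_index (hp : p.Prime) (hx : orderOf x = p)
    (hC : Subgroup.centralizer ({x} : Set G) = Subgroup.zpowers x)
    (S : Subgroup G) [hN : S.Normal] (hS : ¬ p ∣ Nat.card S) :
    Nat.card S ∣
      (Subgroup.normalizer ((Subgroup.zpowers x : Subgroup G) : Set G)).index := by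
  rw [← card_mul_card_normalizer hp hx hC S hS]
  exact Subgroup.relIndex_dvd_index_of_le le_sup_right

/-- number of elements congruence -/
theorem card_mod (hp : p.Prime) (hx : orderOf x = p)
    (hC : Subgroup.centralizer ({x} : Set G) = Subgroup.zpowers x)
    (S : Subgroup G) [hN : S.Normal] (hS : ¬ p ∣ Nat.card S) :
    Nat.card S % p = 1 := by
  have hf := Fact.mk hp
  have hpg : IsPGroup p (Subgroup.zpowers (ConjAct.toConjAct x)) := by
    apply IsPGroup.of_card (n := 1)
    rw [Nat.card_zpowers, pow_one]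
    exact hx
  have hmod := hpg.card_modEq_card_fixedPoints (↥S)
  have hfix : Nat.card (MulAction.fixedPoints (Subgroup.zpowers (ConjAct.toConjAct x)) (↥S)) = 1 := by
    rw [Nat.card_eq_one_iff_unique]
    refine ⟨⟨?_⟩, ⟨⟨1, ?_⟩⟩⟩
    · have key : ∀ s : MulAction.fixedPoints (Subgroup.zpowers (ConjAct.toConjAct x)) (↥S),
          (s : S) = 1 := by
        rintro ⟨s, hs⟩
        have h1 := hs ⟨ConjAct.toConjAct x, Subgroup.mem_zpowers _⟩
        have h2 : x * (s : G) * x⁻¹ = s := congrArg Subtype.val h1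
        have h3 : (s : G) ∈ Subgroup.zpowers x := by
          rw [← hC, Subgroup.mem_centralizer_singleton_iff]
          calc (s : G) * x = (x * (s : G) * x⁻¹) * x := by rw [h2]
            _ = x * s := by group
        have h4 : (s : G) ∈ S ⊓ Subgroup.normalizer ((Subgroup.zpowers x : Subgroup G) : Set G) :=
          ⟨s.2, Subgroup.le_normalizer h3⟩
        rw [inf_normalizer hp hx hC S hS, Subgroup.mem_bot] at h4
        exact Subtype.ext h4
      intro a b
      exact Subtype.ext ((key a).trans (key b).symm)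
    · intro g
      obtain ⟨g, hg⟩ := g
      exact smul_one g
  rw [hfix] at hmod
  have := hmod
  rw [Nat.ModEq, Nat.mod_eq_of_lt hp.one_lt] at this
  exact this

end H78.SelfCent
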