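import Cfsg.Agent.Lib.H78.PM1
import Cfsg.Agent.Lib.H78.SelfCent
import Cfsg.Agent.Lib.H78.Cong
import Cfsg.Agent.Lib.H81.DegreeCount

/-!
Self-centralizing elements of prime order and characters of degree `p - 1`: the parity theorem.
-/

set_option autoImplicit false
set_option linter.unusedSectionVars false
set_option linter.style.haveILetI false

namespace H78.PM2

open Cfsg H18.CharBasic H18.CharOrtho H18.CharInd H20.Loc H20.Blk H21.PLat H78.PM1

universe u v

section grp
variable {G : Type u} [Group G] [Finite G] {p : ℕ} [hp : Fact p.Prime] {x : G}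

theorem not_dvd_index (hx : orderOf x = p)
    (hC : Subgroup.centralizer ({x} : Set G) = Subgroup.zpowers x) :
    ¬ p ∣ (Subgroup.zpowers x).index := by
  obtain ⟨P, hP⟩ := H78.SelfCent.exists_sylow hp.out hx hC
  rw [← hP]
  exact P.not_dvd_index

/-- every element of order `p` is conjugate to a power of `x` -/
theorem exists_conj_pw' (hx : orderOf x = p)
    (hidx : ¬ p ∣ (Subgroup.zpowers x).index) {z : G} (hz : orderOf z = p) :
    ∃ k : ZMod p, k ≠ 0 ∧ IsConj z (pw x k) := by
  have hzP : IsPGroup p (Subgroup.zpowers z) := by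
    apply IsPGroup.of_card (n := 1)
    rw [Nat.card_zpowers, hz, pow_one]
  have hxP : IsPGroup p (Subgroup.zpowers x) := by
    apply IsPGroup.of_card (n := 1)
    rw [Nat.card_zpowers, hx, pow_one]
  obtain ⟨Q, hQ⟩ := hzP.exists_le_sylow
  let P : Sylow p G := hxP.toSylow hidx
  obtain ⟨h, hh⟩ := MulAction.exists_smul_eq G Q P
  have hzh : h * z * h⁻¹ ∈ Subgroup.zpowers x := by
    have h5 : h * z * h⁻¹ ∈ (h • Q : Sylow p G) := by
      rw [Sylow.smul_def]
      exact Subgroup.smul_mem_pointwise_smul _ (MulAut.conj h) _ (hQ (Subgroup.mem_zpowers _))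
    rw [hh] at h5
    exact h5
  obtain ⟨k, hk⟩ := mem_zpowers_pw hx hzh
  refine ⟨k, ?_, isConj_iff.2 ⟨h, hk.symm⟩⟩
  rintro rfl
  rw [pw_zero] at hk
  have h6 : z = 1 := by
    have := hk.symm
    rw [conj_eq_one_iff] at this
    exact this
  rw [h6, orderOf_one] at hz
  exact hp.out.one_lt.ne hz

/-- the number of classes of elements of order `p` -/
theorem card_classes (hx : orderOf x = p)
    (hidx : ¬ p ∣ (Subgroup.zpowers x).index) :
    Nat.card {C : ConjClasses G // ∃ g ∈ C.carrier, orderOf g = p} = (psi hx).range.index := by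
  rw [Subgroup.index]
  symm
  let f : (ZMod p)ˣ → {C : ConjClasses G // ∃ g ∈ C.carrier, orderOf g = p} := fun u =>
    ⟨ConjClasses.mk (pw x (u : ZMod p)), pw x (u : ZMod p), ConjClasses.mem_carrier_mk,
      orderOf_pw hx u.ne_zero⟩
  have hf : ∀ u v : (ZMod p)ˣ, f u = f v ↔ QuotientGroup.leftRel (psi hx).range u v := by
    intro u v
    rw [QuotientGroup.leftRel_apply, Subtype.ext_iff]
    show ConjClasses.mk _ = ConjClasses.mk _ ↔ _
    rw [ConjClasses.mk_eq_mk_iff_isConj, isConj_pw_iff hx u.ne_zero]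
    constructor
    · rintro ⟨w, hw, h⟩
      have h1 : v = w * u := Units.ext (by rw [h, Units.val_mul])
      rw [h1, mul_comm w u, inv_mul_cancel_left]
      exact hw
    · intro h
      refine ⟨_, h, ?_⟩
      rw [← Units.val_mul]
      congr 1
      rw [mul_comm, mul_inv_cancel_left]
  refine Nat.card_congr (Equiv.ofBijective (Quotient.lift f (fun u v h => (hf u v).2 h)) ⟨?_, ?_⟩)
  · intro a b
    induction a using Quotient.inductionOn with | _ a => ?_
    induction b using Quotient.inductionOn with | _ b => ?_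
    intro h
    exact Quotient.sound ((hf a b).1 h)
  · rintro ⟨C, g, hg, hgp⟩
    obtain ⟨k, hk, hk'⟩ := exists_conj_pw' hx hidx hgp
    refine ⟨Quotient.mk _ (Units.mk0 k hk), ?_⟩
    apply Subtype.ext
    show ConjClasses.mk (pw x k) = C
    rw [ConjClasses.mem_carrier_iff_mk_eq] at hg
    rw [← hg]
    exact (ConjClasses.mk_eq_mk_iff_isConj.2 hk').symm

/-- `p = 2` -/
theorem two (hx : orderOf x = 2)
    (hC : Subgroup.centralizer ({x} : Set G) = Subgroup.zpowers x) :
    Even (commutator G).index := by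
  obtain ⟨P, hP⟩ := H78.SelfCent.exists_sylow Nat.prime_two hx hC
  have hnc : Subgroup.normalizer ((P : Subgroup G) : Set G) ≤
      Subgroup.centralizer ((P : Subgroup G) : Set G) := by
    rw [hP]
    intro g hg
    have h1 : g * x * g⁻¹ = x := by
      have h2 := (Subgroup.mem_normalizer_iff.1 hg x).1 (Subgroup.mem_zpowers x)
      have : Fact (Nat.Prime 2) := ⟨Nat.prime_two⟩
      obtain ⟨k, hk⟩ := mem_zpowers_pw hx h2
      fin_cases k
      · exfalso
        have h3 : g * x * g⁻¹ = 1 := hk.symm.trans pw_zero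
        rw [conj_eq_one_iff] at h3
        rw [h3, orderOf_one] at hx
        omega
      · exact hk.symm.trans (pw_one hx)
    rw [Subgroup.mem_centralizer_iff]
    intro h hh
    obtain ⟨n, rfl⟩ := Subgroup.mem_zpowers_iff.1 hh
    have h2 : x * g = g * x := by rw [mul_inv_eq_iff_eq_mul] at h1; exact h1.symm
    exact (Commute.zpow_left h2 n)
  have : Fact (Nat.Prime 2) := ⟨Nat.prime_two⟩
  have h1 := MonoidHom.ker_transferSylow_isComplement' P hnc
  have h2 : (MonoidHom.transferSylow P hnc).ker.index = 2 := by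
    rw [h1.symm.index_eq_card, hP, Nat.card_zpowers, hx]
  have h3 : commutator G ≤ (MonoidHom.transferSylow P hnc).ker := by
    rw [commutator_def, Subgroup.commutator_le]
    intro a _ b _
    rw [MonoidHom.mem_ker, map_commutatorElement, commutatorElement_eq_one_iff_mul_comm]
    have h4 : ∀ c d : (P : Subgroup G), c * d = d * c := by
      intro c d
      apply Subtype.ext
      exact (Subgroup.mem_centralizer_iff.1 (hnc (Subgroup.le_normalizer d.2)) c c.2)
    exact h4 _ _
  rw [even_iff_two_dvd, ← h2]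
  exact Subgroup.index_dvd_of_le h3

/-- a linear character of even order -/
theorem even_of_hom (f : G →* ℂˣ) {y : G} (h : f y = -1) : Even (commutator G).index := by
  rw [even_iff_two_dvd]
  have h1 : orderOf (f y) = 2 := by
    rw [h]
    exact orderOf_eq_prime (by simp) (by
      intro h2
      have := congrArg (fun u : ℂˣ => (u : ℂ)) h2
      norm_num at this)
  have h2 : f y = Abelianization.lift f (Abelianization.of y) := (Abelianization.lift_apply_of f y).symm
  rw [h2] at h1
  have h3 : Nat.card (Abelianization G) = (commutator G).index := rfl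
  rw [← h3, ← h1]
  exact (orderOf_map_dvd _ _).trans (orderOf_dvd_natCard _)

/-- the average over `⟨x⟩` -/
theorem sum_pw {V : Type v} [AddCommGroup V] [Module ℂ V] [FiniteDimensional ℂ V]
    (ρ : Representation ℂ G V) (hx0 : orderOf x = p) :
    ∃ n : ℕ, ∑ k : ZMod p, ρ.character (pw x k) = (p : ℂ) * n := by
  classical
  have hp0 : (p : ℂ) ≠ 0 := by exact_mod_cast hp.out.ne_zero
  let E : Module.End ℂ V := (p : ℂ)⁻¹ • ∑ k : ZMod p, ρ (pw x k)
  have hEk : ∀ l : ZMod p, (∑ k : ZMod p, ρ (pw x k)) * ρ (pw x l) = ∑ k : ZMod p, ρ (pw x k) := by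
    intro l
    rw [Finset.sum_mul]
    simp only [← map_mul, ← pw_add hx0]
    exact Fintype.sum_equiv (Equiv.addRight l) _ _ (fun k => rfl)
  have hE : IsIdempotentElem E := by
    show E * E = E
    simp only [E]
    rw [smul_mul_smul_comm, Finset.mul_sum, Finset.sum_congr rfl (fun l _ => hEk l),
      Finset.sum_const, Finset.card_univ, ZMod.card, ← Nat.cast_smul_eq_nsmul ℂ, smul_smul]
    congr 1
    field_simp
  have h1 := (LinearMap.isProj_range_iff_isIdempotentElem E).2 hE
  have h2 := h1.trace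
  refine ⟨Module.finrank ℂ (LinearMap.range E), ?_⟩
  rw [← h2]
  simp only [E]
  rw [map_smul, map_sum, smul_eq_mul, mul_inv_cancel_left₀ hp0]
  rfl

theorem norm_sq_le (hx : orderOf x = p) (hC : Subgroup.centralizer ({x} : Set G) = Subgroup.zpowers x)
    (χ : IrrCharacter G) (hχ : χ ≠ triv G) : ‖(χ : G → ℂ) x‖ ^ 2 + 1 ≤ p := by
  have := Fintype.ofFinite (IrrCharacter G)
  classical
  have h1 := column_orthogonality x x
  rw [if_pos (IsConj.refl x), hC, Nat.card_zpowers, hx] at h1
  have h2 : ∀ ψ : IrrCharacter G, (ψ : G → ℂ) x * (starRingEnd ℂ) ((ψ : G → ℂ) x) =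
      ((‖(ψ : G → ℂ) x‖ ^ 2 : ℝ) : ℂ) := fun ψ => by
    rw [Complex.mul_conj, Complex.normSq_eq_norm_sq]
  rw [Finset.sum_congr rfl (fun ψ _ => h2 ψ), ← Complex.ofReal_sum] at h1
  have h3 : ∑ ψ : IrrCharacter G, ‖(ψ : G → ℂ) x‖ ^ 2 = (p : ℝ) := by exact_mod_cast h1
  rw [← h3]
  have h4 : ∑ ψ ∈ ({χ, triv G} : Finset (IrrCharacter G)), ‖(ψ : G → ℂ) x‖ ^ 2 ≤
      ∑ ψ : IrrCharacter G, ‖(ψ : G → ℂ) x‖ ^ 2 :=
    Finset.sum_le_sum_of_subset_of_nonneg (Finset.subset_univ _) (fun _ _ _ => sq_nonneg _)
  rw [Finset.sum_pair hχ] at h4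
  simpa using h4

/-- the values on `⟨x⟩` -/
theorem values (hp2 : p ≠ 2) (hx : orderOf x = p)
    (hC : Subgroup.centralizer ({x} : Set G) = Subgroup.zpowers x)
    (χ : IrrCharacter G) (hχ : charDegree (χ : G → ℂ) + 1 = p) (ht : ¬ Even (psi hx).range.index) :
    ∀ k : ZMod p, k ≠ 0 → (χ : G → ℂ) (pw x k) = -1 := by
  have := Fintype.ofFinite G
  have := Fintype.ofFinite (IrrCharacter G)
  obtain ⟨M, hM⟩ := H78.Cong.exists_isPModular hp.out
  have hidx := not_dvd_index hx hC
  have hp3 : 3 ≤ p := by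
    have := hp.out.two_le
    omega
  obtain ⟨a, Y, ε, hε, ha, haB, hY, hBu, hcard, hnorm, -, hval, hdeg, hdegY, hrel⟩ :=
    H21.PLat.structure_thm hM hx hidx rfl
  have hte : (psi hx).range.index * Nat.card (psi hx).range = p - 1 := by
    rw [Subgroup.index_mul_card, Nat.card_eq_fintype_card, ZMod.card_units]
  have hχp : ¬ p ∣ charDegree (χ : G → ℂ) := by
    intro h
    have := Nat.le_of_dvd (by omega) h
    omega
  have hχB := mem_B0 hM hx hidx hC χ hχp
  have hdc : (charDegree (χ : G → ℂ) : ℤ) = p - 1 := by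
    have : (charDegree (χ : G → ℂ) : ℤ) + 1 = p := by exact_mod_cast hχ
    linarith
  rcases hBu χ hχB with h | h
  · -- non-exceptional
    intro k hk
    rw [hval χ h k hk]
    obtain ⟨m, hm⟩ := hdeg χ h
    rcases ha χ with h1 | h1 | h1
    · exact absurd h1 h
    · exfalso
      rw [hdc, h1] at hm
      have h2 : (p : ℤ) ∣ 2 := ⟨1 - m, by linear_combination -hm⟩
      have := Int.le_of_dvd (by norm_num) h2
      omega
    · rw [h1]; norm_num
  · obtain ⟨m, hm⟩ := hdegY χ h
    have he1 : 0 < Nat.card (psi hx).range := Nat.card_pos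
    have he2 : Nat.card (psi hx).range ≤ p - 1 := by
      rw [← hte]
      apply Nat.le_mul_of_pos_left
      rcases Nat.eq_zero_or_pos (psi hx).range.index with h0 | h0
      · exact absurd (by rw [h0]; exact Even.zero) ht
      · exact h0
    have hpo : Even (p - 1) := hp.out.even_sub_one hp2
    rcases hε with h1 | h1
    · -- `e = p - 1`
      rw [h1, hdc, one_mul] at hm
      have h2 : (p : ℤ) ∣ (Nat.card (psi hx).range : ℤ) + 1 := ⟨1 - m, by linear_combination -hm⟩
      have h3 : p ∣ Nat.card (psi hx).range + 1 := by exact_mod_cast h2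
      have h4 := Nat.le_of_dvd (by omega) h3
      have h5 : Nat.card (psi hx).range = p - 1 := by omega
      rw [h5] at hte
      have h6 : (psi hx).range.index = 1 := Nat.eq_of_mul_eq_mul_right (by omega : 0 < p - 1) (by rw [hte, one_mul])
      rw [Subgroup.index_eq_one] at h6
      have h7 : ∀ k : ZMod p, k ≠ 0 → (χ : G → ℂ) (pw x k) = (χ : G → ℂ) x := by
        intro k hk
        symm
        have h8 : IsConj (pw x (1 : ZMod p)) (pw x k) := by
          rw [isConj_pw_iff hx one_ne_zero]
          exact ⟨Units.mk0 k hk, by rw [h6]; trivial, by simp⟩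
        rw [pw_one hx] at h8
        obtain ⟨c, hc⟩ := isConj_iff.1 h8
        rw [← hc]
        obtain ⟨n, ρ, hρ⟩ := isCharacter_of_isIrr χ.2
        rw [← hρ, Representation.char_conj]
      have h9 : (χ : G → ℂ) x = -1 := by
        obtain ⟨n, ρ, hρ⟩ := isCharacter_of_isIrr χ.2
        obtain ⟨j, hj⟩ := sum_pw ρ hx
        rw [← Finset.add_sum_erase _ _ (Finset.mem_univ (0 : ZMod p)), pw_zero, hρ] at hj
        rw [Finset.sum_congr rfl (g := fun _ => (χ : G → ℂ) x) (fun k hk =>
          h7 k (Finset.ne_of_mem_erase hk)), Finset.sum_const, Finset.card_erase_of_mem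
          (Finset.mem_univ _), Finset.card_univ, ZMod.card, nsmul_eq_mul] at hj
        have hd1 : (χ : G → ℂ) 1 = ((p - 1 : ℕ) : ℂ) := by
          rw [← deg_cast χ]
          congr 1
          omega
        rw [hd1] at hj
        have h10 : ((p - 1 : ℕ) : ℂ) = ((p - 1 : ℕ) : ℤ) := by norm_cast
        have h11 : (((p - 1 : ℕ) : ℤ) : ℂ) * (1 + (χ : G → ℂ) x) = ((p * j : ℤ) : ℂ) := by
          push_cast
          linear_combination hj
        have h12 : (((p - 1 : ℕ) : ℤ)) ∣ (p * j : ℤ) := by
          refine H81.DegreeCount.dvd_of_integral_mul ?_ (by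
            have : (p - 1 : ℕ) ≠ 0 := by omega
            exact_mod_cast this) h11
          exact IsIntegral.add isIntegral_one (char_isIntegral (isCharacter_of_isIrr χ.2) x)
        have h13 : (p - 1) ∣ p * j := by exact_mod_cast h12
        have h14 : (p - 1) ∣ j := by
          refine Nat.Coprime.dvd_of_dvd_mul_left ?_ h13
          have h20 : Nat.Coprime (p - 1) ((p - 1) + 1) := by simp
          rwa [Nat.sub_add_cancel (by omega : 1 ≤ p)] at h20
        obtain ⟨i, rfl⟩ := h14
        have h15 : (χ : G → ℂ) x = (p * i : ℝ) - 1 := by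
          have h16 : ((p - 1 : ℕ) : ℂ) ≠ 0 := by
            have : p - 1 ≠ 0 := by omega
            exact_mod_cast this
          apply mul_left_cancel₀ h16
          push_cast at hj ⊢
          linear_combination hj
        have h17 := norm_sq_le hx hC χ (by
          intro hcon
          have : charDegree (χ : G → ℂ) = 1 := by rw [hcon]; simp [charDegree]
          omega)
        rcases Nat.eq_zero_or_pos i with rfl | hi
        · rw [h15]; simp
        · exfalso
          have h18 : (χ : G → ℂ) x = (((p * i : ℝ) - 1 : ℝ) : ℂ) := by rw [h15]; push_cast; ring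
          rw [h18, Complex.norm_real] at h17
          have hp3' : (3 : ℝ) ≤ p := by exact_mod_cast hp3
          have hi' : (1 : ℝ) ≤ i := by exact_mod_cast hi
          rw [Real.norm_eq_abs, sq_abs] at h17
          nlinarith [mul_le_mul_of_nonneg_left hi' (by linarith : (0 : ℝ) ≤ p)]
      intro k hk
      rw [h7 k hk, h9]
    · exfalso
      rw [h1, hdc] at hm
      have h2 : (p : ℤ) ∣ (Nat.card (psi hx).range : ℤ) - 1 := ⟨m - 1, by linear_combination hm⟩
      have h4 : (Nat.card (psi hx).range : ℤ) - 1 = 0 := by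
        apply Int.eq_zero_of_dvd_of_nonneg_of_lt _ _ h2
        · omega
        · omega
      have h5 : Nat.card (psi hx).range = 1 := by omega
      rw [h5, mul_one] at hte
      rw [hte] at ht
      exact ht hpo

/-- the parity theorem -/
theorem main (hx : orderOf x = p)
    (hC : Subgroup.centralizer ({x} : Set G) = Subgroup.zpowers x)
    (χ : IrrCharacter G) (hχ : charDegree (χ : G → ℂ) + 1 = p) (ht : ¬ Even (psi hx).range.index) :
    Even (commutator G).index := by
  by_cases hp2 : p = 2
  · subst hp2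
    exact two hx hC
  have hv := values hp2 hx hC χ hχ ht
  have hte : (psi hx).range.index * Nat.card (psi hx).range = p - 1 := by
    rw [Subgroup.index_mul_card, Nat.card_eq_fintype_card, ZMod.card_units]
  have hpo : Even (p - 1) := hp.out.even_sub_one hp2
  have hp3 := hp.out.two_le
  have hp0 : p - 1 ≠ 0 := by omega
  obtain ⟨a, c, hc, hac⟩ := Nat.exists_eq_two_pow_mul_odd hp0
  have ha0 : a ≠ 0 := by
    rintro rfl
    rw [pow_zero, one_mul] at hac
    rw [hac] at hpo
    exact (Nat.not_even_iff_odd.2 hc) hpo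
  have hma : 2 ^ a ∣ Nat.card (psi hx).range := by
    have h1 : 2 ^ a ∣ (psi hx).range.index * Nat.card (psi hx).range := by
      rw [hte, hac]; exact dvd_mul_right _ _
    refine Nat.Coprime.dvd_of_dvd_mul_left ?_ h1
    exact ((Nat.coprime_two_left.2 (Nat.not_even_iff_odd.1 ht))).pow_left a
  obtain ⟨w, hw⟩ := IsCyclic.exists_ofOrder_eq_natCard (α := (psi hx).range)
  obtain ⟨b, hb⟩ := hma
  have hb0 : b ≠ 0 := by
    rintro rfl
    rw [mul_zero] at hb
    exact Nat.card_pos.ne' hb
  have hwb : orderOf (w ^ b) = 2 ^ a := by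
    rw [orderOf_pow_of_dvd hb0 (by rw [hw, hb]; exact dvd_mul_left _ _), hw, hb,
      Nat.mul_div_cancel _ (Nat.pos_of_ne_zero hb0)]
  obtain ⟨y', hy'⟩ := (w ^ b).2
  have hwo : orderOf (psi hx y') = 2 ^ a := by
    rw [hy', Subgroup.orderOf_coe, hwb]
  have hpsi : psi hx (y' ^ p) = psi hx y' := by
    have h1 := pow_card_eq_one' (x := psi hx y')
    rw [Nat.card_eq_fintype_card, ZMod.card_units] at h1
    rw [map_pow]
    have h2 : psi hx y' ^ ((p - 1) + 1) = psi hx y' := by rw [pow_succ, h1, one_mul]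
    have h3 : (p - 1) + 1 = p := by omega
    exact (congrArg (fun j => psi hx y' ^ j) h3).symm.trans h2
  have hym : (y' ^ p) ^ (2 ^ a) = 1 := by
    have h1 : y' ^ (2 ^ a) ∈ (psi hx).ker := by
      rw [MonoidHom.mem_ker, map_pow, ← hwo, pow_orderOf_eq_one]
    rw [psi_ker, Subgroup.mem_subgroupOf] at h1
    have h2 : ((y' ^ (2 ^ a) : Subgroup.normalizer (Subgroup.zpowers x : Set G)) : G) ∈
        Subgroup.zpowers x := by
      apply hC.le
      rw [Subgroup.mem_centralizer_singleton_iff]
      exact (Subgroup.mem_centralizer_iff.1 h1 x (Subgroup.mem_zpowers x)).symm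
    rw [← pow_mul, mul_comm, pow_mul]
    apply Subtype.ext
    rw [Subgroup.coe_pow, Subgroup.coe_one]
    obtain ⟨n, hn⟩ := Subgroup.mem_zpowers_iff.1 h2
    rw [← hn, ← zpow_natCast, ← zpow_mul, mul_comm, zpow_mul, zpow_natCast, ← hx,
      pow_orderOf_eq_one, one_zpow]
  obtain ⟨n, ρ, hρ⟩ := isCharacter_of_isIrr χ.2
  have hd1 : (χ : G → ℂ) 1 = ((p - 1 : ℕ) : ℂ) := by
    rw [← deg_cast χ]
    congr 1
    omega
  have hn : Module.finrank ℂ (Fin n → ℂ) = p - 1 := by
    rw [← hρ, Representation.char_one] at hd1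
    exact_mod_cast hd1
  have hdet := det_of_traces (ρ ((y' ^ p : Subgroup.normalizer (Subgroup.zpowers x : Set G)) : G))
    (m := 2 ^ a) (c := c) (by positivity) ((Nat.even_pow.2 ⟨even_two, ha0⟩)) (by
      rw [← map_pow, ← Subgroup.coe_pow, hym, Subgroup.coe_one, map_one]) (by rw [hn, hac]) (by
      intro k hk
      rw [← map_pow, ← Subgroup.coe_pow]
      refine trace_zero ρ hx (by rw [hn]; omega) (fun l hl => by rw [hρ]; exact hv l hl)
        ((y' ^ p) ^ k) ?_
      rw [map_pow, hpsi]
      intro hcon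
      exact hk (hwo ▸ orderOf_dvd_of_pow_eq_one hcon))
  rw [hc.neg_one_pow] at hdet
  apply even_of_hom (H18.DetChar.detHom ρ)
    (y := ((y' ^ p : Subgroup.normalizer (Subgroup.zpowers x : Set G)) : G))
  ext
  rw [H18.DetChar.detHom_apply, hdet]
  simp

end grp

end H78.PM2
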