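import Mathlib.GroupTheory.Rank
import Mathlib.GroupTheory.GroupAction.Quotient
import Cfsg.Agent.Lib.H78.SelfCent

/-! Groups with a self-centralizing element of prime order: counting classes. -/

set_option autoImplicit false
set_option linter.unusedSectionVars false

namespace H78.SelfCent2

open H78.SelfCent

variable {G : Type*} [Group G] [Finite G] {p : ℕ} {x : G}

theorem index_centralizer_eq_card (g : G) :
    (Subgroup.centralizer ({g} : Set G)).index = Nat.card ((ConjClasses.mk g).carrier) := by
  have h1 := MulAction.index_stabilizer (ConjAct G) g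
  have h2 : (MulAction.stabilizer (ConjAct G) g).index =
      (Subgroup.centralizer ({g} : Set G)).index := by
    rw [ConjAct.stabilizer_eq_centralizer]; rfl
  rw [← h2, h1, ConjAct.orbit_eq_carrier_conjClasses, ← Nat.card_coe_set_eq]

theorem card_sigma_orderOf (n : ℕ) (H : ℕ → ℕ)
    (hH : ∀ g : G, orderOf g = n → (Subgroup.centralizer ({g} : Set G)).index = H n) :
    Nat.card {g : G // orderOf g = n} =
      Nat.card {C : ConjClasses G // ∃ g ∈ C.carrier, orderOf g = n} * H n := by
  classical
  have hord : ∀ C : ConjClasses G, (∃ g ∈ C.carrier, orderOf g = n) →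
      ∀ g ∈ C.carrier, orderOf g = n := by
    rintro C ⟨g, hg, hgn⟩ h hh
    have : IsConj g h := by
      rw [ConjClasses.mem_carrier_iff_mk_eq] at hg hh
      exact ConjClasses.mk_eq_mk_iff_isConj.1 (hg.trans hh.symm)
    obtain ⟨c, hc⟩ := isConj_iff.1 this
    rw [← hc, ← hgn]
    exact orderOf_injective (MulAut.conj c).toMonoidHom (MulAut.conj c).injective g
  let e : {g : G // orderOf g = n} ≃
      Σ C : {C : ConjClasses G // ∃ g ∈ C.carrier, orderOf g = n}, (C : ConjClasses G).carrier :=
    { toFun := fun g => ⟨⟨ConjClasses.mk g.1, g.1, ConjClasses.mem_carrier_mk, g.2⟩,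
        ⟨g.1, ConjClasses.mem_carrier_mk⟩⟩
      invFun := fun s => ⟨s.2.1, hord _ s.1.2 _ s.2.2⟩
      left_inv := fun g => rfl
      right_inv := by
        rintro ⟨⟨C, hC⟩, ⟨g, hg⟩⟩
        have : ConjClasses.mk g = C := ConjClasses.mem_carrier_iff_mk_eq.1 hg
        subst this
        rfl }
  have hfc : Finite (ConjClasses G) :=
    Finite.of_surjective (ConjClasses.mk : G → ConjClasses G) ConjClasses.mk_surjective
  have hfin := Fintype.ofFinite {C : ConjClasses G // ∃ g ∈ C.carrier, orderOf g = n}
  rw [Nat.card_congr e, Nat.card_sigma]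
  rw [Finset.sum_congr rfl (g := fun _ => H n)]
  · rw [Finset.sum_const, Finset.card_univ, Nat.card_eq_fintype_card, smul_eq_mul]
  · rintro ⟨C, g, hg, hgn⟩ _
    have hC' : ConjClasses.mk g = C := ConjClasses.mem_carrier_iff_mk_eq.1 hg
    subst hC'
    rw [← hH g hgn, index_centralizer_eq_card]

theorem exists_conj (hp : p.Prime) (hx : orderOf x = p)
    (hC : Subgroup.centralizer ({x} : Set G) = Subgroup.zpowers x) {g : G} (hg : orderOf g = p) :
    ∃ c : G, c * g * c⁻¹ ∈ Subgroup.zpowers x := by
  have := Fact.mk hp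
  obtain ⟨P, hP⟩ := exists_sylow hp hx hC
  have hpg : IsPGroup p (Subgroup.zpowers g) := by
    apply IsPGroup.of_card (n := 1)
    rw [Nat.card_zpowers, hg, pow_one]
  obtain ⟨Q, hQ⟩ := hpg.exists_le_sylow
  obtain ⟨c, hc⟩ := MulAction.exists_smul_eq G Q P
  refine ⟨c, ?_⟩
  rw [← hP, ← hc, Sylow.coe_subgroup_smul]
  exact Subgroup.smul_mem_pointwise_smul g (MulAut.conj c) (Q : Subgroup G)
    (hQ (Subgroup.mem_zpowers g))

theorem zpowers_eq (hp : p.Prime) (hx : orderOf x = p) {y : G} (hy : y ∈ Subgroup.zpowers x)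
    (hy1 : y ≠ 1) : Subgroup.zpowers y = Subgroup.zpowers x := by
  apply Subgroup.eq_of_le_of_card_ge (Subgroup.zpowers_le.2 hy)
  have h1 : Nat.card (Subgroup.zpowers y) ∣ Nat.card (Subgroup.zpowers x) :=
    Subgroup.card_dvd_of_le (Subgroup.zpowers_le.2 hy)
  rw [Nat.card_zpowers x, hx] at h1 ⊢
  rcases (Nat.dvd_prime hp).1 h1 with h | h
  · exfalso
    apply hy1
    rw [Nat.card_zpowers] at h
    exact orderOf_eq_one_iff.1 h
  · exact h.ge

theorem centralizer_eq (hp : p.Prime) (hx : orderOf x = p)
    (hC : Subgroup.centralizer ({x} : Set G) = Subgroup.zpowers x) {y : G}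
    (hy : y ∈ Subgroup.zpowers x) (hy1 : y ≠ 1) :
    Subgroup.centralizer ({y} : Set G) = Subgroup.zpowers x := by
  have hz := zpowers_eq hp hx hy hy1
  apply le_antisymm
  · intro g hg
    rw [Subgroup.mem_centralizer_singleton_iff] at hg
    have hxy : x ∈ Subgroup.zpowers y := by rw [hz]; exact Subgroup.mem_zpowers x
    obtain ⟨k, hk⟩ := Subgroup.mem_zpowers_iff.1 hxy
    rw [← hC, Subgroup.mem_centralizer_singleton_iff, ← hk]
    exact ((show Commute g y from hg).zpow_right k)
  · intro g hg
    rw [Subgroup.mem_centralizer_singleton_iff]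
    obtain ⟨k, rfl⟩ := Subgroup.mem_zpowers_iff.1 hg
    obtain ⟨l, rfl⟩ := Subgroup.mem_zpowers_iff.1 hy
    rw [← zpow_add, ← zpow_add, add_comm]

theorem index_centralizer (hp : p.Prime) (hx : orderOf x = p)
    (hC : Subgroup.centralizer ({x} : Set G) = Subgroup.zpowers x) {g : G} (hg : orderOf g = p) :
    (Subgroup.centralizer ({g} : Set G)).index = (Subgroup.zpowers x).index := by
  obtain ⟨c, hc⟩ := exists_conj hp hx hC hg
  have hne : c * g * c⁻¹ ≠ 1 := by
    intro h
    have : g = 1 := by
      have h2 := congrArg (fun y => c⁻¹ * y * c) h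
      simpa [mul_assoc] using h2
    rw [this, orderOf_one] at hg
    exact hp.one_lt.ne hg
  rw [← centralizer_eq hp hx hC hc hne, index_centralizer_eq_card, index_centralizer_eq_card]
  have : ConjClasses.mk g = ConjClasses.mk (c * g * c⁻¹) :=
    ConjClasses.mk_eq_mk_iff_isConj.2 (isConj_iff.2 ⟨c, rfl⟩)
  rw [this]

theorem card_subtype_ne_one {H : Type*} [Group H] [Finite H] :
    Nat.card {h : H // h ≠ 1} = Nat.card H - 1 := by
  classical
  have := Fintype.ofFinite H
  rw [Nat.card_eq_fintype_card, Nat.card_eq_fintype_card, Fintype.card_subtype_compl,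
    Fintype.card_subtype_eq]

theorem card_orderOf_prime (hp : p.Prime) :
    Nat.card {g : G // orderOf g = p} =
      Nat.card {H : Subgroup G // Nat.card H = p} * (p - 1) := by
  classical
  have hf := Fact.mk hp
  let e : {g : G // orderOf g = p} ≃
      Σ H : {H : Subgroup G // Nat.card H = p}, {h : (H : Subgroup G) // h ≠ 1} :=
    { toFun := fun g => ⟨⟨Subgroup.zpowers g.1, by rw [Nat.card_zpowers, g.2]⟩,
        ⟨⟨g.1, Subgroup.mem_zpowers _⟩, fun h => by
          have h1 : g.1 = 1 := congrArg Subtype.val h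
          have h2 := g.2
          rw [h1, orderOf_one] at h2
          exact hp.one_lt.ne h2⟩⟩
      invFun := fun s => ⟨s.2.1.1, by
        have h1 : orderOf (s.2.1 : (s.1 : Subgroup G)) = p := by
          apply orderOf_eq_prime
          · have := pow_card_eq_one' (x := s.2.1)
            rwa [s.1.2] at this
          · exact s.2.2
        exact (Subgroup.orderOf_coe _).trans h1⟩
      left_inv := fun g => rfl
      right_inv := by
        rintro ⟨⟨H, hH⟩, ⟨⟨g, hg⟩, hg1⟩⟩
        have hg1' : g ≠ 1 := fun h => hg1 (Subtype.ext h)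
        have : Subgroup.zpowers g = H := by
          apply Subgroup.eq_of_le_of_card_ge (Subgroup.zpowers_le.2 hg)
          have h1 : Nat.card (Subgroup.zpowers g) ∣ Nat.card H :=
            Subgroup.card_dvd_of_le (Subgroup.zpowers_le.2 hg)
          rw [hH] at h1 ⊢
          rcases (Nat.dvd_prime hp).1 h1 with h | h
          · exfalso
            apply hg1'
            rw [Nat.card_zpowers] at h
            exact orderOf_eq_one_iff.1 h
          · exact h.ge
        subst this
        rfl }
  have hfin := Fintype.ofFinite {H : Subgroup G // Nat.card H = p}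
  rw [Nat.card_congr e, Nat.card_sigma]
  rw [Finset.sum_congr rfl (g := fun _ => p - 1)]
  · rw [Finset.sum_const, Finset.card_univ, Nat.card_eq_fintype_card, smul_eq_mul]
  · rintro ⟨H, hH⟩ _
    rw [card_subtype_ne_one, hH]

/-- `t * e = p - 1`. -/
theorem classes_mul_relIndex (hp : p.Prime) (hx : orderOf x = p)
    (hC : Subgroup.centralizer ({x} : Set G) = Subgroup.zpowers x) :
    Nat.card {C : ConjClasses G // ∃ g ∈ C.carrier, orderOf g = p} *
      (Subgroup.zpowers x).relIndex
        (Subgroup.normalizer ((Subgroup.zpowers x : Subgroup G) : Set G)) = p - 1 := by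
  have h1 := card_sigma_orderOf (G := G) p (fun _ => (Subgroup.zpowers x).index)
    (fun g hg => index_centralizer hp hx hC hg)
  have h2 := card_orderOf_prime (G := G) hp
  rw [h1, card_eq_index hp hx hC,
    ← Subgroup.relIndex_mul_index (Subgroup.le_normalizer (H := Subgroup.zpowers x))] at h2
  set N := Subgroup.normalizer ((Subgroup.zpowers x : Subgroup G) : Set G)
  have hpos : 0 < N.index := Nat.pos_of_ne_zero Subgroup.index_ne_zero_of_finite
  have h3 : N.index * (Nat.card {C : ConjClasses G // ∃ g ∈ C.carrier, orderOf g = p} *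
      (Subgroup.zpowers x).relIndex N) = N.index * (p - 1) := by
    rw [← h2]; ring
  exact Nat.eq_of_mul_eq_mul_left hpos h3

/-- If `e ≠ 1` then `x ∈ G'`. -/
theorem mem_commutator (hp : p.Prime) (hx : orderOf x = p)
    (hC : Subgroup.centralizer ({x} : Set G) = Subgroup.zpowers x)
    (he : (Subgroup.zpowers x).relIndex
        (Subgroup.normalizer ((Subgroup.zpowers x : Subgroup G) : Set G)) ≠ 1) :
    x ∈ commutator G := by
  set N := Subgroup.normalizer ((Subgroup.zpowers x : Subgroup G) : Set G) with hN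
  have hnle : ¬ N ≤ Subgroup.zpowers x := by
    intro h
    exact he (Subgroup.relIndex_eq_one.2 h)
  obtain ⟨n, hn, hnx⟩ := SetLike.not_le_iff_exists.1 hnle
  have h1 := conj_mem_of_mem_normalizer hn
  have h2 : n * x * n⁻¹ * x⁻¹ ∈ Subgroup.zpowers x :=
    Subgroup.mul_mem _ h1 (Subgroup.inv_mem _ (Subgroup.mem_zpowers x))
  have h3 : n * x * n⁻¹ * x⁻¹ ≠ 1 := by
    intro h
    apply hnx
    rw [← hC, Subgroup.mem_centralizer_singleton_iff]
    calc n * x = (n * x * n⁻¹ * x⁻¹) * (x * n) := by group
      _ = x * n := by rw [h, one_mul]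
  have h4 : n * x * n⁻¹ * x⁻¹ ∈ commutator G := by
    rw [commutator_def, ← commutatorElement_def]
    exact Subgroup.commutator_mem_commutator trivial trivial
  have h5 := zpowers_eq hp hx h2 h3
  have h6 : x ∈ Subgroup.zpowers (n * x * n⁻¹ * x⁻¹) := by
    rw [h5]; exact Subgroup.mem_zpowers x
  exact (Subgroup.zpowers_le.2 h4) h6

/-- If `e = 1` there is a normal `p`-complement, and it is the commutator subgroup. -/
theorem exists_complement (hp : p.Prime) (hx : orderOf x = p)
    (hC : Subgroup.centralizer ({x} : Set G) = Subgroup.zpowers x)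
    (he : (Subgroup.zpowers x).relIndex
        (Subgroup.normalizer ((Subgroup.zpowers x : Subgroup G) : Set G)) = 1) :
    (commutator G).index = p ∧ ¬ p ∣ Nat.card (commutator G) := by
  have hf := Fact.mk hp
  obtain ⟨P, hP⟩ := exists_sylow hp hx hC
  have hNle : Subgroup.normalizer ((P : Subgroup G) : Set G) ≤
      Subgroup.centralizer ((P : Subgroup G) : Set G) := by
    rw [hP]
    intro n hn
    have h1 : n ∈ Subgroup.zpowers x := (Subgroup.relIndex_eq_one.1 he) hn
    rw [Subgroup.mem_centralizer_iff]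
    intro h hh
    obtain ⟨k, rfl⟩ := Subgroup.mem_zpowers_iff.1 h1
    obtain ⟨l, rfl⟩ := Subgroup.mem_zpowers_iff.1 hh
    rw [← zpow_add, ← zpow_add, add_comm]
  have hcompl := MonoidHom.ker_transferSylow_isComplement' P hNle
  set K := (MonoidHom.transferSylow P hNle).ker with hK
  have hKp : ¬ p ∣ Nat.card K := MonoidHom.not_dvd_card_ker_transferSylow P hNle
  have hKi : K.index = p := by
    rw [hcompl.symm.index_eq_card]
    rw [hP, Nat.card_zpowers, hx]
  have hle : commutator G ≤ K := by
    have hKprime : (Nat.card (G ⧸ K)).Prime := by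
      rw [← Subgroup.index_eq_card, hKi]; exact hp
    have := Fact.mk hKprime
    have hcyc : IsCyclic (G ⧸ K) := isCyclic_of_prime_card rfl
    have hcc : IsMulCommutative (G ⧸ K) := IsCyclic.isMulCommutative
    have hcomm : ∀ a b : G ⧸ K, a * b = b * a := fun a b =>
      IsMulCommutative.is_comm.comm a b
    rw [commutator_def, Subgroup.commutator_le]
    intro g _ h _
    rw [← QuotientGroup.eq_one_iff, commutatorElement_def]
    simp only [QuotientGroup.mk_mul, QuotientGroup.mk_inv]
    rw [hcomm (g : G ⧸ K) h]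
    group
  have heq : commutator G = K := le_antisymm hle (le_commutator_top hp hx hC K hKp)
  rw [heq]
  exact ⟨hKi, hKp⟩

end H78.SelfCent2
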