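import Mathlib

set_option autoImplicit false

open MeasureTheory Complex Topology Filter TopologicalSpace
open scoped Real

namespace H78.Th

/-- integer vector as real vector -/
def zc {ι : Type*} (n : ι → ℤ) : ι → ℝ := fun i => (n i : ℝ)

def proj {ι : Type*} : (ι → ℝ) → UnitAddTorus ι := fun x i => (x i : UnitAddCircle)

lemma proj_open {ι : Type*} : IsOpenQuotientMap (proj (ι := ι)) := by
  exact IsOpenQuotientMap.piMap (fun i => QuotientAddGroup.isOpenQuotientMap_mk)

lemma proj_add_zc {ι : Type*} (x : ι → ℝ) (n : ι → ℤ) : proj (x + zc n) = proj x := by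
  funext i
  simp [proj, zc]

lemma proj_eq {ι : Type*} {x y : ι → ℝ} (h : proj x = proj y) : ∃ n : ι → ℤ, x = y + zc n := by
  have h1 : ∀ i, ∃ n : ℤ, x i = y i + n := by
    intro i
    have := congrFun h i
    simp only [proj] at this
    have h2 := (QuotientAddGroup.eq (s := AddSubgroup.zmultiples (1:ℝ))).mp this
    obtain ⟨k, hk⟩ := AddSubgroup.mem_zmultiples_iff.mp h2
    refine ⟨-k, ?_⟩
    have : (k : ℝ) = - x i + y i := by simpa using hk
    push_cast
    linarith
  choose n hn using h1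
  exact ⟨n, funext fun i => by simp [zc, hn i]⟩

lemma zc_add {ι : Type*} (m n : ι → ℤ) : zc (m + n) = zc m + zc n := by
  funext i; simp [zc]

variable {ι : Type*} [Fintype ι]

/-- translates -/
noncomputable def tr (f : C(ι → ℝ, ℂ)) (n : ι → ℤ) : C(ι → ℝ, ℂ) :=
  f.comp (ContinuousMap.addRight (zc n))

@[simp] lemma tr_apply (f : C(ι → ℝ, ℂ)) (n : ι → ℤ) (x : ι → ℝ) : tr f n x = f (x + zc n) := rfl

def LocSum (f : C(ι → ℝ, ℂ)) : Prop :=
  ∀ K : Compacts (ι → ℝ), Summable fun n : ι → ℤ => ‖(tr f n).restrict K‖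

lemma LocSum.summable {f : C(ι → ℝ, ℂ)} (h : LocSum f) : Summable (tr f) :=
  ContinuousMap.summable_of_locally_summable_norm h

noncomputable def per (f : C(ι → ℝ, ℂ)) : C(ι → ℝ, ℂ) := ∑' n : ι → ℤ, tr f n

lemma per_apply {f : C(ι → ℝ, ℂ)} (h : LocSum f) (x : ι → ℝ) :
    per f x = ∑' n : ι → ℤ, f (x + zc n) := by
  exact (ContinuousMap.tsum_apply h.summable x).symm

lemma per_periodic {f : C(ι → ℝ, ℂ)} (h : LocSum f) (x : ι → ℝ) (m : ι → ℤ) :
    per f (x + zc m) = per f x := by
  rw [per_apply h, per_apply h]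
  rw [← (Equiv.addLeft m).tsum_eq (fun n => f (x + zc n))]
  refine tsum_congr fun n => ?_
  simp [zc_add, add_assoc]

lemma per_factors {f : C(ι → ℝ, ℂ)} (h : LocSum f) :
    Function.FactorsThrough (per f) (proj (ι := ι)) := by
  intro x y hxy
  obtain ⟨n, rfl⟩ := proj_eq hxy
  exact per_periodic h y n

noncomputable def F (f : C(ι → ℝ, ℂ)) (h : LocSum f) : C(UnitAddTorus ι, ℂ) :=
  proj_open.isQuotientMap.lift (f := ⟨proj, proj_open.continuous⟩) (per f) (per_factors h)

lemma F_proj (f : C(ι → ℝ, ℂ)) (h : LocSum f) (x : ι → ℝ) : F f h (proj x) = per f x := by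
  have := proj_open.isQuotientMap.lift_comp (f := ⟨proj, proj_open.continuous⟩) (per f) (per_factors h)
  exact DFunLike.congr_fun this x

/-- the additive character -/
noncomputable def ech (m : ι → ℤ) (x : ι → ℝ) : ℂ := cexp (-2 * π * I * ∑ i, (m i : ℂ) * x i)

lemma ech_norm (m : ι → ℤ) (x : ι → ℝ) : ‖ech m x‖ = 1 := by
  rw [ech]
  have : (-2 * π * I * ∑ i, (m i : ℂ) * x i : ℂ) = ((-2 * π * ∑ i, (m i : ℝ) * x i : ℝ) : ℂ) * I := by
    push_cast; ring
  rw [this, Complex.norm_exp_ofReal_mul_I]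

lemma ech_continuous (m : ι → ℤ) : Continuous (ech m) := by
  unfold ech
  fun_prop

lemma ech_add (m : ι → ℤ) (x y : ι → ℝ) : ech m (x + y) = ech m x * ech m y := by
  simp only [ech, ← Complex.exp_add, Pi.add_apply]
  congr 1
  push_cast
  rw [← mul_add, ← Finset.sum_add_distrib]
  congr 1
  refine Finset.sum_congr rfl fun i _ => by ring

lemma ech_zc (m n : ι → ℤ) : ech m (zc n) = 1 := by
  rw [ech, Complex.exp_eq_one_iff]
  refine ⟨- ∑ i, m i * n i, ?_⟩
  simp only [zc]
  push_cast
  ring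

lemma mFourier_proj (m : ι → ℤ) (x : ι → ℝ) :
    UnitAddTorus.mFourier (-m) (fun i => (x i : UnitAddCircle)) = ech m x := by
  simp only [UnitAddTorus.mFourier, ContinuousMap.coe_mk, fourier_coe_apply, ech]
  rw [← Complex.exp_sum]
  congr 1
  rw [Finset.mul_sum]
  refine Finset.sum_congr rfl fun i _ => ?_
  simp
  ring

def cube (n : ι → ℤ) : Set (ι → ℝ) := {x | ∀ i, x i ∈ Set.Ioc ((n i : ℝ)) (n i + 1)}

lemma cube_meas (n : ι → ℤ) : MeasurableSet (cube n) := by
  have : cube n = Set.pi Set.univ (fun i => Set.Ioc ((n i : ℝ)) (n i + 1)) := by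
    ext x; simp [cube]
  rw [this]
  exact MeasurableSet.univ_pi (fun i => measurableSet_Ioc)

lemma cube_disj : Pairwise (Function.onFun Disjoint (cube (ι := ι))) := by
  intro m n hmn
  rw [Function.onFun, Set.disjoint_left]
  intro x hx hy
  apply hmn
  funext i
  have h1 := hx i
  have h2 := hy i
  simp only [Set.mem_Ioc] at h1 h2
  have a : (m i : ℝ) < n i + 1 := by linarith
  have b : (n i : ℝ) < m i + 1 := by linarith
  have a' : m i < n i + 1 := by exact_mod_cast a
  have b' : n i < m i + 1 := by exact_mod_cast b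
  omega

lemma cube_union : (⋃ n : ι → ℤ, cube n) = Set.univ := by
  rw [Set.eq_univ_iff_forall]
  intro x
  rw [Set.mem_iUnion]
  refine ⟨fun i => ⌈x i⌉ - 1, fun i => ?_⟩
  have h1 := Int.ceil_lt_add_one (x i)
  have h2 := Int.le_ceil (x i)
  simp only [Set.mem_Ioc]
  push_cast
  constructor <;> linarith

lemma setIntegral_cube (g : (ι → ℝ) → ℂ) (n : ι → ℤ) :
    ∫ x in cube (0 : ι → ℤ), g (x + zc n) = ∫ x in cube n, g x := by
  have h1 : MeasurePreserving (fun x : ι → ℝ => x + zc n) volume volume :=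
    measurePreserving_add_right volume (zc n)
  have h2 : MeasurableEmbedding (fun x : ι → ℝ => x + zc n) :=
    (MeasurableEquiv.addRight (zc n)).measurableEmbedding
  have h3 : (fun x : ι → ℝ => x + zc n) ⁻¹' (cube n) = cube 0 := by
    ext x
    simp only [cube, Set.mem_preimage, Set.mem_setOf_eq, Pi.add_apply, zc, Set.mem_Ioc,
      Pi.zero_apply, Int.cast_zero]
    refine forall_congr' fun i => ?_
    constructor <;> rintro ⟨a, b⟩ <;> constructor <;> linarith
  have := h1.setIntegral_preimage_emb h2 g (cube n)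
  rw [h3] at this
  exact this

lemma integral_eq_tsum_cube {g : (ι → ℝ) → ℂ} (hg : Integrable g) :
    ∫ x, g x = ∑' n : ι → ℤ, ∫ x in cube (0 : ι → ℤ), g (x + zc n) := by
  have h := hasSum_integral_iUnion (μ := volume) (f := g) (fun n : ι → ℤ => cube_meas n) cube_disj
    (by rw [cube_union]; exact hg.integrableOn)
  rw [cube_union, Measure.restrict_univ] at h
  rw [← h.tsum_eq]
  exact tsum_congr fun n => (setIntegral_cube g n).symm

lemma cube_sub : cube (0 : ι → ℤ) ⊆ Set.Icc 0 1 := by
  intro x hx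
  constructor <;> intro i <;> have := hx i <;> simp at this ⊢ <;> linarith [this.1, this.2]

lemma coeff_F {f : C(ι → ℝ, ℂ)} (h : LocSum f) (hf : Integrable f) (m : ι → ℤ) :
    UnitAddTorus.mFourierCoeff (F f h) m = ∫ x, ech m x * f x := by
  have hvol : volume (cube (0 : ι → ℤ)) < ⊤ := by
    refine lt_of_le_of_lt (measure_mono cube_sub) ?_
    exact isCompact_Icc.measure_lt_top
  have hint : Integrable (fun x => ech m x * f x) := by
    refine Integrable.mono' hf.norm ?_ (Eventually.of_forall fun x => ?_)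
    · exact ((ech_continuous m).mul f.continuous).aestronglyMeasurable
    · rw [norm_mul, ech_norm, one_mul]
  rw [integral_eq_tsum_cube hint, UnitAddTorus.mFourierCoeff_eq_integral _ _ 0]
  have hset : {x : ι → ℝ | ∀ i, x i ∈ Set.Ioc ((0 : ι → ℝ) i) ((0 : ι → ℝ) i + 1)} = cube (0 : ι → ℤ) := by
    ext x; simp [cube]
  rw [hset]
  have h1 : ∀ x : ι → ℝ, UnitAddTorus.mFourier (-m) (fun i => (x i : UnitAddCircle)) •
      F f h (fun i => (x i : UnitAddCircle)) = ∑' n : ι → ℤ, ech m (x + zc n) * f (x + zc n) := by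
    intro x
    rw [mFourier_proj, show (fun i => (x i : UnitAddCircle)) = proj x from rfl, F_proj, per_apply h,
      smul_eq_mul, ← tsum_mul_left]
    refine tsum_congr fun n => ?_
    rw [ech_add, ech_zc, mul_one]
  simp_rw [h1]
  refine (hasSum_integral_of_summable_integral_norm (fun n => ?_) ?_).tsum_eq.symm
  · exact (hint.comp_add_right (zc n)).integrableOn
  · let K : Compacts (ι → ℝ) := ⟨Set.Icc 0 1, isCompact_Icc⟩
    refine Summable.of_nonneg_of_le (fun n => integral_nonneg fun x => norm_nonneg _) (fun n => ?_)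
      ((h K).mul_right (volume.real (cube (0 : ι → ℤ))))
    have := norm_setIntegral_le_of_norm_le_const (μ := volume) (s := cube (0 : ι → ℤ))
      (f := fun x => (‖ech m (x + zc n) * f (x + zc n)‖ : ℝ)) (C := ‖(tr f n).restrict K‖) hvol
      (fun x hx => ?_)
    · exact le_trans (le_abs_self _) this
    · rw [norm_norm, norm_mul, ech_norm, one_mul]
      exact ContinuousMap.norm_coe_le_norm ((tr f n).restrict K) ⟨x, cube_sub hx⟩

theorem poisson {f : C(ι → ℝ, ℂ)} (h : LocSum f) (hf : Integrable f)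
    (hs : Summable fun m : ι → ℤ => ∫ x, ech m x * f x) :
    ∑' n : ι → ℤ, f (zc n) = ∑' m : ι → ℤ, ∫ x, ech m x * f x := by
  have hs' : Summable (UnitAddTorus.mFourierCoeff (F f h)) := by
    convert hs using 1
    funext m
    exact coeff_F h hf m
  have := UnitAddTorus.hasSum_mFourier_series_apply_of_summable hs' (proj 0)
  rw [F_proj, per_apply h] at this
  simp only [zero_add] at this
  rw [← this.tsum_eq]
  refine tsum_congr fun m => ?_
  rw [coeff_F h hf, smul_eq_mul]
  have : UnitAddTorus.mFourier m (proj (0 : ι → ℝ)) = 1 := by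
    simp [UnitAddTorus.mFourier, proj]
  rw [this, mul_one]

end H78.Th
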