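import Mathlib
import Cfsg.Agent.Lib.H78.Th1

set_option autoImplicit false

open MeasureTheory Complex Topology Filter TopologicalSpace Matrix
open scoped Real

namespace H78.Th

lemma summable_int_exp {b : ℝ} (hb : 0 < b) : Summable (fun k : ℤ => Real.exp (-b * (k : ℝ)^2)) := by
  have h1 : Summable (fun k : ℕ => (Real.exp (-b))^k) :=
    summable_geometric_of_lt_one (Real.exp_nonneg _) (by rw [Real.exp_lt_one_iff]; linarith)
  have h2 : Summable (fun k : ℕ => Real.exp (-b * (k : ℝ)^2)) := by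
    refine Summable.of_nonneg_of_le (fun k => (Real.exp_nonneg _)) (fun k => ?_) h1
    rw [← Real.exp_nat_mul]
    apply Real.exp_le_exp.mpr
    have hk : (k : ℝ) ≤ (k : ℝ)^2 := by
      have : (k : ℕ) ≤ k^2 := Nat.le_self_pow (by norm_num) k
      exact_mod_cast this
    nlinarith
  refine Summable.of_nat_of_neg ?_ ?_
  · simpa using h2
  · simpa using h2

lemma summable_pi {g : ℤ → ℝ} (hg0 : ∀ k, 0 ≤ g k) (hg : Summable g) (d : ℕ) :
    Summable (fun n : Fin d → ℤ => ∏ i, g (n i)) := by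
  induction d with
  | zero => exact (hasSum_fintype _).summable
  | succ d ih =>
    rw [← (Fin.consEquiv (fun _ : Fin (d+1) => ℤ)).summable_iff]
    have := Summable.mul_of_nonneg hg ih hg0 (fun n => Finset.prod_nonneg fun i _ => hg0 _)
    refine this.congr fun p => ?_
    simp [Fin.prod_univ_succ]

lemma norm_sq_ge_sum {d : ℕ} (x : Fin d → ℝ) : ∑ i, (x i)^2 ≤ (d + 1) * ‖x‖^2 := by
  have h1 : ∑ i, (x i)^2 ≤ ∑ _i : Fin d, ‖x‖^2 := by
    refine Finset.sum_le_sum fun i _ => ?_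
    have := norm_le_pi_norm x i
    rw [Real.norm_eq_abs] at this
    rw [← sq_abs]
    exact pow_le_pow_left₀ (abs_nonneg _) this 2
  refine h1.trans ?_
  simp only [Finset.sum_const, Finset.card_univ, Fintype.card_fin, nsmul_eq_mul]
  nlinarith [sq_nonneg ‖x‖]

lemma summable_exp_norm {d : ℕ} {a : ℝ} (ha : 0 < a) :
    Summable (fun n : Fin d → ℤ => Real.exp (-a * ‖zc n‖^2)) := by
  have hb : 0 < a / (d + 1) := by positivity
  refine Summable.of_nonneg_of_le (fun k => (Real.exp_nonneg _)) (fun n => ?_)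
    (summable_pi (fun k => Real.exp_nonneg _) (summable_int_exp hb) d)
  rw [← Real.exp_sum]
  apply Real.exp_le_exp.mpr
  rw [← Finset.mul_sum]
  have h := norm_sq_ge_sum (zc n)
  have h2 : (∑ i, (n i : ℝ)^2) ≤ (d+1) * ‖zc n‖^2 := h
  have h3 : a / (d+1) * (∑ i, (n i : ℝ)^2) ≤ a / (d+1) * ((d+1) * ‖zc n‖^2) :=
    mul_le_mul_of_nonneg_left h2 hb.le
  have h4 : a / (d+1) * ((d+1) * ‖zc n‖^2) = a * ‖zc n‖^2 := by
    field_simp
  linarith

section
variable {d : ℕ} (A : Matrix (Fin d) (Fin d) ℝ)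

/-- the quadratic form -/
def Qf (x : Fin d → ℝ) : ℝ := ∑ i, ((A *ᵥ x) i)^2

lemma Qf_nonneg (x : Fin d → ℝ) : 0 ≤ Qf A x := Finset.sum_nonneg fun i _ => sq_nonneg _

lemma Qf_cont : Continuous (Qf A) := by
  unfold Qf
  have : Continuous (fun x : Fin d → ℝ => A *ᵥ x) := by fun_prop
  fun_prop

variable {A}

lemma Qf_lower (hA : IsUnit A.det) : ∃ c : ℝ, 0 < c ∧ ∀ x, c * ‖x‖^2 ≤ Qf A x := by
  let L : (Fin d → ℝ) →L[ℝ] (Fin d → ℝ) := (Matrix.toLin' A⁻¹).toContinuousLinearMap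
  have hL : ∀ x, L (A *ᵥ x) = x := by
    intro x
    change A⁻¹ *ᵥ (A *ᵥ x) = x
    rw [Matrix.mulVec_mulVec, Matrix.nonsing_inv_mul _ hA, Matrix.one_mulVec]
  refine ⟨1 / (‖L‖ + 1)^2, by positivity, fun x => ?_⟩
  have h1 : ‖x‖ ≤ (‖L‖ + 1) * ‖A *ᵥ x‖ := by
    calc ‖x‖ = ‖L (A *ᵥ x)‖ := by rw [hL]
      _ ≤ ‖L‖ * ‖A *ᵥ x‖ := L.le_opNorm _
      _ ≤ (‖L‖ + 1) * ‖A *ᵥ x‖ := by nlinarith [norm_nonneg (A *ᵥ x)]
  have h2 : ‖A *ᵥ x‖^2 ≤ Qf A x := by
    by_cases h0 : ‖A *ᵥ x‖ = 0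
    · rw [h0]; simpa using Qf_nonneg A x
    · have hd : Nonempty (Fin d) := by
        by_contra hne
        rw [not_nonempty_iff] at hne
        exact h0 (by rw [Subsingleton.elim (A *ᵥ x) 0, norm_zero])
      obtain ⟨i, hi⟩ : ∃ i, ‖A *ᵥ x‖ = ‖(A *ᵥ x) i‖ := by
        obtain ⟨i, hi⟩ := Finite.exists_max (fun i => ‖(A *ᵥ x) i‖)
        refine ⟨i, le_antisymm ?_ (norm_le_pi_norm _ i)⟩
        exact (pi_norm_le_iff_of_nonneg (norm_nonneg _)).mpr hi
      rw [hi, Real.norm_eq_abs, sq_abs, Qf]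
      exact Finset.single_le_sum (f := fun i => ((A *ᵥ x) i)^2) (fun i _ => sq_nonneg _) (Finset.mem_univ i)
  have h3 : ‖x‖^2 ≤ (‖L‖ + 1)^2 * ‖A *ᵥ x‖^2 := by
    rw [← mul_pow]
    exact pow_le_pow_left₀ (norm_nonneg _) h1 2
  have h4 : ‖x‖^2 ≤ (‖L‖ + 1)^2 * Qf A x := h3.trans (mul_le_mul_of_nonneg_left h2 (by positivity))
  rw [div_mul_eq_mul_div, one_mul, div_le_iff₀ (by positivity)]
  linarith

variable (A)

noncomputable def gs (τ : ℂ) : C(Fin d → ℝ, ℂ) :=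
  ⟨fun x => cexp (π * I * τ * Qf A x), by
    have := Qf_cont A
    fun_prop⟩

lemma gs_norm (τ : ℂ) (x : Fin d → ℝ) : ‖gs A τ x‖ = Real.exp (-(π * τ.im * Qf A x)) := by
  change ‖cexp (π * I * τ * Qf A x)‖ = _
  rw [Complex.norm_exp]
  congr 1
  simp

variable {A}

lemma gs_locSum (hA : IsUnit A.det) {τ : ℂ} (hτ : 0 < τ.im) : LocSum (gs A τ) := by
  obtain ⟨c, hc, hcx⟩ := Qf_lower hA
  intro K
  obtain ⟨R, hR⟩ := K.isCompact.isBounded.exists_norm_le
  have ha : 0 < π * τ.im * c / 2 := by have := Real.pi_pos; positivity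
  refine Summable.of_nonneg_of_le (fun n => norm_nonneg _) (fun n => ?_)
    ((summable_exp_norm (d := d) ha).mul_left (Real.exp (π * τ.im * c * R^2)))
  rw [ContinuousMap.norm_le _ (by positivity)]
  rintro ⟨x, hx⟩
  change ‖gs A τ (x + zc n)‖ ≤ _
  rw [gs_norm, ← Real.exp_add]
  apply Real.exp_le_exp.mpr
  have h1 := hcx (x + zc n)
  have h2 : ‖zc n‖ ≤ ‖x + zc n‖ + ‖x‖ := by
    have : zc n = (x + zc n) - x := by abel
    calc ‖zc n‖ = ‖(x + zc n) - x‖ := by rw [← this]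
      _ ≤ _ := norm_sub_le _ _
  have h3 : ‖zc n‖^2 ≤ 2 * ‖x + zc n‖^2 + 2 * R^2 := by
    have hxR := hR x hx
    have : ‖zc n‖ ≤ ‖x + zc n‖ + R := h2.trans (by linarith)
    have h4 : ‖zc n‖^2 ≤ (‖x + zc n‖ + R)^2 := pow_le_pow_left₀ (norm_nonneg _) this 2
    nlinarith [sq_nonneg (‖x + zc n‖ - R)]
  have h5 : 0 < π * τ.im := mul_pos Real.pi_pos hτ
  have h6 : π * τ.im * (c * ‖x + zc n‖^2) ≤ π * τ.im * Qf A (x + zc n) :=
    mul_le_mul_of_nonneg_left h1 h5.le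
  have h7 : π * τ.im * c * ‖zc n‖^2 ≤ π * τ.im * c * (2 * ‖x + zc n‖^2 + 2 * R^2) :=
    mul_le_mul_of_nonneg_left h3 (by positivity)
  nlinarith

lemma mp_A (habs : |A.det| = 1) :
    MeasurePreserving (Matrix.toLin' A) (volume : Measure (Fin d → ℝ)) volume := by
  have hdet : A.det ≠ 0 := by
    intro h; rw [h] at habs; simp at habs
  refine ⟨(LinearMap.continuous_of_finiteDimensional _).measurable, ?_⟩
  rw [Real.map_matrix_volume_pi_eq_smul_volume_pi hdet, abs_inv, habs]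
  simp

lemma emb_A (habs : |A.det| = 1) : MeasurableEmbedding (Matrix.toLin' A) := by
  have hdet : IsUnit A.det := by
    rw [isUnit_iff_ne_zero]
    intro h; rw [h] at habs; simp at habs
  let e : (Fin d → ℝ) ≃ₗ[ℝ] (Fin d → ℝ) := Matrix.toLin'OfInv (M := A⁻¹) (M' := A)
    (Matrix.nonsing_inv_mul _ hdet) (Matrix.mul_nonsing_inv _ hdet)
  exact (e.toContinuousLinearEquiv.toHomeomorph).measurableEmbedding

lemma exp_form (τ : ℂ) (w : Fin d → ℝ) (m : Fin d → ℤ) (hw : Aᵀ *ᵥ w = zc m) (x : Fin d → ℝ) :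
    ech m x * gs A τ x = cexp (-(-(π * I * τ)) * ∑ i, ((Matrix.toLin' A x) i : ℂ)^2 +
      ∑ i, (-2 * π * I * w i) * ((Matrix.toLin' A x) i : ℂ)) := by
  change ech m x * cexp (π * I * τ * Qf A x) = _
  rw [ech, ← Complex.exp_add]
  congr 1
  have h1 : (∑ i, (m i : ℂ) * x i : ℂ) = ((zc m ⬝ᵥ x : ℝ) : ℂ) := by
    simp [dotProduct, zc]
  have h2 : zc m ⬝ᵥ x = w ⬝ᵥ (A *ᵥ x) := by
    rw [← hw, Matrix.dotProduct_mulVec, Matrix.mulVec_transpose]
  have h3 : (∑ i, (-2 * π * I * w i) * ((Matrix.toLin' A x) i : ℂ) : ℂ) =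
      -2 * π * I * ((w ⬝ᵥ (A *ᵥ x) : ℝ) : ℂ) := by
    simp only [dotProduct, Matrix.toLin'_apply]
    push_cast
    rw [Finset.mul_sum]
    refine Finset.sum_congr rfl fun i _ => by ring
  rw [h1, h2, h3]
  simp only [Qf, Matrix.toLin'_apply]
  push_cast
  ring

lemma gs_fourier (habs : |A.det| = 1) {τ : ℂ} (hτ : 0 < τ.im) (w : Fin d → ℝ) (m : Fin d → ℤ)
    (hw : Aᵀ *ᵥ w = zc m) :
    ∫ x, ech m x * gs A τ x = (I / τ) ^ (d / 2 : ℂ) * cexp (-(π * I / τ) * ∑ i, (w i : ℂ)^2) := by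
  have hb : 0 < (-(π * I * τ)).re := by
    simp
    exact mul_pos Real.pi_pos hτ
  have hτ0 : τ ≠ 0 := by
    rintro rfl; simp at hτ
  simp_rw [exp_form τ w m hw]
  rw [(mp_A habs).integral_comp (emb_A habs) (fun y : Fin d → ℝ =>
    cexp (-(-(π * I * τ)) * ∑ i, (y i : ℂ)^2 + ∑ i, (-2 * π * I * w i) * (y i : ℂ)))]
  rw [GaussianFourier.integral_cexp_neg_mul_sum_add hb, Fintype.card_fin]
  have hpi : (π : ℂ) ≠ 0 := by exact_mod_cast Real.pi_ne_zero
  congr 1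
  · congr 1
    rw [div_eq_div_iff (by simp [hpi, hτ0]) hτ0]
    ring_nf
    rw [I_sq]
    ring
  · congr 1
    have : (∑ i, (-2 * π * I * w i : ℂ)^2) = -4 * π^2 * ∑ i, (w i : ℂ)^2 := by
      rw [Finset.mul_sum]
      refine Finset.sum_congr rfl fun i _ => ?_
      ring_nf
      rw [I_sq]
      ring
    rw [this, div_eq_iff (by simp [hpi, hτ0])]
    field_simp
    ring_nf
    rw [I_sq]
    ring

lemma gs_integrable (habs : |A.det| = 1) {τ : ℂ} (hτ : 0 < τ.im) : Integrable (gs A τ) := by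
  have hb : 0 < (-(π * I * τ)).re := by
    simp
    exact mul_pos Real.pi_pos hτ
  have h := GaussianFourier.integrable_cexp_neg_mul_sum_add (ι := Fin d) hb (fun _ => 0)
  have h2 := ((mp_A habs).integrable_comp_emb (emb_A habs)).mpr h
  refine h2.congr (Eventually.of_forall fun x => ?_)
  have := exp_form τ 0 0 (A := A) (by rw [Matrix.mulVec_zero]; funext i; simp [zc]) x
  simp only [Function.comp_apply]
  have e0 : ech (0 : Fin d → ℤ) x = 1 := by simp [ech]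
  rw [e0, one_mul] at this
  rw [this]
  simp

end

end H78.Th
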