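import Mathlib
import Cfsg.Agent.Lib.H78.Th2

set_option autoImplicit false

open MeasureTheory Complex Topology Filter TopologicalSpace Matrix
open scoped Real MatrixOrder

namespace H78.Th

section
variable {d : ℕ}

/-- integral form as a real function -/
noncomputable def Br (B : Matrix (Fin d) (Fin d) ℤ) : Matrix (Fin d) (Fin d) ℝ := B.map (fun z : ℤ => (z : ℝ))

lemma Br_zc (B : Matrix (Fin d) (Fin d) ℤ) (n : Fin d → ℤ) : Br B *ᵥ zc n = zc (B *ᵥ n) := by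
  funext i
  simp [Br, zc, Matrix.mulVec, dotProduct]

lemma dot_zc (m n : Fin d → ℤ) : zc m ⬝ᵥ zc n = ((m ⬝ᵥ n : ℤ) : ℝ) := by
  simp [zc, dotProduct]

lemma rat_clear (q : Fin d → ℚ) : ∃ (N : ℕ) (y : Fin d → ℤ), 0 < N ∧ ∀ i, (q i : ℝ) * N = y i := by
  refine ⟨∏ i, (q i).den, fun i => (q i).num * ∏ j ∈ Finset.univ.erase i, ((q j).den : ℤ), ?_, ?_⟩
  · exact Finset.prod_pos fun i _ => (q i).den_pos
  · intro i
    rw [← Finset.mul_prod_erase Finset.univ (fun j => (q j).den) (Finset.mem_univ i)]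
    push_cast
    rw [← mul_assoc]
    congr 1
    exact_mod_cast Rat.mul_den_eq_num (q i)

lemma Br_nonneg (B : Matrix (Fin d) (Fin d) ℤ) (hpos : ∀ x : Fin d → ℤ, 0 ≤ x ⬝ᵥ (B *ᵥ x))
    (x : Fin d → ℝ) : 0 ≤ x ⬝ᵥ (Br B *ᵥ x) := by
  have hd : DenseRange (fun q : Fin d → ℚ => fun i => (q i : ℝ)) :=
    DenseRange.piMap (fun _ => Rat.denseRange_cast)
  have hcont : Continuous (fun x : Fin d → ℝ => x ⬝ᵥ (Br B *ᵥ x)) := by fun_prop
  have hclosed : IsClosed {x : Fin d → ℝ | 0 ≤ x ⬝ᵥ (Br B *ᵥ x)} :=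
    isClosed_le continuous_const hcont
  refine hd.induction_on (p := fun x => 0 ≤ x ⬝ᵥ (Br B *ᵥ x)) x hclosed ?_
  intro q
  obtain ⟨N, y, hN, hy⟩ := rat_clear q
  have hN' : (0 : ℝ) < N := by exact_mod_cast hN
  have h1 : (fun i => (q i : ℝ)) = (1 / (N : ℝ)) • zc y := by
    funext i
    simp only [Pi.smul_apply, smul_eq_mul, zc, ← hy i]
    field_simp
  rw [h1, Matrix.mulVec_smul, smul_dotProduct, dotProduct_smul, Br_zc, dot_zc]
  have := hpos y
  have : (0 : ℝ) ≤ ((y ⬝ᵥ (B *ᵥ y) : ℤ) : ℝ) := by exact_mod_cast this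
  positivity

lemma exists_A (B : Matrix (Fin d) (Fin d) ℤ) (hsymm : B.IsSymm)
    (hpos : ∀ x : Fin d → ℤ, 0 ≤ x ⬝ᵥ (B *ᵥ x)) (hdet : B.det = 1) :
    ∃ A : Matrix (Fin d) (Fin d) ℝ, Aᵀ * A = Br B ∧ |A.det| = 1 := by
  have hpsd : (Br B).PosSemidef := by
    refine Matrix.PosSemidef.of_dotProduct_mulVec_nonneg ?_ (fun x => ?_)
    · ext i j
      simp only [Br, Matrix.conjTranspose_apply, Matrix.map_apply, star_trivial]
      rw [hsymm.apply i j]
    · simpa using Br_nonneg B hpos x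
  obtain ⟨A, hA⟩ := CStarAlgebra.nonneg_iff_eq_star_mul_self.mp hpsd.nonneg
  have hA' : Aᵀ * A = Br B := by
    rw [hA]
    rfl
  refine ⟨A, hA', ?_⟩
  have h1 : (Br B).det = 1 := by
    have : Br B = (Int.castRingHom ℝ).mapMatrix B := rfl
    rw [this, ← RingHom.map_det, hdet, map_one]
  have h2 : A.det * A.det = 1 := by
    rw [← h1, ← hA', Matrix.det_mul, Matrix.det_transpose]
  have : |A.det| * |A.det| = 1 := by rw [← abs_mul, h2, abs_one]
  have h0 := abs_nonneg A.det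
  nlinarith

/-- the integral quadratic form -/
def qz (B : Matrix (Fin d) (Fin d) ℤ) (n : Fin d → ℤ) : ℤ := n ⬝ᵥ (B *ᵥ n)

lemma Qf_zc {B : Matrix (Fin d) (Fin d) ℤ} {A : Matrix (Fin d) (Fin d) ℝ} (hA : Aᵀ * A = Br B)
    (n : Fin d → ℤ) : Qf A (zc n) = ((qz B n : ℤ) : ℝ) := by
  rw [qz, ← dot_zc, ← Br_zc, ← hA, ← Matrix.mulVec_mulVec, Matrix.dotProduct_mulVec,
    Matrix.vecMul_transpose]
  simp [Qf, dotProduct, sq]

/-- theta function -/
noncomputable def th (B : Matrix (Fin d) (Fin d) ℤ) (τ : ℂ) : ℂ :=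
  ∑' n : Fin d → ℤ, cexp (π * I * τ * (qz B n : ℤ))

lemma gs_zc {B : Matrix (Fin d) (Fin d) ℤ} {A : Matrix (Fin d) (Fin d) ℝ} (hA : Aᵀ * A = Br B)
    (τ : ℂ) (n : Fin d → ℤ) : gs A τ (zc n) = cexp (π * I * τ * (qz B n : ℤ)) := by
  change cexp (π * I * τ * Qf A (zc n)) = _
  rw [Qf_zc hA]
  simp

structure PD (B : Matrix (Fin d) (Fin d) ℤ) : Prop where
  symm : B.IsSymm
  pos : ∀ x : Fin d → ℤ, 0 ≤ x ⬝ᵥ (B *ᵥ x)
  det : B.det = 1

lemma unitA {A : Matrix (Fin d) (Fin d) ℝ} (habs : |A.det| = 1) : IsUnit A.det := by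
  rw [isUnit_iff_ne_zero]
  intro h; rw [h] at habs; simp at habs

/-- uniform lower bound -/
lemma PD.lower {B : Matrix (Fin d) (Fin d) ℤ} (h : PD B) :
    ∃ c : ℝ, 0 < c ∧ ∀ n : Fin d → ℤ, c * ‖zc n‖^2 ≤ (qz B n : ℤ) := by
  obtain ⟨A, hA, habs⟩ := exists_A B h.symm h.pos h.det
  obtain ⟨c, hc, hcx⟩ := Qf_lower (unitA habs)
  exact ⟨c, hc, fun n => by rw [← Qf_zc hA]; exact hcx _⟩

lemma norm_term (B : Matrix (Fin d) (Fin d) ℤ) (τ : ℂ) (n : Fin d → ℤ) :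
    ‖cexp (π * I * τ * (qz B n : ℤ))‖ = Real.exp (-(π * τ.im * (qz B n : ℤ))) := by
  rw [Complex.norm_exp]
  congr 1
  simp

lemma PD.summable_real {B : Matrix (Fin d) (Fin d) ℤ} (h : PD B) {t : ℝ} (ht : 0 < t) :
    Summable (fun n : Fin d → ℤ => Real.exp (-(π * t * (qz B n : ℤ)))) := by
  obtain ⟨c, hc, hcx⟩ := h.lower
  refine Summable.of_nonneg_of_le (fun n => Real.exp_nonneg _) (fun n => ?_)
    (summable_exp_norm (d := d) (a := π * t * c) (by have := Real.pi_pos; positivity))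
  apply Real.exp_le_exp.mpr
  have h1 := hcx n
  have h2 : 0 < π * t := mul_pos Real.pi_pos ht
  have := mul_le_mul_of_nonneg_left h1 h2.le
  nlinarith

lemma PD.summable {B : Matrix (Fin d) (Fin d) ℤ} (h : PD B) {τ : ℂ} (hτ : 0 < τ.im) :
    Summable (fun n : Fin d → ℤ => cexp (π * I * τ * (qz B n : ℤ))) := by
  refine Summable.of_norm ?_
  simp_rw [norm_term]
  exact h.summable_real hτ

/-- multiplication by B as a permutation -/
noncomputable def mulB (B : Matrix (Fin d) (Fin d) ℤ) (h : PD B) : (Fin d → ℤ) ≃ (Fin d → ℤ) where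
  toFun := fun n => B *ᵥ n
  invFun := fun n => B⁻¹ *ᵥ n
  left_inv := fun n => by
    have : IsUnit B.det := by rw [h.det]; exact isUnit_one
    simp [Matrix.mulVec_mulVec, Matrix.nonsing_inv_mul _ this]
  right_inv := fun n => by
    have : IsUnit B.det := by rw [h.det]; exact isUnit_one
    simp [Matrix.mulVec_mulVec, Matrix.mul_nonsing_inv _ this]

lemma im_neg_inv {τ : ℂ} (hτ : 0 < τ.im) : 0 < (-1 / τ).im := by
  have h0 : τ ≠ 0 := by rintro rfl; simp at hτ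
  have h1 : 0 < Complex.normSq τ := Complex.normSq_pos.mpr h0
  have h2 : (-1 / τ).im = τ.im / Complex.normSq τ := by
    rw [Complex.div_im]
    simp
    ring
  rw [h2]
  positivity

theorem PD.theta {B : Matrix (Fin d) (Fin d) ℤ} (h : PD B) {τ : ℂ} (hτ : 0 < τ.im) :
    th B τ = (I / τ) ^ (d / 2 : ℂ) * th B (-1 / τ) := by
  obtain ⟨A, hA, habs⟩ := exists_A B h.symm h.pos h.det
  have hτ0 : τ ≠ 0 := by rintro rfl; simp at hτ
  have hF : ∀ k : Fin d → ℤ, ∫ x, ech (mulB B h k) x * gs A τ x =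
      (I / τ) ^ (d / 2 : ℂ) * cexp (π * I * (-1 / τ) * (qz B k : ℤ)) := by
    intro k
    rw [gs_fourier habs hτ (A *ᵥ zc k) (mulB B h k)
      (by rw [Matrix.mulVec_mulVec, hA, Br_zc]; rfl)]
    congr 1
    have h1 : (∑ i, (((A *ᵥ zc k) i : ℝ) : ℂ)^2) = ((qz B k : ℤ) : ℂ) := by
      have := Qf_zc hA k
      rw [Qf] at this
      exact_mod_cast this
    rw [h1]
    congr 1
    ring
  have hs : Summable fun m : Fin d → ℤ => ∫ x, ech m x * gs A τ x := by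
    rw [← (mulB B h).summable_iff]
    have : ((fun m : Fin d → ℤ => ∫ x, ech m x * gs A τ x) ∘ (mulB B h)) =
        fun k => (I / τ) ^ (d / 2 : ℂ) * cexp (π * I * (-1 / τ) * (qz B k : ℤ)) := by
      funext k; exact hF k
    rw [this]
    exact (h.summable (im_neg_inv hτ)).mul_left _
  have hP := poisson (gs_locSum (unitA habs) hτ) (gs_integrable habs hτ) hs
  rw [th, th, ← tsum_mul_left]
  rw [← (mulB B h).tsum_eq (fun m => ∫ x, ech m x * gs A τ x)] at hP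
  simp_rw [hF] at hP
  rw [← hP]
  exact tsum_congr fun n => (gs_zc hA τ n).symm

end

end H78.Th
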