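import Mathlib
import Cfsg.Agent.Lib.H78.Th3

set_option autoImplicit false

open Function Complex SlashInvariantForm MatrixGroups Filter ModularForm

open UpperHalfPlane hiding I

open scoped Real Topology

noncomputable section

namespace H78.Th

/-- theta function on the upper half plane -/
def thz (B : Matrix (Fin 24) (Fin 24) ℤ) (z : ℍ) : ℂ := th B z

variable {B : Matrix (Fin 24) (Fin 24) ℤ}

lemma th_add_one {d : ℕ} {B : Matrix (Fin d) (Fin d) ℤ} (hev : ∀ n, (2 : ℤ) ∣ qz B n) (τ : ℂ) :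
    th B (τ + 1) = th B τ := by
  unfold th
  refine tsum_congr fun n => ?_
  obtain ⟨k, hk⟩ := hev n
  rw [hk, Complex.exp_eq_exp_iff_exists_int]
  refine ⟨k, ?_⟩
  push_cast
  ring

set_option backward.isDefEq.respectTransparency.types false in
lemma thz_T (hev : ∀ n, (2 : ℤ) ∣ qz B n) : (thz B ∣[(12 : ℤ)] ModularGroup.T) = thz B := by
  ext z
  rw [SL_slash_apply, denom, modular_T_smul, ModularGroup.T]
  have : thz B ((1 : ℝ) +ᵥ z) = thz B z := by
    rw [thz, thz]
    have := th_add_one hev (z : ℂ)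
    rw [← this]
    congr 1
    simp [add_comm]
  simp [this]

set_option backward.isDefEq.respectTransparency.types false in
lemma thz_S (h : PD B) : (thz B ∣[(12 : ℤ)] ModularGroup.S) = thz B := by
  ext z
  have h0 : (z : ℂ) ≠ 0 := UpperHalfPlane.ne_zero z
  suffices th B (-(↑z)⁻¹) * ((z : ℂ) ^ 12)⁻¹ = th B z by
    rw [SL_slash_apply, UpperHalfPlane.modular_S_smul]
    simpa [denom, ModularGroup.S, thz]
  have := h.theta (τ := (z : ℂ)) z.2
  rw [this]
  have e1 : ((24 : ℕ) : ℂ) / 2 = ((12 : ℕ) : ℂ) := by norm_num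
  rw [e1, Complex.cpow_natCast, div_pow]
  have e2 : I ^ 12 = 1 := by
    rw [show 12 = 4 * 3 by norm_num, pow_mul, I_pow_four, one_pow]
  rw [e2, neg_div, one_div, one_div, mul_comm]

lemma PD.diff {d : ℕ} {B : Matrix (Fin d) (Fin d) ℤ} (h : PD B) :
    DifferentiableOn ℂ (th B) {z : ℂ | 0 < z.im} := by
  intro z hz
  have hz' : 0 < z.im := hz
  have hopen : IsOpen {w : ℂ | z.im / 2 < w.im} := isOpen_lt continuous_const Complex.continuous_im
  have hd : DifferentiableOn ℂ (fun w => ∑' n : Fin d → ℤ, cexp (π * I * w * (qz B n : ℤ)))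
      {w : ℂ | z.im / 2 < w.im} := by
    refine Complex.differentiableOn_tsum_of_summable_norm (h.summable_real (t := z.im / 2) (by positivity))
      (fun n => ?_) hopen (fun n w hw => ?_)
    · fun_prop
    · rw [norm_term]
      apply Real.exp_le_exp.mpr
      have hw' : z.im / 2 < w.im := hw
      have h1 : (0 : ℝ) ≤ (qz B n : ℤ) := by exact_mod_cast h.pos n
      have h2 := mul_le_mul_of_nonneg_left hw'.le Real.pi_pos.le
      have h3 := mul_le_mul_of_nonneg_right h2 h1
      linarith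
  have hmem : z ∈ {w : ℂ | z.im / 2 < w.im} := by
    change z.im / 2 < z.im
    linarith
  exact ((hd z hmem).differentiableAt (hopen.mem_nhds hmem)).differentiableWithinAt

lemma PD.bounded {d : ℕ} {B : Matrix (Fin d) (Fin d) ℤ} (h : PD B) :
    ∃ M : ℝ, ∀ z : ℂ, 1 ≤ z.im → ‖th B z‖ ≤ M := by
  refine ⟨∑' n : Fin d → ℤ, Real.exp (-(π * 1 * (qz B n : ℤ))), fun z hz => ?_⟩
  have hs := h.summable_real (t := 1) one_pos
  have hz0 : 0 < z.im := by linarith
  have hs2 := h.summable_real (t := z.im) hz0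
  have h1 : ‖th B z‖ ≤ ∑' n : Fin d → ℤ, Real.exp (-(π * z.im * (qz B n : ℤ))) := by
    have : Summable (fun n : Fin d → ℤ => ‖cexp (π * I * z * (qz B n : ℤ))‖) := by
      simp_rw [norm_term]; exact hs2
    refine (norm_tsum_le_tsum_norm this).trans ?_
    simp_rw [norm_term]
    rfl
  refine h1.trans (Summable.tsum_le_tsum (fun n => ?_) hs2 hs)
  apply Real.exp_le_exp.mpr
  have h1 : (0 : ℝ) ≤ (qz B n : ℤ) := by exact_mod_cast h.pos n
  have h2 := mul_le_mul_of_nonneg_left hz Real.pi_pos.le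
  have h3 := mul_le_mul_of_nonneg_right h2 h1
  linarith

lemma thz_bdd (h : PD B) : IsBoundedAtImInfty (thz B) := by
  rw [UpperHalfPlane.isBoundedAtImInfty_iff]
  obtain ⟨M, hM⟩ := h.bounded
  exact ⟨M, 1, fun z hz => hM z hz⟩

/-- theta series as a modular form -/
def thForm (B : Matrix (Fin 24) (Fin 24) ℤ) (h : PD B) (hev : ∀ n, (2 : ℤ) ∣ qz B n) :
    ModularForm 𝒮ℒ 12 where
  toFun := thz B
  slash_action_eq' A hA := by
    obtain ⟨A, rfl⟩ := hA
    exact slash_action_generators_SL2Z (thz_S h) (thz_T hev) A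
  holo' := by
    rw [UpperHalfPlane.mdifferentiable_iff]
    refine h.diff.congr fun z hz ↦ ?_
    simp [thz, ofComplex_apply_of_im_pos hz]
  bdd_at_cusps' hc := by
    rw [Subgroup.IsArithmetic.isCusp_iff_isCusp_SL2Z] at hc
    rw [OnePoint.isBoundedAt_iff_forall_SL2Z hc]
    intro γ _
    rw [slash_action_generators_SL2Z (thz_S h) (thz_T hev)]
    exact thz_bdd h

end H78.Th
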