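import Mathlib
import Cfsg.Agent.Lib.H78.Th4

set_option autoImplicit false

open Function Complex SlashInvariantForm MatrixGroups Filter ModularForm EisensteinSeries
open UpperHalfPlane hiding I

open scoped Real Topology Matrix

noncomputable section

namespace H78.Th

local notation "𝕢" => Periodic.qParam

variable {B : Matrix (Fin 24) (Fin 24) ℤ}

/-- number of vectors of norm 2n -/
def rn (B : Matrix (Fin 24) (Fin 24) ℤ) (n : ℕ) : ℕ := {x : Fin 24 → ℤ | qz B x = 2 * n}.ncard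

lemma fib (h : PD B) (hev : ∀ n, (2 : ℤ) ∣ qz B n) (τ : ℍ) (n : ℕ) :
    (rn B n : ℂ) • 𝕢 (1 : ℝ) τ ^ n = ∑' (b : ↑((fun x => (qz B x / 2).toNat) ⁻¹' {n})), cexp (↑π * I * ↑τ * ↑(qz B ↑b)) := by
  have hset : ((fun x : Fin 24 → ℤ => (qz B x / 2).toNat) ⁻¹' {n}) = {x : Fin 24 → ℤ | qz B x = 2 * n} := by
    ext x
    have hx := h.pos x
    obtain ⟨k, hk⟩ := hev x
    change 0 ≤ qz B x at hx
    change (qz B x / 2).toNat = n ↔ qz B x = 2 * n
    omega
  have h4 : ∀ x : ((fun x : Fin 24 → ℤ => (qz B x / 2).toNat) ⁻¹' {n}),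
      cexp (π * I * (τ : ℂ) * (qz B x : ℤ)) = 𝕢 (1 : ℝ) τ ^ n := by
    rintro ⟨x, hx⟩
    rw [hset] at hx
    have hx' : qz B x = 2 * n := hx
    simp only [hx', Periodic.qParam, ← Complex.exp_nat_mul]
    congr 1
    push_cast
    ring
  rw [tsum_congr h4, tsum_const, hset, Nat.card_coe_set_eq, nsmul_eq_mul, smul_eq_mul]
  rfl

lemma hasSum_q (h : PD B) (hev : ∀ n, (2 : ℤ) ∣ qz B n) (τ : ℍ) :
    HasSum (fun n : ℕ => (rn B n : ℂ) • 𝕢 (1 : ℝ) τ ^ n) (thForm B h hev τ) := by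
  have h1 : HasSum (fun n : Fin 24 → ℤ => cexp (π * I * (τ : ℂ) * (qz B n : ℤ))) (th B τ) :=
    (h.summable τ.2).hasSum
  have h2 := h1.tsum_fiberwise (fun x : Fin 24 → ℤ => (qz B x / 2).toNat)
  have h3 : (thForm B h hev τ) = th B τ := rfl
  rw [h3]
  have h5 : (fun n : ℕ => (rn B n : ℂ) • 𝕢 (1 : ℝ) τ ^ n) = fun c => ∑' (b : ↑((fun x => (qz B x / 2).toNat) ⁻¹' {c})), cexp (↑π * I * ↑τ * ↑(qz B ↑b)) := by
    funext n
    exact fib h hev τ n
  rw [h5]
  exact h2
lemma coeff_th (h : PD B) (hev : ∀ n, (2 : ℤ) ∣ qz B n) (m : ℕ) :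
    (qExpansion 1 (thForm B h hev)).coeff m = (rn B m : ℂ) :=
  (ModularFormClass.qExpansion_coeff_unique one_pos one_mem_strictPeriods_SL (hasSum_q h hev) m).symm

lemma E4c (m : ℕ) : (qExpansion 1 E₄).coeff m = if m = 0 then 1 else 240 * (ArithmeticFunction.sigma 3 m : ℂ) := by
  rw [E_qExpansion_coeff _ ⟨2, rfl⟩]
  split_ifs
  · rfl
  · norm_num [show bernoulli 4 = -1 / 30 by decide +kernel]

lemma E6c (m : ℕ) : (qExpansion 1 E₆).coeff m = if m = 0 then 1 else -504 * (ArithmeticFunction.sigma 5 m : ℂ) := by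
  rw [E_qExpansion_coeff _ ⟨3, rfl⟩]
  split_ifs
  · rfl
  · norm_num [show bernoulli 6 = 1 / 42 by decide +kernel]

lemma s32 : ArithmeticFunction.sigma 3 2 = 9 := by decide +kernel
lemma s33 : ArithmeticFunction.sigma 3 3 = 28 := by decide +kernel
lemma s34 : ArithmeticFunction.sigma 3 4 = 73 := by decide +kernel
lemma s52 : ArithmeticFunction.sigma 5 2 = 33 := by decide +kernel
lemma s53 : ArithmeticFunction.sigma 5 3 = 244 := by decide +kernel
lemma s54 : ArithmeticFunction.sigma 5 4 = 1057 := by decide +kernel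

lemma e40 : (qExpansion 1 E₄).coeff 0 = 1 := by rw [E4c]; simp
lemma e41 : (qExpansion 1 E₄).coeff 1 = 240 := by rw [E4c]; simp
lemma e42 : (qExpansion 1 E₄).coeff 2 = 2160 := by rw [E4c, s32]; norm_num
lemma e43 : (qExpansion 1 E₄).coeff 3 = 6720 := by rw [E4c, s33]; norm_num
lemma e44 : (qExpansion 1 E₄).coeff 4 = 17520 := by rw [E4c, s34]; norm_num
lemma e60 : (qExpansion 1 E₆).coeff 0 = 1 := by rw [E6c]; simp
lemma e61 : (qExpansion 1 E₆).coeff 1 = -504 := by rw [E6c]; simp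
lemma e62 : (qExpansion 1 E₆).coeff 2 = -16632 := by rw [E6c, s52]; norm_num
lemma e63 : (qExpansion 1 E₆).coeff 3 = -122976 := by rw [E6c, s53]; norm_num
lemma e64 : (qExpansion 1 E₆).coeff 4 = -532728 := by rw [E6c, s54]; norm_num

/-- the difference form -/
def dif (h : PD B) (hev : ∀ n, (2 : ℤ) ∣ qz B n) : ModularForm 𝒮ℒ 12 :=
  thForm B h hev - ((7/12 : ℂ) • ModularForm.mcast (by decide) (E₄.pow 3) +
    (5/12 : ℂ) • ModularForm.mcast (by decide) (E₆.pow 2))

lemma dif_q (h : PD B) (hev : ∀ n, (2 : ℤ) ∣ qz B n) :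
    qExpansion 1 (dif h hev) = qExpansion 1 (thForm B h hev) -
      ((7/12 : ℂ) • (qExpansion 1 E₄ * qExpansion 1 E₄ * qExpansion 1 E₄) +
       (5/12 : ℂ) • (qExpansion 1 E₆ * qExpansion 1 E₆)) := by
  have a3 : qExpansion 1 (E₄.pow 3) = qExpansion 1 E₄ * qExpansion 1 E₄ * qExpansion 1 E₄ := by
    rw [ModularForm.qExpansion_pow one_pos one_mem_strictPeriods_SL]
    ring
  have a2 : qExpansion 1 (E₆.pow 2) = qExpansion 1 E₆ * qExpansion 1 E₆ := by
    rw [ModularForm.qExpansion_pow one_pos one_mem_strictPeriods_SL]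
    ring
  rw [← a3, ← a2]
  let P4 : ModularForm 𝒮ℒ 12 := ModularForm.mcast (by decide) (E₄.pow 3)
  let P6 : ModularForm 𝒮ℒ 12 := ModularForm.mcast (by decide) (E₆.pow 2)
  have b4 : qExpansion 1 P4 = qExpansion 1 (E₄.pow 3) := rfl
  have b6 : qExpansion 1 P6 = qExpansion 1 (E₆.pow 2) := rfl
  rw [← b4, ← b6]
  have c4 : qExpansion 1 ((7/12 : ℂ) • P4 : ModularForm 𝒮ℒ 12) = (7/12 : ℂ) • qExpansion 1 P4 :=
    ModularForm.qExpansion_smul one_pos one_mem_strictPeriods_SL (7/12 : ℂ) P4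
  have c6 : qExpansion 1 ((5/12 : ℂ) • P6 : ModularForm 𝒮ℒ 12) = (5/12 : ℂ) • qExpansion 1 P6 :=
    ModularForm.qExpansion_smul one_pos one_mem_strictPeriods_SL (5/12 : ℂ) P6
  rw [← c4, ← c6]
  have d1 := ModularForm.qExpansion_add one_pos one_mem_strictPeriods_SL ((7/12 : ℂ) • P4 : ModularForm 𝒮ℒ 12) ((5/12 : ℂ) • P6 : ModularForm 𝒮ℒ 12)
  rw [← d1]
  exact ModularForm.qExpansion_sub one_pos one_mem_strictPeriods_SL (thForm B h hev) ((7/12 : ℂ) • P4 + (5/12 : ℂ) • P6 : ModularForm 𝒮ℒ 12)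

lemma rn_zero (h : PD B) (hpos : ∀ x : Fin 24 → ℤ, x ≠ 0 → 0 < x ⬝ᵥ (B *ᵥ x)) : rn B 0 = 1 := by
  rw [rn, Set.ncard_eq_one]
  refine ⟨0, ?_⟩
  ext x
  constructor
  · intro hx
    by_contra hne
    have := hpos x hne
    have hx' : qz B x = 2 * (0 : ℕ) := hx
    rw [qz] at hx'
    simp at hx'
    omega
  · rintro rfl
    change qz B 0 = 2 * (0 : ℕ)
    simp [qz]

theorem main (h : PD B) (hev : ∀ n, (2 : ℤ) ∣ qz B n)
    (hpos : ∀ x : Fin 24 → ℤ, x ≠ 0 → 0 < x ⬝ᵥ (B *ᵥ x)) (h2 : ∀ x : Fin 24 → ℤ, qz B x ≠ 2) :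
    rn B 2 = 196560 ∧ rn B 3 = 16773120 ∧ rn B 4 = 398034000 := by
  have r0 := rn_zero h hpos
  have r1 : rn B 1 = 0 := by
    rw [rn]
    have : {x : Fin 24 → ℤ | qz B x = 2 * (1 : ℕ)} = ∅ := by
      ext x
      constructor
      · intro hx
        exact h2 x hx
      · intro hx; exact hx.elim
    rw [this, Set.ncard_empty]
  have hq := dif_q h hev
  have hz : dif h hev = 0 := by
    apply ModularForm.sturm_bound_levelOne_nat (k := 12)
    have : (2 : ℕ∞) ≤ (qExpansion 1 (dif h hev)).order := by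
      apply PowerSeries.le_order (φ := qExpansion 1 (dif h hev)) (n := (2 : ℕ∞))
      intro i hi
      have hi' : i < 2 := by exact_mod_cast hi
      rw [hq]
      interval_cases i
      · rw [map_sub, coeff_th, r0]
        simp only [map_add, PowerSeries.coeff_smul, PowerSeries.coeff_mul, Finset.Nat.sum_antidiagonal_eq_sum_range_succ_mk, Finset.sum_range_succ, Finset.sum_range_zero]
        norm_num [e40, e60]
      · rw [map_sub, coeff_th, r1]
        simp only [map_add, PowerSeries.coeff_smul, PowerSeries.coeff_mul, Finset.Nat.sum_antidiagonal_eq_sum_range_succ_mk, Finset.sum_range_succ, Finset.sum_range_zero]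
        norm_num [e40, e60, e41, e61]
    refine lt_of_lt_of_le ?_ this
    norm_num
  have hz' : qExpansion 1 (dif h hev) = 0 := by
    rw [hz]
    exact qExpansion_zero 1
  rw [hz'] at hq
  have key : ∀ m, (rn B m : ℂ) = ((7/12 : ℂ) • (qExpansion 1 E₄ * qExpansion 1 E₄ * qExpansion 1 E₄) +
       (5/12 : ℂ) • (qExpansion 1 E₆ * qExpansion 1 E₆)).coeff m := by
    intro m
    have := congrArg (PowerSeries.coeff m) hq
    rw [map_sub, coeff_th, map_zero] at this
    exact (sub_eq_zero.mp this.symm)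
  refine ⟨?_, ?_, ?_⟩
  · have := key 2
    simp only [map_add, PowerSeries.coeff_smul, PowerSeries.coeff_mul, Finset.Nat.sum_antidiagonal_eq_sum_range_succ_mk, Finset.sum_range_succ, Finset.sum_range_zero] at this
    norm_num [e40, e60, e41, e61, e42, e62] at this
    exact_mod_cast this
  · have := key 3
    simp only [map_add, PowerSeries.coeff_smul, PowerSeries.coeff_mul, Finset.Nat.sum_antidiagonal_eq_sum_range_succ_mk, Finset.sum_range_succ, Finset.sum_range_zero] at this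
    norm_num [e40, e60, e41, e61, e42, e62, e43, e63] at this
    exact_mod_cast this
  · have := key 4
    simp only [map_add, PowerSeries.coeff_smul, PowerSeries.coeff_mul, Finset.Nat.sum_antidiagonal_eq_sum_range_succ_mk, Finset.sum_range_succ, Finset.sum_range_zero] at this
    norm_num [e40, e60, e41, e61, e42, e62, e43, e63, e44, e64] at this
    exact_mod_cast this

end H78.Th
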