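import Mathlib
import Cfsg.Prelude.Def_Blocks
import Cfsg.Agent.Lib.H78.BF
import Cfsg.Agent.Lib.H78.BlkCount
import Cfsg.Agent.Lib.H78.Sect
import Cfsg.Agent.Lib.H20.PPart
import Cfsg.Agent.Lib.H79.Central
import Cfsg.Agent.S0912
import Cfsg.Agent.S0917
import Cfsg.Agent.S0920

/-! Blocks of defect one for the prime 2 (S4513). -/

set_option autoImplicit false
set_option linter.unusedSectionVars false
set_option linter.unusedVariables false
set_option linter.style.haveILetI false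
open Cfsg H20.Loc H20.GA H20.Blk H20.Orth H20.DefGrp H20.Defect H20.Height
open H18.CharBasic
open scoped ComplexConjugate

namespace H78.Two

universe u
variable {G : Type u} [Group G] [Finite G] {M : Ideal AlgInt}

theorem two_block [Fintype G] (hM : IsPModular 2 M) {B : Set (IrrCharacter G)} (hB : IsPBlock M B)
    (hd : blockDefect 2 B = 1) : ∃ χ₁ χ₂ : IrrCharacter G, χ₁ ≠ χ₂ ∧ B = {χ₁, χ₂} ∧
      (∀ g, ¬ 2 ∣ orderOf g → (χ₁ : G → ℂ) g = (χ₂ : G → ℂ) g) ∧
      (∀ g, 2 ∣ orderOf g → (χ₁ : G → ℂ) g = - (χ₂ : G → ℂ) g) ∧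
      classInner (reg 2 (χ₁ : G → ℂ)) (χ₁ : G → ℂ) = 1 / 2 ∧
      classInner (reg 2 (χ₂ : G → ℂ)) (χ₂ : G → ℂ) = 1 / 2 := by
  classical
  haveI := pm_isPrime hM
  letI := Fintype.ofFinite (IrrCharacter G)
  obtain ⟨χ₁, hχ₁, h0⟩ := exists_height_zero hM hB
  have key : ∀ χ ∈ B, blockHeight 2 B (χ : G → ℂ) = 0 ∧ ∃ n : IrrCharacter G → ℤ,
      (∀ ψ : IrrCharacter G, 2 * classInner (reg 2 (χ : G → ℂ)) (ψ : G → ℂ) = n ψ) ∧
      (∀ ψ : IrrCharacter G, ¬ (2 : ℤ) ∣ n ψ ↔ ψ ∈ B ∧ blockHeight 2 B (ψ : G → ℂ) = 0) ∧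
      n χ = 1 ∧ ∑ ψ, n ψ ^ 2 = 2 := by
    intro χ hχ
    obtain ⟨n, hn1, hn2, hn3, hn4⟩ := BF.exists_matrix hM hB hχ
    rw [hd] at hn1 hn4
    have h1 : n χ ^ 2 ≤ ∑ ψ, n ψ ^ 2 :=
      Finset.single_le_sum (f := fun ψ => n ψ ^ 2) (fun ψ _ => sq_nonneg _) (Finset.mem_univ χ)
    have hodd : ¬ (2 : ℤ) ∣ n χ₁ := (hn2 χ₁).2 ⟨hχ₁, h0⟩
    have hone : 1 ≤ n χ₁ ^ 2 := by
      have : n χ₁ ≠ 0 := fun h => hodd (h ▸ dvd_zero _)
      have := Int.one_le_abs this
      nlinarith [sq_abs (n χ₁), abs_nonneg (n χ₁)]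
    have hh : blockHeight 2 B (χ : G → ℂ) = 0 := by
      by_contra hne
      have h2 : (2 : ℤ) ≤ 2 ^ blockHeight 2 B (χ : G → ℂ) := by
        calc (2 : ℤ) = 2 ^ 1 := by norm_num
          _ ≤ _ := pow_le_pow_right₀ (by norm_num) (Nat.one_le_iff_ne_zero.2 hne)
      have hneq : χ ≠ χ₁ := by
        rintro rfl; exact hne h0
      have h3 : n χ ^ 2 + n χ₁ ^ 2 ≤ ∑ ψ, n ψ ^ 2 := by
        rw [← Finset.sum_pair (f := fun ψ => n ψ ^ 2) hneq]
        exact Finset.sum_le_sum_of_subset_of_nonneg (Finset.subset_univ _) (fun _ _ _ => sq_nonneg _)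
      have h4 : 0 ≤ ∑ ψ, n ψ ^ 2 := Finset.sum_nonneg fun _ _ => sq_nonneg _
      have hn4' : (2 : ℤ) ^ blockHeight 2 B (χ : G → ℂ) * ∑ ψ, n ψ ^ 2 = 2 * n χ := by
        have := hn4
        push_cast at this
        linarith
      have h5 : 2 * (n χ ^ 2 + n χ₁ ^ 2) ≤ 2 * n χ := by
        rw [← hn4']
        nlinarith
      nlinarith
    rw [hh] at hn1 hn4
    have hn4' : ∑ ψ, n ψ ^ 2 = 2 * n χ := by
      have := hn4
      push_cast at this
      linarith
    have hoddχ : ¬ (2 : ℤ) ∣ n χ := (hn2 χ).2 ⟨hχ, hh⟩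
    have h6 : n χ = 1 := by
      have h7 : n χ ≤ 2 := by nlinarith
      have : n χ ≠ 2 := fun h => hoddχ (by rw [h])
      omega
    refine ⟨hh, n, ?_, hn2, h6, by rw [hn4', h6]; norm_num⟩
    intro ψ
    have := hn1 ψ
    simpa using this
  obtain ⟨-, n, hn1, hn2, hn3, hn4⟩ := key χ₁ hχ₁
  -- a second one
  have h2 : ∑ ψ ∈ Finset.univ.erase χ₁, n ψ ^ 2 = 1 := by
    have := Finset.add_sum_erase Finset.univ (fun ψ => n ψ ^ 2) (Finset.mem_univ χ₁)
    rw [hn4, hn3] at this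
    linarith
  obtain ⟨χ₂, hχ₂, hne2⟩ : ∃ χ₂ ∈ Finset.univ.erase χ₁, n χ₂ ^ 2 ≠ 0 := by
    by_contra! h
    rw [Finset.sum_eq_zero h] at h2
    exact zero_ne_one h2
  have hne : χ₁ ≠ χ₂ := fun h => (Finset.mem_erase.1 hχ₂).1 h.symm
  have h3 : n χ₂ ^ 2 + ∑ ψ ∈ (Finset.univ.erase χ₁).erase χ₂, n ψ ^ 2 = 1 := by
    rw [Finset.add_sum_erase _ (fun ψ => n ψ ^ 2) hχ₂, h2]
  have h3' : 0 ≤ ∑ ψ ∈ (Finset.univ.erase χ₁).erase χ₂, n ψ ^ 2 :=
    Finset.sum_nonneg fun _ _ => sq_nonneg _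
  have h4 : n χ₂ ^ 2 = 1 := by
    have : 0 < n χ₂ ^ 2 := lt_of_le_of_ne (sq_nonneg _) (Ne.symm hne2)
    omega
  have h5 : ∑ ψ ∈ (Finset.univ.erase χ₁).erase χ₂, n ψ ^ 2 = 0 := by omega
  have h6 : ∀ ψ, ψ ≠ χ₁ → ψ ≠ χ₂ → n ψ = 0 := by
    intro ψ h1 h2
    have := (Finset.sum_eq_zero_iff_of_nonneg (fun ψ _ => sq_nonneg (n ψ))).1 h5 ψ
      (Finset.mem_erase.2 ⟨h2, Finset.mem_erase.2 ⟨h1, Finset.mem_univ _⟩⟩)
    exact pow_eq_zero_iff (by norm_num) |>.1 this
  have hBeq : B = {χ₁, χ₂} := by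
    ext ψ
    constructor
    · intro hψ
      by_contra h
      simp only [Set.mem_insert_iff, Set.mem_singleton_iff, not_or] at h
      have := (hn2 ψ).2 ⟨hψ, (key ψ hψ).1⟩
      exact this (by rw [h6 ψ h.1 h.2]; exact dvd_zero _)
    · rintro (rfl | rfl)
      · exact hχ₁
      · apply ((hn2 _).1 _).1
        intro h
        have h7 : (2 : ℤ) ∣ n ψ ^ 2 := dvd_pow h (by norm_num)
        rw [h4] at h7
        norm_num at h7
  have hχ₂B : χ₂ ∈ B := by rw [hBeq]; right; rfl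
  -- the expansion of `reg χ₁`
  have hexp := H18.CharOrtho.mem_classFun_expand (reg_class (p := 2) (isClassFunction_of_isIrr χ₁.2))
  have hcoef : ∀ ψ : IrrCharacter G, classInner (reg 2 (χ₁ : G → ℂ)) (ψ : G → ℂ) = (n ψ : ℂ) / 2 := by
    intro ψ
    rw [← hn1 ψ]; ring
  have hexp2 : ∀ g, reg 2 (χ₁ : G → ℂ) g = (χ₁ : G → ℂ) g / 2 + (n χ₂ : ℂ) / 2 * (χ₂ : G → ℂ) g := by
    intro g
    conv_lhs => rw [hexp]
    rw [Finset.sum_apply, ← Finset.add_sum_erase _ _ (Finset.mem_univ χ₁),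
      ← Finset.add_sum_erase _ _ hχ₂, Finset.sum_eq_zero]
    · rw [Pi.smul_apply, Pi.smul_apply, hcoef, hcoef, hn3]
      simp only [smul_eq_mul]
      push_cast
      ring
    · intro ψ hψ
      rw [Finset.mem_erase, Finset.mem_erase] at hψ
      rw [Pi.smul_apply, hcoef, h6 ψ hψ.2.1 hψ.1]
      simp
  have hn2' : n χ₂ = 1 := by
    have h7 := hexp2 1
    rw [reg_of (by rw [orderOf_one]; norm_num)] at h7
    obtain ⟨a, ha⟩ := H18.CharBasic.exists_degree (irr_char χ₁)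
    obtain ⟨b, hb⟩ := H18.CharBasic.exists_degree (irr_char χ₂)
    have ha0 := irr_one_ne_zero χ₁.2
    rw [ha] at h7 ha0
    rw [hb] at h7
    have h8 : (a : ℂ) = n χ₂ * b := by linear_combination 2 * h7
    have h9 : (a : ℤ) = n χ₂ * b := by exact_mod_cast h8
    have ha1 : (a : ℤ) ≠ 0 := by
      intro h
      apply ha0
      exact_mod_cast h
    have h10 : (n χ₂ - 1) * (n χ₂ + 1) = 0 := by linear_combination h4
    rcases mul_eq_zero.1 h10 with h | h
    · omega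
    · have h : n χ₂ = -1 := by omega
      rw [h] at h9
      have : (0 : ℤ) ≤ a := Int.natCast_nonneg a
      have : (0 : ℤ) ≤ b := Int.natCast_nonneg b
      omega
  refine ⟨χ₁, χ₂, hne, hBeq, ?_, ?_, ?_, ?_⟩
  · intro g hg
    have h7 := hexp2 g
    rw [reg_of hg, hn2'] at h7
    push_cast at h7
    linear_combination 2 * h7
  · intro g hg
    have h7 := hexp2 g
    rw [reg_not hg, hn2'] at h7
    push_cast at h7
    linear_combination -2 * h7
  · rw [hcoef, hn3]; norm_num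
  · obtain ⟨-, m, hm1, hm2, hm3, hm4⟩ := key χ₂ hχ₂B
    have := hm1 χ₂
    rw [hm3] at this
    push_cast at this
    linear_combination this / 2


section cent

variable {x : G}

theorem zpowers_two (hx : orderOf x = 2) {g : G} (hg : g ∈ Subgroup.zpowers x) : g = 1 ∨ g = x := by
  obtain ⟨k, rfl⟩ := Subgroup.mem_zpowers_iff.1 hg
  have h2 : x ^ 2 = 1 := by rw [← hx]; exact pow_orderOf_eq_one x
  rcases Int.even_or_odd k with ⟨m, hm⟩ | ⟨m, hm⟩
  · left
    rw [hm, ← two_mul, zpow_mul]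
    have : x ^ (2 : ℤ) = 1 := by exact_mod_cast h2
    rw [this, one_zpow]
  · right
    rw [hm, zpow_add, zpow_mul, zpow_one]
    have : x ^ (2 : ℤ) = 1 := by exact_mod_cast h2
    rw [this, one_zpow, one_mul]

theorem ne_one_of (hx : orderOf x = 2) : x ≠ 1 := by
  rintro rfl
  rw [orderOf_one] at hx
  norm_num at hx

theorem normalizer_eq (hx : orderOf x = 2) :
    Subgroup.normalizer ((Subgroup.zpowers x : Subgroup G) : Set G) =
      Subgroup.centralizer ({x} : Set G) := by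
  ext n
  rw [Subgroup.mem_centralizer_singleton_iff]
  constructor
  · intro hn
    have h1 := (Subgroup.mem_normalizer_iff.1 hn x).1 (Subgroup.mem_zpowers x)
    rcases zpowers_two hx h1 with h | h
    · exfalso
      apply ne_one_of hx
      have : x = n⁻¹ * (n * x * n⁻¹) * n := by group
      rw [this, h]; group
    · calc n * x = (n * x * n⁻¹) * n := by group
        _ = x * n := by rw [h]
  · intro hn
    rw [Subgroup.mem_normalizer_iff]
    have hc : ∀ h ∈ Subgroup.zpowers x, n * h * n⁻¹ = h := by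
      intro h hh
      obtain ⟨k, rfl⟩ := Subgroup.mem_zpowers_iff.1 hh
      have h1 : Commute n x := hn
      have h2 := (h1.zpow_right k).eq
      rw [h2]; group
    intro h
    constructor
    · intro hh; rw [hc h hh]; exact hh
    · intro hh
      have h3 := hc _ hh
      have h4 : h = n * h * n⁻¹ := by
        have h5 : n⁻¹ * (n * (n * h * n⁻¹) * n⁻¹) * n = n⁻¹ * (n * h * n⁻¹) * n := by rw [h3]
        calc h = n⁻¹ * (n * h * n⁻¹) * n := by group
          _ = n⁻¹ * (n * (n * h * n⁻¹) * n⁻¹) * n := h5.symm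
          _ = _ := by group
      rw [h4]; exact hh

/-- a block of the centralizer of the involution `x` inducing `B` has defect group `⟨x⟩`. -/
theorem defect_sub (hM : IsPModular 2 M) (hx : orderOf x = 2) {B : Set (IrrCharacter G)}
    (hBD : IsDefectGroup 2 M B (Subgroup.zpowers x))
    {b : Set (IrrCharacter (Subgroup.centralizer ({x} : Set G)))}
    (hb : IsInducedBlock M (Subgroup.centralizer ({x} : Set G)) b B) :
    IsDefectGroup 2 M b ((Subgroup.zpowers x).subgroupOf (Subgroup.centralizer ({x} : Set G))) ∧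
    blockDefect 2 b = 1 := by
  haveI := pm_isPrime hM
  haveI : Fact (Nat.Prime 2) := ⟨Nat.prime_two⟩
  have hcardx : Nat.card (Subgroup.zpowers x) = 2 := by rw [Nat.card_zpowers, hx]
  have hdB : 2 ^ blockDefect 2 B = 2 := by
    rw [← card_defectGroup hM hb.2.1 hBD, hcardx]
  obtain ⟨D, hD⟩ := exists_isDefectGroup hM hb.1
  obtain ⟨E, hE, hDE⟩ := Cfsg.Agent.S0917.result 2 M hM _ b hb.1 B hb.2.1 hb D hD
  have hcE : Nat.card E = 2 := by rw [card_defectGroup hM hb.2.1 hE, hdB]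
  -- `x` lies in `D`
  set x0 : Subgroup.centralizer ({x} : Set G) := ⟨x, Subgroup.mem_centralizer_singleton_iff.2 rfl⟩ with hx0
  have hx0c : ∀ c : Subgroup.centralizer ({x} : Set G), c * x0 = x0 * c := by
    intro c
    apply Subtype.ext
    exact Subgroup.mem_centralizer_singleton_iff.1 c.2
  have hnorm : (Subgroup.zpowers x0).Normal := by
    refine ⟨fun n hn g => ?_⟩
    obtain ⟨k, rfl⟩ := Subgroup.mem_zpowers_iff.1 hn
    have h1 : Commute g x0 := hx0c g
    rw [(h1.zpow_right k).eq, mul_assoc, mul_inv_cancel, mul_one]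
    exact Subgroup.zpow_mem_zpowers x0 k
  have hx0o : orderOf x0 = 2 := by rw [← hx]; exact (Subgroup.orderOf_coe x0).symm
  have hpg : IsPGroup 2 (Subgroup.zpowers x0) := by
    apply IsPGroup.of_card (n := 1)
    rw [Nat.card_zpowers, hx0o, pow_one]
  have hle := (H1.Cores.le_pCore hnorm hpg).trans (Cfsg.Agent.S0912.result 2 M hM b hb.1 D hD)
  have hxD : Subgroup.zpowers x ≤ D.map (Subgroup.centralizer ({x} : Set G)).subtype := by
    rw [Subgroup.zpowers_le]
    exact ⟨x0, hle (Subgroup.mem_zpowers x0), rfl⟩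
  have hxE : Subgroup.zpowers x = E := by
    apply Subgroup.eq_of_le_of_card_ge (hxD.trans hDE)
    rw [hcE, hcardx]
  have hDx : D.map (Subgroup.centralizer ({x} : Set G)).subtype = Subgroup.zpowers x :=
    le_antisymm (by rw [hxE]; exact hDE) hxD
  have hDeq : D = (Subgroup.zpowers x).subgroupOf (Subgroup.centralizer ({x} : Set G)) := by
    rw [← hDx]
    exact (Subgroup.comap_map_eq_self_of_injective (Subgroup.subtype_injective _) D).symm
  refine ⟨hDeq ▸ hD, ?_⟩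
  have hcD : Nat.card D = 2 := by
    rw [← hcardx, ← hDx]
    exact (Subgroup.card_map_of_injective (Subgroup.subtype_injective _)).symm
  have h2 := card_defectGroup hM hb.1 hD
  rw [hcD] at h2
  have h3 : (2 : ℕ) ^ 1 = 2 ^ blockDefect 2 b := by rw [pow_one]; exact h2
  exact (Nat.pow_right_injective le_rfl h3).symm

theorem unique_sub (hM : IsPModular 2 M) (hx : orderOf x = 2) {B : Set (IrrCharacter G)}
    (hBD : IsDefectGroup 2 M B (Subgroup.zpowers x))
    {b b' : Set (IrrCharacter (Subgroup.centralizer ({x} : Set G)))}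
    (hb : IsInducedBlock M (Subgroup.centralizer ({x} : Set G)) b B)
    (hb' : IsInducedBlock M (Subgroup.centralizer ({x} : Set G)) b' B) : b = b' := by
  haveI := pm_isPrime hM
  haveI : Fact (Nat.Prime 2) := ⟨Nat.prime_two⟩
  have hpg : IsPGroup 2 (Subgroup.zpowers x) := by
    apply IsPGroup.of_card (n := 1)
    rw [Nat.card_zpowers, hx, pow_one]
  have h1 := (Cfsg.Agent.S0920.result 2 M hM (Subgroup.zpowers x) hpg).2 B hb.2.1 hBD
  rw [normalizer_eq hx] at h1
  exact h1.unique ⟨hb.1, (defect_sub hM hx hBD hb).1, hb⟩ ⟨hb'.1, (defect_sub hM hx hBD hb').1, hb'⟩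


open H78.BlkCount H78.Sect

theorem singular_eq [Fintype G] (hM : IsPModular 2 M) (hx : orderOf x = 2)
    {B : Set (IrrCharacter G)} (hB : IsPBlock M B)
    (hBD : IsDefectGroup 2 M B (Subgroup.zpowers x)) {χ : IrrCharacter G} (hχ : χ ∈ B) :
    lift x (reg 2 (trL x (χ : G → ℂ))) = (χ : G → ℂ) - reg 2 (χ : G → ℂ) := by
  haveI := pm_isPrime hM
  letI : Fintype (Subgroup.centralizer ({x} : Set G)) := Fintype.ofFinite _
  have hxp : ∃ k : ℕ, orderOf x = 2 ^ k := ⟨1, by rw [hx, pow_one]⟩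
  funext g
  rw [Pi.sub_apply]
  obtain ⟨z, hz⟩ := H19.Second.exists_isPPart Nat.prime_two g
  by_cases hzx : IsConj z x
  · rw [lift_of Nat.prime_two x hxp (irr_class χ) hz hzx, reg_not, sub_zero]
    obtain ⟨y, hzy, hc, hk, hy⟩ := hz
    haveI : Fact (Nat.Prime 2) := ⟨Nat.prime_two⟩
    obtain ⟨h1, -⟩ := H20.PPart.mem_zpowers_mul hc (H20.PPart.coprime_of_pelt hk hy)
    have h2 := orderOf_dvd_of_mem_zpowers h1
    rw [hzy] at h2
    have h3 : orderOf z = 2 := by
      obtain ⟨t, ht⟩ := isConj_iff.1 hzx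
      rw [← hx, ← ht, orderOf_conj]
    rwa [h3] at h2
  · rw [lift_not Nat.prime_two x hxp (reg_reg _) hz hzx]
    by_cases hg : 2 ∣ orderOf g
    · rw [reg_not hg, sub_zero]
      symm
      apply H19.Second2.vanish_off_defect hM χ g z hz
      intro D hD hzD
      rw [← isPBlock_eq hB hχ] at hD
      obtain ⟨c, hc⟩ := isDefectGroup_conj hM hB hBD hD
      rw [hc, mem_map_conj] at hzD
      rcases zpowers_two hx hzD with h | h
      · have hz1 : z = 1 := by
          have : z = c * (c⁻¹ * z * c) * c⁻¹ := by group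
          rw [this, h]; group
        obtain ⟨y, hzy, -, -, hy⟩ := hz
        rw [hz1, one_mul] at hzy
        rw [hzy] at hy
        exact hy hg
      · apply hzx
        rw [isConj_iff]
        refine ⟨c⁻¹, ?_⟩
        rw [inv_inv]
        exact h
    · rw [reg_of hg, sub_self]

theorem norm_section [Fintype G] (hM : IsPModular 2 M) (hx : orderOf x = 2)
    [Fintype (Subgroup.centralizer ({x} : Set G))]
    {B : Set (IrrCharacter G)} (hB : IsPBlock M B)
    (hBD : IsDefectGroup 2 M B (Subgroup.zpowers x)) {χ : IrrCharacter G} (hχ : χ ∈ B)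
    (hh : classInner (reg 2 (χ : G → ℂ)) (χ : G → ℂ) = 1 / 2) :
    classInner (reg 2 (trL x (χ : G → ℂ))) (reg 2 (trL x (χ : G → ℂ))) = 1 / 2 := by
  have hxp : ∃ k : ℕ, orderOf x = 2 ^ k := ⟨1, by rw [hx, pow_one]⟩
  rw [← inner_lift_lift Nat.prime_two x hxp _ (irr_class χ) (reg_reg _),
    singular_eq hM hx hB hBD hχ]
  have h1 : classInner (χ : G → ℂ) (reg 2 (χ : G → ℂ)) = 1 / 2 := by
    rw [← H18.CharOrtho.inner_conj_symm, hh, map_div₀, map_one, map_ofNat]
  have h2 : classInner (reg 2 (χ : G → ℂ)) (reg 2 (χ : G → ℂ)) = 1 / 2 := by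
    rw [BF.inner_reg_reg, hh]
  rw [H18.CharOrtho.inner_sub_left, H18.CharOrtho.inner_sub_right, H18.CharOrtho.inner_sub_right,
    H18.CharOrtho.inner_irr_self χ.2, h1, h2, hh]
  norm_num

/-- S4513 -/
theorem main (hM : IsPModular 2 M) (hx : orderOf x = 2)
    {B : Set (IrrCharacter G)} (hB : IsPBlock M B)
    (hBD : IsDefectGroup 2 M B (Subgroup.zpowers x))
    {b : Set (IrrCharacter (Subgroup.centralizer ({x} : Set G)))}
    (hb : IsInducedBlock M (Subgroup.centralizer ({x} : Set G)) b B)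
    {θ : IrrCharacter (Subgroup.centralizer ({x} : Set G))} (hθ : θ ∈ b)
    (hθx : ∀ z : Subgroup.centralizer ({x} : Set G), (z : G) = x →
      (θ : Subgroup.centralizer ({x} : Set G) → ℂ) z = (θ : Subgroup.centralizer ({x} : Set G) → ℂ) 1) :
    Nat.card B = 2 ∧ (∀ χ ∈ B, ∀ ψ ∈ B, ∀ g : G, ¬ 2 ∣ orderOf g → (χ : G → ℂ) g = (ψ : G → ℂ) g) ∧
      ∃ χ₁ ∈ B, ∃ χ₂ ∈ B, χ₁ ≠ χ₂ ∧ ∃ ε₁ ε₂ : ℤ, (ε₁ = 1 ∨ ε₁ = -1) ∧ (ε₂ = 1 ∨ ε₂ = -1) ∧ ε₁ * ε₂ = -1 ∧
        ∀ y : ↥(Subgroup.centralizer ({x} : Set G)), ¬ 2 ∣ orderOf y →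
          (χ₁ : G → ℂ) (x * y) = (ε₁ : ℂ) * (θ : ↥(Subgroup.centralizer ({x} : Set G)) → ℂ) y ∧ (χ₂ : G → ℂ) (x * y) = (ε₂ : ℂ) * (θ : ↥(Subgroup.centralizer ({x} : Set G)) → ℂ) y := by
  classical
  haveI := pm_isPrime hM
  haveI : Fact (Nat.Prime 2) := ⟨Nat.prime_two⟩
  letI := Fintype.ofFinite G
  letI : Fintype (Subgroup.centralizer ({x} : Set G)) := Fintype.ofFinite _
  letI : Fintype (IrrCharacter (Subgroup.centralizer ({x} : Set G))) := Fintype.ofFinite _
  letI : Fintype (Set (IrrCharacter (Subgroup.centralizer ({x} : Set G)))) := Fintype.ofFinite _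
  have hxp : ∃ k : ℕ, orderOf x = 2 ^ k := ⟨1, by rw [hx, pow_one]⟩
  have hdB : blockDefect 2 B = 1 := by
    have h2 := card_defectGroup hM hB hBD
    rw [Nat.card_zpowers, hx] at h2
    have h3 : (2 : ℕ) ^ 1 = 2 ^ blockDefect 2 B := by rw [pow_one]; exact h2
    exact (Nat.pow_right_injective le_rfl h3).symm
  obtain ⟨χ₁, χ₂, hne, hBeq, hreg, hsing, hn1, hn2⟩ := two_block hM hB hdB
  obtain ⟨θ₁, θ₂, hne', hbeq, hreg', hsing', hn1', hn2'⟩ := two_block hM hb.1 (defect_sub hM hx hBD hb).2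
  have hχ₁ : χ₁ ∈ B := by rw [hBeq]; left; rfl
  have hχ₂ : χ₂ ∈ B := by rw [hBeq]; right; rfl
  -- on regular elements `χ₁ (x y) = c θ(y)`
  have hθreg : ∀ η ∈ b, reg 2 (η : Subgroup.centralizer ({x} : Set G) → ℂ) =
      reg 2 (θ : Subgroup.centralizer ({x} : Set G) → ℂ) := by
    have h12 : reg 2 (θ₁ : Subgroup.centralizer ({x} : Set G) → ℂ) =
        reg 2 (θ₂ : Subgroup.centralizer ({x} : Set G) → ℂ) := by
      funext y
      by_cases hy : 2 ∣ orderOf y
      · rw [reg_not hy, reg_not hy]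
      · rw [reg_of hy, reg_of hy, hreg' y hy]
    have h3 : ∀ η ∈ b, reg 2 (η : Subgroup.centralizer ({x} : Set G) → ℂ) =
      reg 2 (θ₁ : Subgroup.centralizer ({x} : Set G) → ℂ) := by
      intro η hη
      rw [hbeq] at hη
      rcases hη with rfl | hη
      · rfl
      · rw [Set.mem_singleton_iff] at hη
        rw [hη, h12]
    intro η hη
    rw [h3 η hη, h3 θ hθ]
  have hθn : classInner (reg 2 (θ : Subgroup.centralizer ({x} : Set G) → ℂ))
      (reg 2 (θ : Subgroup.centralizer ({x} : Set G) → ℂ)) = 1 / 2 := by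
    have h1 : θ₁ ∈ b := by rw [hbeq]; left; rfl
    rw [← hθreg θ₁ h1, BF.inner_reg_reg, hn1']
  obtain ⟨c, hc⟩ : ∃ c : ℂ, reg 2 (trL x (χ₁ : G → ℂ)) =
      c • reg 2 (θ : Subgroup.centralizer ({x} : Set G) → ℂ) := by
    rw [sum_D hM x (irr_class χ₁), Finset.sum_eq_single b]
    · rw [if_pos hb.1, D_apply]
      refine ⟨∑ η : IrrCharacter (Subgroup.centralizer ({x} : Set G)), if η ∈ b then
        classInner (trL x (χ₁ : G → ℂ)) (η : Subgroup.centralizer ({x} : Set G) → ℂ) else 0, ?_⟩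
      funext y
      by_cases hy : 2 ∣ orderOf y
      · rw [reg_not hy, Pi.smul_apply, reg_not hy, smul_zero]
      · rw [reg_of hy, Pi.smul_apply, reg_of hy, proj_eq_sum, smul_eq_mul, Finset.sum_mul]
        refine Finset.sum_congr rfl fun η _ => ?_
        by_cases hη : η ∈ b
        · rw [if_pos hη, if_pos hη]
          have := congrFun (hθreg η hη) y
          rw [reg_of hy, reg_of hy] at this
          rw [this]
        · rw [if_neg hη, if_neg hη, zero_mul]
    · intro b' _ hb'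
      split_ifs with h
      · apply D_eq_zero hM x hxp hB hχ₁ h
        intro hind
        exact hb' (unique_sub hM hx hBD hind hb)
      · rfl
    · intro h; exact absurd (Finset.mem_univ _) h
  -- `|c| = 1`
  have hnorm := norm_section hM hx hB hBD hχ₁ hn1
  rw [hc, H18.CharOrtho.inner_smul_left, H18.CharOrtho.inner_smul_right, hθn] at hnorm
  have hreal : conj c = c := by
    have h1 := congrFun hc 1
    rw [reg_of (by rw [orderOf_one]; norm_num), trL_apply, Pi.smul_apply,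
      reg_of (by rw [orderOf_one]; norm_num), smul_eq_mul] at h1
    have h2 : x * ((1 : Subgroup.centralizer ({x} : Set G)) : G) = x := by simp
    rw [h2] at h1
    have hxinv : x⁻¹ = x := by
      rw [inv_eq_iff_mul_eq_one, ← sq, ← hx]
      exact pow_orderOf_eq_one x
    have h3 : conj ((χ₁ : G → ℂ) x) = (χ₁ : G → ℂ) x := by
      rw [← char_inv (irr_char χ₁), hxinv]
    rw [h1, map_mul, H18.CharInd.conj_char_one (irr_char θ)] at h3
    exact mul_right_cancel₀ (irr_one_ne_zero θ.2) h3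
  have hc2 : (c - 1) * (c + 1) = 0 := by
    rw [hreal] at hnorm
    linear_combination 2 * hnorm
  obtain ⟨ε, hε, hεc⟩ : ∃ ε : ℤ, (ε = 1 ∨ ε = -1) ∧ (ε : ℂ) = c := by
    rcases mul_eq_zero.1 hc2 with h | h
    · refine ⟨1, Or.inl rfl, ?_⟩
      push_cast
      linear_combination -h
    · refine ⟨-1, Or.inr rfl, ?_⟩
      push_cast
      linear_combination -h
  refine ⟨?_, ?_, χ₁, hχ₁, χ₂, hχ₂, hne, ε, -ε, hε, ?_, ?_, ?_⟩
  · rw [hBeq, Nat.card_coe_set_eq, Set.ncard_pair hne]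
  · intro χ hχ ψ hψ g hg
    rw [hBeq] at hχ hψ
    rcases hχ with rfl | rfl <;> rcases hψ with rfl | rfl
    · rfl
    · exact hreg g hg
    · exact (hreg g hg).symm
    · rfl
  · rcases hε with h | h
    · right; rw [h]
    · left; rw [h]; norm_num
  · rcases hε with h | h <;> rw [h] <;> norm_num
  · intro y hy
    have h1 := congrFun hc y
    rw [reg_of hy, trL_apply, Pi.smul_apply, reg_of hy, smul_eq_mul, ← hεc] at h1
    refine ⟨h1, ?_⟩
    have hxy : Commute x (y : G) := (Subgroup.mem_centralizer_singleton_iff.1 y.2).symm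
    have hs : 2 ∣ orderOf (x * (y : G)) := by
      obtain ⟨h1, -⟩ := H20.PPart.mem_zpowers_mul hxy (H20.PPart.coprime_of_pelt (p := 2) hxp
        (by rwa [Subgroup.orderOf_coe]))
      have h2 := orderOf_dvd_of_mem_zpowers h1
      rwa [hx] at h2
    have h2 := hsing (x * (y : G)) hs
    push_cast
    linear_combination -h1 + h2 

end cent

end H78.Two
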