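import Cfsg.Agent.Lib.H51.QuadPair
import Cfsg.Agent.Lib.H38.Basic

/-! A torus element in a subgroup of `SL₂(F)` generated by two opposite transvections. -/

set_option autoImplicit false

namespace H78.Zf

open Matrix H51.NatSL2 H51.SL2Pair H51.SL2Pair2 H38.Basic
open scoped MatrixGroups

section mat

variable {F : Type*} [Field F] [Finite F] {p : ℕ} [hp : Fact p.Prime] [CharP F p]

theorem torus_mat {μ : F} (hμ : μ ≠ 0) {H : Subgroup SL(2, F)}
    (hμH : H85.SL2.up μ ∈ H) (hgood : Good p H) {ω ω' : ZMod p} (hω : ω * ω' = 1) :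
    ∃ τ ∈ H, τ.1 1 0 = 0 ∧ (τ.1 0 0 = ZMod.castHom (dvd_refl p) F ω ∨ τ.1 0 0 = ZMod.castHom (dvd_refl p) F ω') := by
  classical
  have hfin : Finite SL(2, F) := inferInstance
  letI : Fintype F := Fintype.ofFinite F
  set c0 := ZMod.castHom (dvd_refl p) F with hc0
  obtain ⟨φ, hinj, hrange, g, hφ⟩ := exists_hom hgood
  set x := φ (H85.SL2.up 1) with hx
  have hxH : x ∈ H := hrange ⟨_, rfl⟩
  have hxp : x ^ p = 1 := by
    rw [hx, ← map_pow, H85.SL2.up_pow]
    simp
  have hx1 : x ≠ 1 := by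
    intro h
    rw [hx, ← map_one φ] at h
    have h1 := hinj h
    rw [← H85.SL2.up_zero] at h1
    exact one_ne_zero (H85.SL2.up_injective h1)
  have hpg : ∀ y : SL(2, F), y ^ p = 1 → IsPGroup p (Subgroup.zpowers y) := by
    intro y hy
    rintro ⟨z, hz⟩
    obtain ⟨n, hn⟩ := Subgroup.mem_zpowers_iff.1 hz
    refine ⟨1, ?_⟩
    apply Subtype.ext
    show z ^ p ^ 1 = 1
    rw [pow_one, ← hn, ← zpow_natCast, ← _root_.zpow_mul, mul_comm, _root_.zpow_mul, zpow_natCast, hy, _root_.one_zpow]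
  obtain ⟨T, hT, hμT⟩ := exists_isSyl_ge (p := p) (Q := Subgroup.zpowers (H85.SL2.up μ)) (H := H)
    (hpg _ (by rw [H85.SL2.up_pow, CharP.cast_eq_zero, zero_mul, H85.SL2.up_zero]))
    (by rw [Subgroup.zpowers_le]; exact hμH)
  obtain ⟨h, hhH, hhT⟩ := hT.exists_conj_le (hpg x hxp) (by rw [Subgroup.zpowers_le]; exact hxH)
  set y := h * x * h⁻¹ with hy
  have hyT : y ∈ T := hhT (conj_mem_conj.2 (Subgroup.mem_zpowers x))
  obtain ⟨P, hP⟩ := hT.2.1.exists_le_sylow
  obtain ⟨g', hg'⟩ := exists_conj_up p P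
  have hup : H85.SL2.up μ ∈ (P : Subgroup SL(2, F)) := hP (hμT (Subgroup.mem_zpowers _))
  have hyP : y ∈ (P : Subgroup SL(2, F)) := hP hyT
  rw [hg'] at hup hyP
  obtain ⟨b, hb⟩ := hup
  obtain ⟨c, hc⟩ := hyP
  have e1 : H85.SL2.up μ * g' = g' * H85.SL2.up b := by rw [← hb]; group
  have e2 : y * g' = g' * H85.SL2.up c := by rw [← hc]; group
  have hg10 : g'.1 1 0 = 0 := by
    have := congrArg (fun M : SL(2, F) => M.1 0 0) e1
    simp only [mul_apply2] at this
    simp at this
    exact this.resolve_left hμ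
  have hg00 : g'.1 0 0 ≠ 0 := by
    intro h0
    have := g'.2
    rw [Matrix.det_fin_two, h0, hg10] at this
    simp at this
  have hy10 : y.1 1 0 = 0 := by
    have := congrArg (fun M : SL(2, F) => M.1 1 0) e2
    simp only [mul_apply2] at this
    simp [hg10] at this
    exact this.resolve_right hg00
  have hy00 : y.1 0 0 = 1 := by
    have := congrArg (fun M : SL(2, F) => M.1 0 0) e2
    simp only [mul_apply2] at this
    simp [hg10] at this
    exact mul_right_cancel₀ hg00 (this.trans (one_mul _).symm)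
  have hy11 : y.1 1 1 = 1 := by
    have := y.2
    rw [Matrix.det_fin_two, hy10, hy00] at this
    simpa using this
  have hyup : y = H85.SL2.up (y.1 0 1) := by
    apply Subtype.ext
    ext i j
    fin_cases i <;> fin_cases j <;> simp [hy00, hy10, hy11]
  have hy01 : y.1 0 1 ≠ 0 := by
    intro h0
    rw [h0, H85.SL2.up_zero] at hyup
    apply hx1
    have : x = h⁻¹ * y * h := by rw [hy]; group
    rw [this, hyup]; group
  -- the torus
  let dω : SL(2, ZMod p) := ⟨!![ω, 0; 0, ω'], by rw [Matrix.det_fin_two_of]; simpa using hω⟩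
  have hω0 : ω ≠ 0 := left_ne_zero_of_mul_eq_one hω
  have hrel : dω * H85.SL2.up 1 = (H85.SL2.up 1) ^ (ω * ω).val * dω := by
    have : NeZero p := ⟨hp.out.ne_zero⟩
    rw [H85.SL2.up_pow]
    apply Subtype.ext
    ext i j
    rw [mul_apply2, mul_apply2]
    fin_cases i <;> fin_cases j <;> simp [dω]
    rw [mul_assoc, hω, mul_one]
  set d := φ dω with hd
  have hdH : d ∈ H := hrange ⟨_, rfl⟩
  set d' := h * d * h⁻¹ with hd'
  have hd'H : d' ∈ H := H.mul_mem (H.mul_mem hhH hdH) (H.inv_mem hhH)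
  have hrel2 : d' * y = y ^ (ω * ω).val * d' := by
    have h1 : d * x = x ^ (ω * ω).val * d := by
      rw [hd, hx, ← map_mul, hrel, map_mul, map_pow]
    have h2 : y ^ (ω * ω).val = h * x ^ (ω * ω).val * h⁻¹ := by rw [hy, conj_pow]
    rw [h2, hd', hy]
    calc h * d * h⁻¹ * (h * x * h⁻¹) = h * (d * x) * h⁻¹ := by group
      _ = h * (x ^ (ω * ω).val * d) * h⁻¹ := by rw [h1]
      _ = _ := by group
  have hk0 : (((ω * ω).val : ℕ) : F) ≠ 0 := by
    have : NeZero p := ⟨hp.out.ne_zero⟩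
    intro h0
    have h1 : p ∣ (ω * ω).val := (CharP.cast_eq_zero_iff F p _).1 h0
    have h2 : ω * ω = 0 := by
      rw [← ZMod.natCast_zmod_val (ω * ω)]
      exact (ZMod.natCast_eq_zero_iff _ _).2 h1
    exact hω0 (mul_self_eq_zero.1 h2)
  have hd10 : d'.1 1 0 = 0 := by
    rw [hyup, H85.SL2.up_pow] at hrel2
    have := congrArg (fun M : SL(2, F) => M.1 0 0) hrel2
    simp only [mul_apply2] at this
    simp at this
    exact this.resolve_left (by
      push Not
      refine ⟨?_, hy01⟩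
      intro h0
      apply hω0
      have : NeZero p := ⟨hp.out.ne_zero⟩
      exfalso
      exact hk0 (by simpa using h0))
  have htr : d'.1.trace = c0 ω + c0 ω' := by
    have h1 : d'.1.trace = d.1.trace := by
      show (h.1 * d.1 * (h⁻¹ : SL(2, F)).1).trace = _
      rw [Matrix.trace_mul_comm, ← Matrix.mul_assoc]
      have : (h⁻¹ : SL(2, F)).1 * h.1 = 1 := by
        have := congrArg Subtype.val (inv_mul_cancel h)
        exact this
      rw [this, Matrix.one_mul]
    rw [h1, hd, hφ, trace_cj, Matrix.trace_fin_two]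
    rfl
  refine ⟨d', hd'H, hd10, ?_⟩
  rw [Matrix.trace_fin_two] at htr
  have hdet := d'.2
  rw [Matrix.det_fin_two, hd10, mul_zero, sub_zero] at hdet
  have hcc : c0 ω * c0 ω' = 1 := by rw [← map_mul, hω, map_one]
  have hprod : (d'.1 0 0 - c0 ω) * (d'.1 0 0 - c0 ω') = 0 := by
    linear_combination (d'.1 0 0) * htr - hdet + hcc
  rcases mul_eq_zero.1 hprod with h1 | h1
  · left; exact sub_eq_zero.1 h1
  · right; exact sub_eq_zero.1 h1

end mat

section core

variable {p : ℕ} [hp : Fact p.Prime] {D W : Type*} [Field D] [Finite D] [CharP D p] [AddCommGroup W] [Module D W]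

theorem core (hp2 : p ≠ 2) (X Y : W →ₗ[D] W) (μ : D) (hX : ∀ w, X (X w) = 0) (hY : ∀ w, Y (Y w) = 0)
    (hZ : ∀ w, X (Y w) + Y (X w) = μ • w)
    (hirr : ∀ U : AddSubgroup W, (∀ u ∈ U, X u ∈ U) → (∀ u ∈ U, Y u ∈ U) → U = ⊥ ∨ U = ⊤)
    {ω : ℕ} (hω : ¬ p ∣ ω) (hne : ∃ w, X w ≠ 0 ∨ Y w ≠ 0) (S : Submonoid (AddMonoid.End W))
    (hXS : ∀ f : AddMonoid.End W, (∀ w, f w = w + X w) → f ∈ S)
    (hYS : ∀ f : AddMonoid.End W, (∀ w, f w = w + Y w) → f ∈ S) :
    (∃ v, X v ≠ 0) ∧ ∃ τ ∈ S, (∀ v, X v = 0 → τ v = ω • v) ∧ ∀ v, X (ω • τ v - v) = 0 := by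
  classical
  -- X ≠ 0
  have hX0 : ∃ w, X w ≠ 0 := by
    by_contra h
    push Not at h
    obtain ⟨w, hw⟩ := hne
    have hYw : Y w ≠ 0 := hw.resolve_left (fun h1 => h1 (h w))
    rcases hirr Y.toAddMonoidHom.ker (fun u _ => by rw [h u]; exact AddSubgroup.zero_mem _)
      (fun u _ => hY u) with h1 | h1
    · have : Y w ∈ Y.toAddMonoidHom.ker := hY w
      rw [h1] at this
      exact hYw this
    · have : w ∈ Y.toAddMonoidHom.ker := by rw [h1]; trivial
      exact hYw this
  obtain ⟨u, hu⟩ := hX0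
  set v₀ := X u with hv₀
  have hXv : X v₀ = 0 := hX u
  have hYY : Y (Y v₀) = 0 := hY _
  have hXY : X (Y v₀) = μ • v₀ := by
    have := hZ v₀
    rwa [hXv, map_zero, add_zero] at this
  -- the span
  let U : AddSubgroup W := {
    carrier := {w | ∃ a b : D, w = a • v₀ + b • Y v₀}
    zero_mem' := ⟨0, 0, by simp⟩
    add_mem' := by
      rintro _ _ ⟨a, b, rfl⟩ ⟨c, d, rfl⟩
      exact ⟨a + c, b + d, by rw [add_smul, add_smul]; abel⟩
    neg_mem' := by
      rintro _ ⟨a, b, rfl⟩
      exact ⟨-a, -b, by rw [neg_smul, neg_smul]; abel⟩ }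
  have hU : U = ⊤ := by
    rcases hirr U (by
      rintro _ ⟨a, b, rfl⟩
      refine ⟨b * μ, 0, ?_⟩
      rw [map_add, map_smul, map_smul, hXv, hXY, smul_zero, zero_add, zero_smul, add_zero, smul_smul]) (by
      rintro _ ⟨a, b, rfl⟩
      refine ⟨0, a, ?_⟩
      rw [map_add, map_smul, map_smul, hYY, smul_zero, add_zero, zero_smul, zero_add]) with h | h
    · exfalso
      have : v₀ ∈ U := ⟨1, 0, by simp⟩
      rw [h] at this
      exact hu this
    · exact h
  have hspan : ∀ w, ∃ a b : D, w = a • v₀ + b • Y v₀ := fun w => by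
    have : w ∈ U := by rw [hU]; trivial
    exact this
  have hli : ∀ a b : D, a • v₀ + b • Y v₀ = 0 → a = 0 ∧ b = 0 := by
    intro a b h
    have h1 := congrArg Y h
    rw [map_add, map_smul, map_smul, hYY, smul_zero, add_zero, map_zero] at h1
    have hYv : Y v₀ ≠ 0 := by
      intro h2
      -- then X = 0
      obtain ⟨a, b, hab⟩ := hspan u
      apply hu
      rw [hv₀, hab, h2, smul_zero, add_zero, map_smul, hXv, smul_zero]
    have ha : a = 0 := (smul_eq_zero.1 h1).resolve_right hYv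
    rw [ha, zero_smul, zero_add] at h
    exact ⟨ha, (smul_eq_zero.1 h).resolve_right hYv⟩
  have hμ : μ ≠ 0 := by
    intro h
    obtain ⟨a, b, hab⟩ := hspan u
    apply hu
    rw [hv₀, hab, map_add, map_smul, map_smul, hXv, hXY, h, zero_smul, smul_zero, smul_zero, add_zero]
  -- the action of SL₂(D)
  let c : W ≃ (Fin 2 → D) := (Equiv.ofBijective (fun f : Fin 2 → D => f 0 • v₀ + f 1 • Y v₀) ⟨by
    intro f g hfg
    have h1 : (f 0 - g 0) • v₀ + (f 1 - g 1) • Y v₀ = 0 := by
      have hfg' : f 0 • v₀ + f 1 • Y v₀ = g 0 • v₀ + g 1 • Y v₀ := hfg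
      rw [sub_smul, sub_smul]
      calc f 0 • v₀ - g 0 • v₀ + (f 1 • Y v₀ - g 1 • Y v₀) = (f 0 • v₀ + f 1 • Y v₀) - (g 0 • v₀ + g 1 • Y v₀) := by abel
        _ = 0 := by rw [hfg', sub_self]
    have h2 := hli _ _ h1
    ext i; fin_cases i
    · exact sub_eq_zero.1 h2.1
    · exact sub_eq_zero.1 h2.2, by
    intro w
    obtain ⟨a, b, rfl⟩ := hspan w
    exact ⟨![a, b], by simp⟩⟩).symm
  have hcs : ∀ f : Fin 2 → D, c.symm f = f 0 • v₀ + f 1 • Y v₀ := fun f => rfl
  have hcadd : ∀ f g : Fin 2 → D, c.symm (f + g) = c.symm f + c.symm g := by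
    intro f g
    rw [hcs, hcs, hcs, Pi.add_apply, Pi.add_apply, add_smul, add_smul]; abel
  let θ : SL(2, D) → AddMonoid.End W := fun M =>
    { toFun := fun w => c.symm (M.1.mulVec (c w))
      map_zero' := by
        have : c 0 = 0 := by
          rw [← Equiv.eq_symm_apply, hcs]; simp
        rw [this, Matrix.mulVec_zero, hcs]; simp
      map_add' := by
        intro a b
        rw [← hcadd, ← Matrix.mulVec_add]
        congr 2
        rw [← Equiv.eq_symm_apply, hcadd, Equiv.symm_apply_apply, Equiv.symm_apply_apply] }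
  have hθ : ∀ (M : SL(2, D)) (f : Fin 2 → D), θ M (c.symm f) = c.symm (M.1.mulVec f) := by
    intro M f
    show c.symm (M.1.mulVec (c (c.symm f))) = _
    rw [Equiv.apply_symm_apply]
  have hθmul : ∀ M N : SL(2, D), θ (M * N) = θ M * θ N := by
    intro M N
    ext w
    obtain ⟨f, rfl⟩ := c.symm.surjective w
    rw [hθ]
    show _ = θ M (θ N (c.symm f))
    rw [hθ, hθ, Matrix.mulVec_mulVec]
    rfl
  have hθone : θ 1 = 1 := by
    ext w
    obtain ⟨f, rfl⟩ := c.symm.surjective w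
    rw [hθ]
    show c.symm ((1 : Matrix (Fin 2) (Fin 2) D).mulVec f) = c.symm f
    rw [Matrix.one_mulVec]
  let H : Subgroup SL(2, D) := Subgroup.closure {H85.SL2.up μ, H85.SL2.lo 1}
  have hHS : ∀ M ∈ H, θ M ∈ S := by
    intro M hM
    induction hM using Subgroup.closure_induction with
    | mem M hM =>
      rcases hM with rfl | rfl
      · apply hXS
        intro w
        obtain ⟨f, rfl⟩ := c.symm.surjective w
        rw [hθ]
        rw [hcs, hcs, map_add, map_smul, map_smul, hXv, hXY]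
        simp [Matrix.mulVec, dotProduct, Fin.sum_univ_two]
        rw [add_smul, smul_smul, mul_comm μ]; abel
      · apply hYS
        intro w
        obtain ⟨f, rfl⟩ := c.symm.surjective w
        rw [hθ]
        rw [hcs, hcs, map_add, map_smul, map_smul, hYY]
        simp [Matrix.mulVec, dotProduct, Fin.sum_univ_two]
        rw [add_smul]; abel
    | one => rw [hθone]; exact S.one_mem
    | mul M N _ _ h1 h2 => rw [hθmul]; exact S.mul_mem h1 h2
    | inv M _ h1 =>
      have h2 : ∀ n : ℕ, θ (M ^ n) ∈ S := by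
        intro n
        induction n with
        | zero => rw [pow_zero, hθone]; exact S.one_mem
        | succ n ih => rw [pow_succ, hθmul]; exact S.mul_mem ih h1
      have h3 : M⁻¹ = M ^ (orderOf M - 1) := by
        rw [inv_eq_iff_mul_eq_one, ← pow_succ', Nat.sub_add_cancel (orderOf_pos M), pow_orderOf_eq_one]
      rw [h3]; exact h2 _
  have hgood : Good p H := by
    refine dickson hp2 (x := H85.SL2.up μ) (y := H85.SL2.lo 1) (Subgroup.subset_closure (by simp)) (Subgroup.subset_closure (by simp)) ?_ ?_ ?_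
    · rw [H85.SL2.up_pow, CharP.cast_eq_zero, zero_mul, H85.SL2.up_zero]
    · rw [H85.SL2.lo_pow, CharP.cast_eq_zero, zero_mul, H85.SL2.lo_zero]
    · intro h
      have h1 : (H85.SL2.up μ * H85.SL2.lo 1).1 0 0 = (H85.SL2.lo 1 * H85.SL2.up μ).1 0 0 := by rw [h]
      rw [mul_apply2, mul_apply2] at h1
      simp at h1
      exact hμ h1
  have hω0 : (ω : ZMod p) ≠ 0 := fun h => hω ((ZMod.natCast_eq_zero_iff _ _).1 h)
  obtain ⟨τ, hτ, hτ10, hτ00⟩ := torus_mat (p := p) hμ (H := H) (Subgroup.subset_closure (by simp)) hgood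
    (ω := (ω : ZMod p)) (ω' := (ω : ZMod p)⁻¹) (mul_inv_cancel₀ hω0)
  obtain ⟨τ, hτ, hτ10, hτ00⟩ : ∃ τ ∈ H, τ.1 1 0 = 0 ∧ τ.1 0 0 = (ω : D) := by
    rcases hτ00 with h | h
    · exact ⟨τ, hτ, hτ10, by rw [h]; simp⟩
    · refine ⟨τ⁻¹, H.inv_mem hτ, ?_, ?_⟩
      · rw [Matrix.SpecialLinearGroup.SL2_inv_expl]
        simp [hτ10]
      · rw [Matrix.SpecialLinearGroup.SL2_inv_expl]
        have h1 := τ.2
        rw [Matrix.det_fin_two, hτ10, h, mul_zero, sub_zero] at h1
        have h2 : (ZMod.castHom (dvd_refl p) D) ((ω : ZMod p)) * (ZMod.castHom (dvd_refl p) D) ((ω : ZMod p)⁻¹) = 1 := by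
          rw [← map_mul, mul_inv_cancel₀ hω0, map_one]
        have h3 : τ.1 1 1 = (ZMod.castHom (dvd_refl p) D) ((ω : ZMod p)) := by
          calc τ.1 1 1 = ((ZMod.castHom (dvd_refl p) D) ((ω : ZMod p)) * (ZMod.castHom (dvd_refl p) D) ((ω : ZMod p)⁻¹)) * τ.1 1 1 := by rw [h2, one_mul]
            _ = (ZMod.castHom (dvd_refl p) D) ((ω : ZMod p)) * ((ZMod.castHom (dvd_refl p) D) ((ω : ZMod p)⁻¹) * τ.1 1 1) := by ring
            _ = _ := by rw [h1, mul_one]
        simp only [Matrix.of_apply, Matrix.cons_val', Matrix.cons_val_zero, Matrix.empty_val', Matrix.cons_val_fin_one]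
        rw [h3, map_natCast]
  have hτ11 : (ω : D) * τ.1 1 1 = 1 := by
    have := τ.2
    rw [Matrix.det_fin_two, hτ10, hτ00, mul_zero, sub_zero] at this
    exact this
  refine ⟨⟨u, hu⟩, θ τ, hHS τ hτ, ?_, ?_⟩
  · intro v hv
    obtain ⟨f, rfl⟩ := c.symm.surjective v
    have hf1 : f 1 = 0 := by
      rw [hcs, map_add, map_smul, map_smul, hXv, hXY, smul_zero, zero_add, smul_smul] at hv
      rcases smul_eq_zero.1 hv with h | h
      · exact (mul_eq_zero.1 h).resolve_right hμ
      · exact absurd h hu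
    rw [hθ, hcs, hcs]
    simp [Matrix.mulVec, dotProduct, Fin.sum_univ_two, hf1, hτ10, hτ00]
    rw [mul_smul, Nat.cast_smul_eq_nsmul]
  · intro v
    obtain ⟨f, rfl⟩ := c.symm.surjective v
    rw [hθ, hcs, hcs]
    simp only [Matrix.mulVec, dotProduct, Fin.sum_univ_two, map_sub, map_nsmul, map_add, map_smul, hXv, hXY, smul_zero, zero_add, hτ10, zero_mul]
    rw [← Nat.cast_smul_eq_nsmul D, smul_smul, smul_smul, smul_smul, ← sub_smul]
    simp
    left; linear_combination (f 1 * μ) * hτ11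

end core

/-- Schur + Wedderburn: the general version -/
theorem exists_pair {p : ℕ} [hp : Fact p.Prime] (hp2 : p ≠ 2) {W : Type*} [AddCommGroup W] [Finite W]
    (hpW : ∀ w : W, p • w = 0) (X Y : AddMonoid.End W) (hX : ∀ w, X (X w) = 0) (hY : ∀ w, Y (Y w) = 0)
    (hirr : ∀ U : AddSubgroup W, (∀ u ∈ U, X u ∈ U) → (∀ u ∈ U, Y u ∈ U) → U = ⊥ ∨ U = ⊤)
    {ω : ℕ} (hω : ¬ p ∣ ω) (hne : ∃ w, X w ≠ 0 ∨ Y w ≠ 0) (S : Submonoid (AddMonoid.End W)) (hXS : 1 + X ∈ S) (hYS : 1 + Y ∈ S) :
    (∃ v, X v ≠ 0) ∧ ∃ τ ∈ S, (∀ v, X v = 0 → τ v = ω • v) ∧ ∀ v, X (ω • τ v - v) = 0 := by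
  classical
  let A : Subring (AddMonoid.End W) := Subring.closure {X, Y}
  have hXA : X ∈ A := Subring.subset_closure (by simp)
  have hYA : Y ∈ A := Subring.subset_closure (by simp)
  have hnt : Nontrivial W := by
    obtain ⟨w, hw⟩ := hne
    rcases hw with h | h
    · exact ⟨X w, 0, h⟩
    · exact ⟨Y w, 0, h⟩
  have hsimple : IsSimpleModule A W := by
    rw [isSimpleModule_iff]
    have : Nontrivial (Submodule A W) := inferInstance
    refine ⟨fun U => ?_⟩
    rcases hirr U.toAddSubgroup (fun u hu => U.smul_mem (⟨X, hXA⟩ : A) hu) (fun u hu => U.smul_mem (⟨Y, hYA⟩ : A) hu) with h | h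
    · left
      rw [eq_bot_iff]
      intro u hu
      have : u ∈ U.toAddSubgroup := hu
      rw [h] at this
      exact this
    · right
      rw [eq_top_iff]
      intro u _
      have : u ∈ U.toAddSubgroup := by rw [h]; trivial
      exact this
  let D := Module.End A W
  have : Finite D := by
    have : Function.Injective (fun f : D => (f : W → W)) := fun f g h => LinearMap.ext (fun w => congrFun h w)
    exact Finite.of_injective _ this
  letI : DivisionRing D := Module.End.instDivisionRing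
  letI : Field D := littleWedderburn D
  have : CharP D p := by
    rw [CharP.charP_iff_prime_eq_zero hp.out]
    apply LinearMap.ext
    intro w
    have h1 : ((p : ℕ) : D) w = p • w := by
      rw [← nsmul_one]
      rfl
    rw [h1, hpW]; rfl
  let X' : W →ₗ[D] W :=
    { toFun := fun w => X w
      map_add' := fun a b => map_add X a b
      map_smul' := fun d w => (d.map_smul (⟨X, hXA⟩ : A) w).symm }
  let Y' : W →ₗ[D] W :=
    { toFun := fun w => Y w
      map_add' := fun a b => map_add Y a b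
      map_smul' := fun d w => (d.map_smul (⟨Y, hYA⟩ : A) w).symm }
  have hcomm : ∀ a ∈ A, (X * Y + Y * X) * a = a * (X * Y + Y * X) := by
    intro a ha
    have hX2 : X * X = 0 := by ext w; exact hX w
    have hY2 : Y * Y = 0 := by ext w; exact hY w
    induction ha using Subring.closure_induction with
    | mem a ha =>
      rcases ha with rfl | rfl
      · rw [add_mul, mul_add, mul_assoc Y, hX2, mul_zero, add_zero, ← mul_assoc a a, hX2, zero_mul, zero_add, mul_assoc]
      · rw [add_mul, mul_add, mul_assoc X, hY2, mul_zero, zero_add, ← mul_assoc a a, hY2, zero_mul, add_zero, mul_assoc]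
    | zero => rw [mul_zero, zero_mul]
    | one => rw [mul_one, one_mul]
    | add a b _ _ h1 h2 => rw [mul_add, h1, h2, ← add_mul]
    | neg a _ h1 => rw [mul_neg, neg_mul, h1]
    | mul a b _ _ h1 h2 => rw [← mul_assoc, h1, mul_assoc, h2, mul_assoc]
  let μ : D :=
    { toFun := fun w => X (Y w) + Y (X w)
      map_add' := fun a b => by rw [map_add, map_add, map_add, map_add]; abel
      map_smul' := fun a w => by
        have := DFunLike.congr_fun (hcomm a.1 a.2) w
        exact this }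
  exact core (D := D) hp2 X' Y' μ hX hY (fun w => rfl) hirr hω hne S
    (fun f hf => by
      have : f = 1 + X := by ext w; rw [hf]; rfl
      rw [this]; exact hXS)
    (fun f hf => by
      have : f = 1 + Y := by ext w; rw [hf]; rfl
      rw [this]; exact hYS)


end H78.Zf
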