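import Cfsg.Agent.Lib.H78.ZfA

/-! A section of a finite abelian `p`-group on which a quadratic pair acts irreducibly, with a torus element. -/

set_option autoImplicit false

namespace H78.Zf

section uni

variable {A : Type*} [AddCommGroup A] [Finite A] {p : ℕ} [hp : Fact p.Prime]

/-- invariance under two endomorphisms -/
def Inv2 (a b : AddMonoid.End A) (N : AddSubgroup A) : Prop := (∀ v ∈ N, a v ∈ N) ∧ ∀ v ∈ N, b v ∈ N

theorem Inv2.closure {a b : AddMonoid.End A} {N : AddSubgroup A} (h : Inv2 a b N) {g : AddMonoid.End A}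
    (hg : g ∈ Submonoid.closure {1 + a, 1 + b}) : ∀ v ∈ N, g v ∈ N := by
  induction hg using Submonoid.closure_induction with
  | mem x hx =>
    rcases hx with rfl | rfl
    · intro v hv; exact N.add_mem hv (h.1 v hv)
    · intro v hv; exact N.add_mem hv (h.2 v hv)
  | one => intro v hv; exact hv
  | mul x y _ _ h1 h2 => intro v hv; exact h1 _ (h2 v hv)

theorem unip {a b : AddMonoid.End A} (hA : ∀ v : A, ∃ k : ℕ, p ^ k • v = 0) (ha : ∀ v, a (a v) = 0)
    (hb : ∀ v, b (b v) = 0) {g : AddMonoid.End A} (hg : g ∈ Submonoid.closure {1 + a, 1 + b}) {m : ℕ}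
    (hm : ¬ p ∣ m) (hgm : g ^ m = 1) : ∀ (n : ℕ) (N : AddSubgroup A), Nat.card N = n → Inv2 a b N →
      (∀ v ∈ N, ∃ k : ℕ, ((a * b + b * a) ^ k) v = 0) → ∀ v ∈ N, g v = v := by
  intro n
  induction n using Nat.strong_induction_on with
  | _ n ih =>
  intro N hN hinv hnil
  by_cases hN0 : N = ⊥
  · intro v hv
    rw [hN0, AddSubgroup.mem_bot] at hv
    rw [hv, map_zero]
  set N' : AddSubgroup A := N.map a ⊔ N.map b with hN'
  have hle : N' ≤ N := by
    rw [hN', sup_le_iff]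
    constructor
    · rintro _ ⟨v, hv, rfl⟩; exact hinv.1 v hv
    · rintro _ ⟨v, hv, rfl⟩; exact hinv.2 v hv
  have haN : ∀ v ∈ N, a v ∈ N' := fun v hv => AddSubgroup.mem_sup_left ⟨v, hv, rfl⟩
  have hbN : ∀ v ∈ N, b v ∈ N' := fun v hv => AddSubgroup.mem_sup_right ⟨v, hv, rfl⟩
  have hinv' : Inv2 a b N' := ⟨fun v hv => haN v (hle hv), fun v hv => hbN v (hle hv)⟩
  have hne : N' ≠ N := by
    intro heq
    have key : ∀ (c d : AddMonoid.End A), (∀ v, c (c v) = 0) → (∀ v, d (d v) = 0) → N = N.map c ⊔ N.map d →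
        (∀ v ∈ N, ∃ k : ℕ, ((c * d + d * c) ^ k) v = 0) → N.map c = ⊥ := by
      intro c d hc hd hcd hn
      have hdN : ∀ v ∈ N, ∃ w ∈ N, d v = d (c w) := by
        intro v hv
        rw [hcd] at hv
        obtain ⟨x, ⟨w, hw, rfl⟩, y, ⟨w', hw', rfl⟩, rfl⟩ := AddSubgroup.mem_sup.1 hv
        have h0 : d (c w + d w') = d (c w) := by rw [map_add, hd, add_zero]
        exact ⟨w, hw, h0⟩
      have hcN : ∀ v ∈ N, ∃ w ∈ N, c v = c (d w) := by
        intro v hv
        rw [hcd] at hv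
        obtain ⟨x, ⟨w, hw, rfl⟩, y, ⟨w', hw', rfl⟩, rfl⟩ := AddSubgroup.mem_sup.1 hv
        have h0 : c (c w + d w') = c (d w') := by rw [map_add, hc, zero_add]
        exact ⟨w', hw', h0⟩
      have hcle : ∀ v ∈ N.map c, c v = 0 := by
        rintro _ ⟨v, hv, rfl⟩
        exact hc v
      have hmem : ∀ v ∈ N, c v ∈ N := by
        intro v hv
        rw [hcd]
        exact AddSubgroup.mem_sup_left ⟨v, hv, rfl⟩
      have hmemd : ∀ v ∈ N, d v ∈ N := by
        intro v hv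
        rw [hcd]
        exact AddSubgroup.mem_sup_right ⟨v, hv, rfl⟩
      have hθ : ∀ v ∈ N.map c, (c * d + d * c) v ∈ N.map c := by
        intro v hv
        have : (c * d + d * c) v = c (d v) + d (c v) := rfl
        rw [this, hcle v hv, map_zero, add_zero]
        obtain ⟨w, hw, rfl⟩ := hv
        exact ⟨d (c w), hmemd _ (hmem _ hw), rfl⟩
      let f : N.map c → N.map c := fun v => ⟨(c * d + d * c) v.1, hθ v.1 v.2⟩
      have hsurj : Function.Surjective f := by
        rintro ⟨_, v, hv, rfl⟩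
        obtain ⟨w, hw, h1⟩ := hcN v hv
        obtain ⟨w', hw', h2⟩ := hdN w hw
        refine ⟨⟨c w', w', hw', rfl⟩, Subtype.ext ?_⟩
        show c (d (c w')) + d (c (c w')) = c v
        rw [hc, map_zero, add_zero, h1, h2]
      have hinj : Function.Injective f := Finite.injective_iff_surjective.2 hsurj
      rw [eq_bot_iff]
      intro v hv
      obtain ⟨k, hk⟩ := hn v (by rw [hcd]; exact AddSubgroup.mem_sup_left hv)
      rw [AddSubgroup.mem_bot]
      clear hsurj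
      induction k generalizing v with
      | zero => simpa using hk
      | succ k ihk =>
        have h1 : f ⟨v, hv⟩ = 0 := by
          apply Subtype.ext
          show (c * d + d * c) v = 0
          rw [pow_succ] at hk
          exact ihk (hθ v hv) hk
        have h2 : f 0 = 0 := by
          apply Subtype.ext
          show (c * d + d * c) 0 = 0
          exact map_zero _
        have := hinj (h1.trans h2.symm)
        exact congrArg Subtype.val this
    apply hN0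
    have e1 := key a b ha hb heq.symm hnil
    have e2 := key b a hb ha (by rw [sup_comm]; exact heq.symm) (by
      intro v hv
      obtain ⟨k, hk⟩ := hnil v hv
      exact ⟨k, by rw [add_comm]; exact hk⟩)
    rw [← heq, hN', e1, e2, bot_sup_eq]
  have hlt : Nat.card N' < n := by
    rw [← hN]
    exact Set.Finite.card_lt_card (Set.toFinite _) (SetLike.coe_ssubset_coe.2 (lt_of_le_of_ne hle hne))
  have hfix := ih _ hlt N' rfl hinv' (fun v hv => hnil v (hle hv))
  have hdiff : ∀ v ∈ N, g v - v ∈ N' := by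
    clear hgm hfix ih
    induction hg using Submonoid.closure_induction with
    | mem x hx =>
      rcases hx with rfl | rfl
      · intro v hv
        have : (1 + a) v - v = a v := by
          show v + a v - v = a v
          abel
        rw [this]; exact haN v hv
      · intro v hv
        have : (1 + b) v - v = b v := by
          show v + b v - v = b v
          abel
        rw [this]; exact hbN v hv
    | one => intro v hv; rw [show (1 : AddMonoid.End A) v = v from rfl, sub_self]; exact zero_mem _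
    | mul x y hx hy h1 h2 =>
      intro v hv
      have : (x * y) v - v = (x (y v) - y v) + (y v - v) := by
        show x (y v) - v = _
        abel
      rw [this]
      exact add_mem (h1 _ (hinv.closure hy v hv)) (h2 v hv)
  intro v hv
  set w := g v - v with hw
  have hgw : g w = w := hfix w (hdiff v hv)
  have hpow : ∀ i : ℕ, (g ^ i) v = v + i • w := by
    intro i
    induction i with
    | zero => simp
    | succ i ihi =>
      rw [pow_succ']
      show g ((g ^ i) v) = _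
      rw [ihi, map_add, map_nsmul, hgw, succ_nsmul]
      rw [show g v = v + w by rw [hw]; abel]
      abel
  have h1 : m • w = 0 := by
    have := hpow m
    rw [hgm] at this
    have h2 : v + 0 = v + m • w := by rw [add_zero]; exact this
    exact (add_left_cancel h2).symm
  obtain ⟨k, hk⟩ := hA w
  have hcop : Nat.Coprime (p ^ k) m := Nat.Coprime.pow_left _ ((Nat.Prime.coprime_iff_not_dvd hp.out).2 hm)
  have h3 : addOrderOf w ∣ 1 := by
    rw [← hcop.gcd_eq_one]
    exact Nat.dvd_gcd (addOrderOf_dvd_of_nsmul_eq_zero hk) (addOrderOf_dvd_of_nsmul_eq_zero h1)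
  have h4 : w = 0 := by
    have := Nat.dvd_one.1 h3
    rwa [AddMonoid.addOrderOf_eq_one_iff] at this
  rw [hw, sub_eq_zero] at h4
  exact h4

/-- the section -/
theorem sec (hp2 : p ≠ 2) {a b : AddMonoid.End A} (hA : ∀ v : A, ∃ k : ℕ, p ^ k • v = 0) (ha : ∀ v, a (a v) = 0)
    (hb : ∀ v, b (b v) = 0) {ω : ℕ} (hω : ¬ p ∣ ω) {g : AddMonoid.End A}
    (hg : g ∈ Submonoid.closure {1 + a, 1 + b}) {m : ℕ}
    (hm : ¬ p ∣ m) (hgm : g ^ m = 1) {u : A} (hu : g u ≠ u) :
    ∃ Va Vb : AddSubgroup A, Vb ≤ Va ∧ Inv2 a b Va ∧ Inv2 a b Vb ∧ u ∈ Va ∧ u ∉ Vb ∧ (∀ v ∈ Va, p • v ∈ Vb) ∧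
      (∃ v ∈ Va, a v ∉ Vb) ∧ ∃ τ ∈ Submonoid.closure {1 + a, 1 + b}, (∀ v ∈ Va, a v ∈ Vb → τ v - ω • v ∈ Vb) ∧
        ∀ v ∈ Va, a (ω • τ v - v) ∈ Vb := by
  classical
  set θ := a * b + b * a with hθ
  have hθv : ∀ v, θ v = a (b v) + b (a v) := fun v => rfl
  have hca : ∀ v, θ (a v) = a (θ v) := by
    intro v; rw [hθv, hθv, ha, map_zero, add_zero, map_add, ha, zero_add]
  have hcb : ∀ v, θ (b v) = b (θ v) := by
    intro v; rw [hθv, hθv, hb, map_zero, zero_add, map_add, hb, add_zero]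
  have hcak : ∀ (k : ℕ) v, (θ ^ k) (a v) = a ((θ ^ k) v) := by
    intro k
    induction k with
    | zero => intro v; rfl
    | succ k ih => intro v; rw [pow_succ']; show θ ((θ ^ k) (a v)) = a (θ ((θ ^ k) v)); rw [ih, hca]
  have hcbk : ∀ (k : ℕ) v, (θ ^ k) (b v) = b ((θ ^ k) v) := by
    intro k
    induction k with
    | zero => intro v; rfl
    | succ k ih => intro v; rw [pow_succ']; show θ ((θ ^ k) (b v)) = b (θ ((θ ^ k) v)); rw [ih, hcb]
  have hup : ∀ (k l : ℕ) v, (θ ^ k) v = 0 → (θ ^ (l + k)) v = 0 := by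
    intro k l v h
    rw [pow_add]
    show (θ ^ l) ((θ ^ k) v) = 0
    rw [h, map_zero]
  let V0 : AddSubgroup A := {
    carrier := {v | ∃ k : ℕ, (θ ^ k) v = 0}
    zero_mem' := ⟨0, map_zero _⟩
    add_mem' := by
      rintro x y ⟨k, hk⟩ ⟨l, hl⟩
      refine ⟨l + k, ?_⟩
      rw [map_add, hup _ _ _ hk, add_comm l, hup _ _ _ hl, add_zero]
    neg_mem' := by
      rintro x ⟨k, hk⟩
      exact ⟨k, by rw [map_neg, hk, neg_zero]⟩ }
  have hV0 : Inv2 a b V0 := by
    constructor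
    · rintro v ⟨k, hk⟩
      exact ⟨k, by rw [hcak, hk, map_zero]⟩
    · rintro v ⟨k, hk⟩
      exact ⟨k, by rw [hcbk, hk, map_zero]⟩
  have hu0 : u ∉ V0 := fun h => hu (unip hA ha hb hg hm hgm _ V0 rfl hV0 (fun v hv => hv) u h)
  have : Finite (AddSubgroup A) := inferInstance
  obtain ⟨Vb, -, hVb⟩ := (Set.toFinite {N : AddSubgroup A | Inv2 a b N ∧ V0 ≤ N ∧ u ∉ N}).exists_le_maximal
    (show V0 ∈ {N : AddSubgroup A | Inv2 a b N ∧ V0 ≤ N ∧ u ∉ N} from ⟨hV0, le_rfl, hu0⟩)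
  obtain ⟨Va, -, hVa⟩ := (Set.toFinite {N : AddSubgroup A | Inv2 a b N ∧ Vb ≤ N ∧ u ∈ N}).exists_le_minimal
    (show (⊤ : AddSubgroup A) ∈ {N : AddSubgroup A | Inv2 a b N ∧ Vb ≤ N ∧ u ∈ N} from
      ⟨⟨fun _ _ => trivial, fun _ _ => trivial⟩, le_top, trivial⟩)
  obtain ⟨⟨hb1, hb2, hb3⟩, hbmax⟩ := hVb
  obtain ⟨⟨ha1, ha2, ha3⟩, hamin⟩ := hVa
  have hirr : ∀ N : AddSubgroup A, Inv2 a b N → Vb ≤ N → N ≤ Va → N = Vb ∨ N = Va := by
    intro N hN h1 h2
    by_cases huN : u ∈ N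
    · right; exact le_antisymm h2 (hamin ⟨hN, h1, huN⟩ h2)
    · left; exact le_antisymm (hbmax ⟨hN, hb2.trans h1, huN⟩ h1) h1
  have hnontriv : ∃ v ∈ Va, a v ∉ Vb ∨ b v ∉ Vb := by
    by_contra hcon
    push Not at hcon
    have : Finite (AddMonoid.End A) := Finite.of_injective (fun f : AddMonoid.End A => (f : A → A)) DFunLike.coe_injective
    obtain ⟨i, j, hij, heq⟩ := Finite.exists_ne_map_eq_of_infinite (fun i : ℕ => θ ^ i)
    wlog hlt : i < j generalizing i j
    · exact this j i hij.symm heq.symm (lt_of_le_of_ne (not_lt.1 hlt) hij.symm)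
    obtain ⟨l, rfl⟩ := Nat.exists_eq_add_of_lt hlt
    have h1 : u - (θ ^ (l + 1)) u ∈ V0 := by
      refine ⟨i, ?_⟩
      rw [map_sub]
      have h2 : (θ ^ i) ((θ ^ (l + 1)) u) = (θ ^ (i + l + 1)) u := by
        rw [add_assoc, pow_add θ i]; rfl
      rw [h2]
      have h3 : θ ^ i = θ ^ (i + l + 1) := heq
      rw [← h3, sub_self]
    have h4 : ∀ k : ℕ, (θ ^ (k + 1)) u ∈ Vb := by
      intro k
      induction k with
      | zero =>
        rw [zero_add, pow_one, hθv]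
        exact Vb.add_mem (hcon _ (ha1.2 _ ha3)).1 (hcon _ (ha1.1 _ ha3)).2
      | succ k ih =>
        rw [pow_succ']
        show θ ((θ ^ (k + 1)) u) ∈ Vb
        rw [hθv]
        exact Vb.add_mem (hb1.1 _ (hb1.2 _ ih)) (hb1.2 _ (hb1.1 _ ih))
    apply hb3
    have := Vb.add_mem (hb2 h1) (h4 l)
    rwa [sub_add_cancel] at this
  have hpV : ∀ v ∈ Va, p • v ∈ Vb := by
    let N : AddSubgroup A := {
      carrier := {v | v ∈ Va ∧ p • v ∈ Vb}
      zero_mem' := ⟨zero_mem _, by rw [nsmul_zero]; exact zero_mem _⟩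
      add_mem' := by
        rintro x y ⟨h1, h2⟩ ⟨h3, h4⟩
        exact ⟨add_mem h1 h3, by rw [nsmul_add]; exact add_mem h2 h4⟩
      neg_mem' := by
        rintro x ⟨h1, h2⟩
        exact ⟨neg_mem h1, by rw [smul_neg]; exact neg_mem h2⟩ }
    have hN : Inv2 a b N :=
      ⟨fun v hv => ⟨ha1.1 v hv.1, by rw [← map_nsmul]; exact hb1.1 _ hv.2⟩,
        fun v hv => ⟨ha1.2 v hv.1, by rw [← map_nsmul]; exact hb1.2 _ hv.2⟩⟩
    rcases hirr N hN (fun v hv => ⟨ha2 hv, nsmul_mem hv _⟩) (fun v hv => hv.1) with h | h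
    · exfalso
      have h5 : ∃ k : ℕ, p ^ k • u ∈ Vb := by
        obtain ⟨k, hk⟩ := hA u
        exact ⟨k, by rw [hk]; exact zero_mem _⟩
      have h6 := Nat.find_spec h5
      have h7 : Nat.find h5 ≠ 0 := by
        intro h0
        rw [h0, pow_zero, one_nsmul] at h6
        exact hb3 h6
      obtain ⟨l, hl⟩ := Nat.exists_eq_succ_of_ne_zero h7
      have h8 : p ^ l • u ∉ Vb := Nat.find_min h5 (by rw [hl]; exact Nat.lt_succ_self l)
      apply h8
      rw [← h]
      refine ⟨nsmul_mem ha3 _, ?_⟩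
      rw [smul_smul, ← pow_succ', ← Nat.succ_eq_add_one, ← hl]
      exact h6
    · intro v hv
      rw [← h] at hv
      exact hv.2
  -- the quotient
  let K := Vb.addSubgroupOf Va
  let W := Va ⧸ K
  have hmk : ∀ v w : Va, (QuotientAddGroup.mk' K v = QuotientAddGroup.mk' K w) ↔ (v : A) - w ∈ Vb := by
    intro v w
    rw [← sub_eq_zero, ← map_sub, QuotientAddGroup.mk'_apply, QuotientAddGroup.eq_zero_iff, AddSubgroup.mem_addSubgroupOf]
    rfl
  have hmk0 : ∀ v : Va, (QuotientAddGroup.mk' K v = 0) ↔ (v : A) ∈ Vb := by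
    intro v
    rw [QuotientAddGroup.mk'_apply, QuotientAddGroup.eq_zero_iff, AddSubgroup.mem_addSubgroupOf]
  have hind : ∀ c : AddMonoid.End A, (∀ v ∈ Va, c v ∈ Va) → (∀ v ∈ Vb, c v ∈ Vb) → ∃ X : AddMonoid.End W,
      ∀ (v : A) (hv : v ∈ Va) (hv' : c v ∈ Va), X (QuotientAddGroup.mk' K ⟨v, hv⟩) = QuotientAddGroup.mk' K ⟨c v, hv'⟩ := by
    intro c h1 h2
    let c' : Va →+ Va := { toFun := fun v => ⟨c v.1, h1 v.1 v.2⟩, map_zero' := Subtype.ext (map_zero c), map_add' := fun x y => Subtype.ext (map_add c _ _) }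
    refine ⟨QuotientAddGroup.map K K c' (fun v hv => ?_), fun v hv hv' => rfl⟩
    exact h2 v.1 hv
  obtain ⟨X, hX⟩ := hind a ha1.1 hb1.1
  obtain ⟨Y, hY⟩ := hind b ha1.2 hb1.2
  let S : Submonoid (AddMonoid.End W) := {
    carrier := {f | ∃ s ∈ Submonoid.closure {1 + a, 1 + b}, ∀ (v : A) (hv : v ∈ Va) (hv' : s v ∈ Va), f (QuotientAddGroup.mk' K ⟨v, hv⟩) = QuotientAddGroup.mk' K ⟨s v, hv'⟩}
    one_mem' := ⟨1, one_mem _, fun v hv hv' => rfl⟩
    mul_mem' := by
      rintro f f' ⟨s, hs, h⟩ ⟨s', hs', h'⟩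
      refine ⟨s * s', mul_mem hs hs', fun v hv hv' => ?_⟩
      show f (f' _) = _
      rw [h' v hv (ha1.closure hs' v hv), h _ _ (ha1.closure hs _ (ha1.closure hs' v hv))]
      rfl }
  have hsurj := QuotientAddGroup.mk'_surjective K
  obtain ⟨hX0, τ, ⟨t, ht, hτt⟩, hτ1, hτ2⟩ := exists_pair (p := p) hp2 (W := W) (by
      intro w
      obtain ⟨⟨v, hv⟩, rfl⟩ := hsurj w
      rw [← map_nsmul, hmk0]
      exact hpV v hv) X Y (by
      intro w
      obtain ⟨⟨v, hv⟩, rfl⟩ := hsurj w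
      rw [hX v hv (ha1.1 v hv), hX _ _ (ha1.1 _ (ha1.1 v hv)), hmk0]
      show a (a v) ∈ Vb
      rw [ha]; exact zero_mem _) (by
      intro w
      obtain ⟨⟨v, hv⟩, rfl⟩ := hsurj w
      rw [hY v hv (ha1.2 v hv), hY _ _ (ha1.2 _ (ha1.2 v hv)), hmk0]
      show b (b v) ∈ Vb
      rw [hb]; exact zero_mem _) (by
      intro U hUX hUY
      let N : AddSubgroup A := (U.comap (QuotientAddGroup.mk' K)).map Va.subtype
      have hN : ∀ v, v ∈ N ↔ ∃ hv : v ∈ Va, QuotientAddGroup.mk' K ⟨v, hv⟩ ∈ U := by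
        intro v
        constructor
        · rintro ⟨⟨w, hw⟩, h1, rfl⟩
          exact ⟨hw, h1⟩
        · rintro ⟨hv, h1⟩
          exact ⟨⟨v, hv⟩, h1, rfl⟩
      rcases hirr N ⟨fun v hv => by
          obtain ⟨h1, h2⟩ := (hN v).1 hv
          refine (hN _).2 ⟨ha1.1 v h1, ?_⟩
          rw [← hX v h1]
          exact hUX _ h2, fun v hv => by
          obtain ⟨h1, h2⟩ := (hN v).1 hv
          refine (hN _).2 ⟨ha1.2 v h1, ?_⟩
          rw [← hY v h1]
          exact hUY _ h2⟩ (fun v hv => (hN v).2 ⟨ha2 hv, by rw [(hmk0 ⟨v, ha2 hv⟩).2 hv]; exact zero_mem _⟩)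
          (fun v hv => ((hN v).1 hv).1) with h | h
      · left
        rw [eq_bot_iff]
        intro w hw
        obtain ⟨⟨v, hv⟩, rfl⟩ := hsurj w
        rw [AddSubgroup.mem_bot, hmk0, ← h]
        exact (hN v).2 ⟨hv, hw⟩
      · right
        rw [eq_top_iff]
        intro w _
        obtain ⟨⟨v, hv⟩, rfl⟩ := hsurj w
        have h1 : v ∈ N := by rw [h]; exact hv
        exact ((hN v).1 h1).2) hω (by
      obtain ⟨v, hv, h1⟩ := hnontriv
      refine ⟨QuotientAddGroup.mk' K ⟨v, hv⟩, ?_⟩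
      rw [hX v hv (ha1.1 v hv), hY v hv (ha1.2 v hv), Ne, Ne, hmk0, hmk0]
      exact h1) S
      ⟨1 + a, Submonoid.subset_closure (by simp), fun v hv hv' => by
        show QuotientAddGroup.mk' K ⟨v, hv⟩ + X (QuotientAddGroup.mk' K ⟨v, hv⟩) = _
        rw [hX v hv (ha1.1 v hv), ← map_add]
        rfl⟩
      ⟨1 + b, Submonoid.subset_closure (by simp), fun v hv hv' => by
        show QuotientAddGroup.mk' K ⟨v, hv⟩ + Y (QuotientAddGroup.mk' K ⟨v, hv⟩) = _
        rw [hY v hv (ha1.2 v hv), ← map_add]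
        rfl⟩
  refine ⟨Va, Vb, ha2, ha1, hb1, ha3, hb3, hpV, ?_, t, ht, ?_, ?_⟩
  · obtain ⟨w, hw⟩ := hX0
    obtain ⟨⟨v, hv⟩, rfl⟩ := hsurj w
    rw [hX v hv (ha1.1 v hv), Ne, hmk0] at hw
    exact ⟨v, hv, hw⟩
  · intro v hv h1
    have h2 := hτ1 (QuotientAddGroup.mk' K ⟨v, hv⟩) (by rw [hX v hv (ha1.1 v hv), hmk0]; exact h1)
    rw [hτt v hv (ha1.closure ht v hv), ← map_nsmul, hmk] at h2
    exact h2
  · intro v hv
    have h2 := hτ2 (QuotientAddGroup.mk' K ⟨v, hv⟩)
    rw [hτt v hv (ha1.closure ht v hv), ← map_nsmul, ← map_sub] at h2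
    have h3 : (ω • t v - v) ∈ Va := Va.sub_mem (nsmul_mem (ha1.closure ht v hv) _) hv
    have h4 := hX (ω • t v - v) h3 (ha1.1 _ h3)
    have h5 : (ω • (⟨t v, ha1.closure ht v hv⟩ : Va) - ⟨v, hv⟩) = ⟨ω • t v - v, h3⟩ := rfl
    rw [h5, h4, hmk0] at h2
    exact h2

end uni

end H78.Zf
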