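import Mathlib

/-! Averaging over a `p'`-automorphism. -/

set_option autoImplicit false

namespace H78.Zf

theorem avg {A : Type*} [CommGroup A] [Finite A] {p : ℕ} [hp : Fact p.Prime] (hA : IsPGroup p A) (T : A ≃* A) {m : ℕ}
    (hm : ¬ p ∣ m) (hT : ∀ a, (T ^ m) a = a) (B : Subgroup A) {n : ℕ} (hn : ¬ p ∣ n)
    (hB : ∀ a, T a * (a ^ n)⁻¹ ∈ B) (hpB : ∀ a : A, a ^ p ∈ B) {u : A} (hu : u ∉ B) :
    ∃ c, c ∉ B ∧ ∃ k, k ≡ n [MOD p] ∧ T c = c ^ k := by
  classical
  let t : AddMonoid.End (Additive A) := MonoidHom.toAdditive T.toMonoidHom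
  have ht : ∀ x : Additive A, t x = Additive.ofMul (T x.toMul) := fun x => rfl
  let B' : AddSubgroup (Additive A) := Subgroup.toAddSubgroup B
  have hB' : ∀ x : Additive A, x ∈ B' ↔ x.toMul ∈ B := fun x => Iff.rfl
  have h1 : ∀ x : Additive A, t x - n • x ∈ B' := by
    intro x
    rw [hB', sub_eq_add_neg]
    exact hB x.toMul
  have h2 : ∀ x : Additive A, p • x ∈ B' := fun x => hpB x.toMul
  -- powers
  have h3 : ∀ (i : ℕ) (x : Additive A), (t ^ i) x - n ^ i • x ∈ B' := by
    intro i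
    induction i with
    | zero =>
      intro x
      have : (t ^ 0) x - n ^ 0 • x = 0 := by
        rw [pow_zero, pow_zero, one_nsmul]
        show x - x = 0
        exact sub_self x
      rw [this]; exact zero_mem _
    | succ i ih =>
      intro x
      have e : (t ^ (i + 1)) x - n ^ (i + 1) • x = ((t ^ i) (t x) - n ^ i • t x) + n ^ i • (t x - n • x) := by
        rw [pow_succ, pow_succ]
        show (t ^ i) (t x) - _ = _
        rw [smul_sub, smul_smul]
        abel
      rw [e]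
      exact add_mem (ih _) (nsmul_mem (h1 x) _)
  have htm : ∀ x, (t ^ m) x = x := by
    intro x
    have : ∀ (i : ℕ) (x : Additive A), (t ^ i) x = Additive.ofMul ((T ^ i) x.toMul) := by
      intro i
      induction i with
      | zero => intro x; rfl
      | succ i ih =>
        intro x
        rw [pow_succ, pow_succ]
        show (t ^ i) (t x) = _
        rw [ih]; rfl
    rw [this, hT]; rfl
  -- `n ^ m ≡ 1`
  let U : Additive A := Additive.ofMul u
  have hU : U ∉ B' := hu
  have hdiv : ∀ z : ℤ, z • U ∈ B' → (p : ℤ) ∣ z := by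
    intro z hz
    by_contra hcon
    have hcop : IsCoprime (p : ℤ) z := (Prime.coprime_iff_not_dvd (Nat.prime_iff_prime_int.1 hp.out)).2 hcon
    obtain ⟨r, s, hrs⟩ := hcop
    apply hU
    have : U = r • ((p : ℕ) • U) + s • (z • U) := by
      rw [← natCast_zsmul, smul_smul, smul_smul, ← add_smul, hrs, one_smul]
    rw [this]
    exact add_mem (zsmul_mem (h2 U) _) (zsmul_mem hz _)
  have hnm : (p : ℤ) ∣ ((n : ℤ) ^ m - 1) := by
    apply hdiv
    have := h3 m U
    rw [htm] at this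
    have e : ((n : ℤ) ^ m - 1) • U = -(U - n ^ m • U) := by
      rw [sub_smul, one_smul, ← Nat.cast_pow, natCast_zsmul]; abel
    rw [e]; exact neg_mem this
  obtain ⟨e, he⟩ := (IsPGroup.iff_card).1 hA
  set k := n ^ (p ^ e) with hk
  have hkn : k ≡ n [MOD p] := by
    rw [← ZMod.natCast_eq_natCast_iff, hk, Nat.cast_pow, ZMod.pow_card_pow]
  have hkm : ((p : ℤ) ^ e) ∣ ((k : ℤ) ^ m - 1) := by
    have h4 := dvd_sub_pow_of_dvd_sub (R := ℤ) (p := p) (a := (n : ℤ) ^ m) (b := 1) hnm e
    have hkz : (k : ℤ) = (n : ℤ) ^ (p ^ e) := by rw [hk]; push_cast; rfl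
    rw [one_pow, ← pow_mul, mul_comm m, pow_mul, ← hkz] at h4
    have h5 : (p : ℤ) ^ e ∣ (p : ℤ) ^ (e + 1) := pow_dvd_pow _ (Nat.le_succ e)
    refine h5.trans ?_
    exact_mod_cast h4
  have hpe : ∀ x : Additive A, ((p : ℤ) ^ e) • x = 0 := by
    intro x
    rw [← Nat.cast_pow, natCast_zsmul, ← he]
    have : x.toMul ^ Nat.card A = 1 := pow_card_eq_one'
    exact this
  have hcomm : Commute t (k : AddMonoid.End (Additive A)) := Nat.commute_cast t k
  let q : AddMonoid.End (Additive A) := ∑ i ∈ Finset.range m, t ^ i * (k : AddMonoid.End (Additive A)) ^ (m - 1 - i)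
  have hq : (t - (k : AddMonoid.End (Additive A))) * q = t ^ m - (k : AddMonoid.End (Additive A)) ^ m := hcomm.mul_geom_sum₂ m
  have hcast : ∀ (j : ℕ) (x : Additive A), ((j : ℕ) : AddMonoid.End (Additive A)) x = j • x := by
    intro j x
    exact AddMonoid.End.natCast_apply j x
  have hk' : ∀ x : Additive A, (k ^ m) • x = x := by
    intro x
    obtain ⟨z, hz⟩ := hkm
    have e1 : ((k : ℤ) ^ m - 1) • x = 0 := by rw [hz, mul_comm, mul_smul, hpe, smul_zero]
    rw [sub_smul, one_smul, sub_eq_zero, ← Nat.cast_pow, natCast_zsmul] at e1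
    exact e1
  have htc : t (q U) = k • q U := by
    have e1 : (t - (k : AddMonoid.End (Additive A))) (q U) = 0 := by
      have e2 := DFunLike.congr_fun hq U
      have e3 : ((t - (k : AddMonoid.End (Additive A))) * q) U = (t - (k : AddMonoid.End (Additive A))) (q U) := rfl
      rw [← e3, e2]
      show (t ^ m) U - ((k : AddMonoid.End (Additive A)) ^ m) U = 0
      rw [htm, ← Nat.cast_pow, hcast, hk', sub_self]
    have e4 : (t - (k : AddMonoid.End (Additive A))) (q U) = t (q U) - (k : AddMonoid.End (Additive A)) (q U) := rfl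
    rw [e4, hcast, sub_eq_zero] at e1
    exact e1
  refine ⟨(q U).toMul, ?_, k, hkn, htc⟩
  intro hmem
  have hmem' : q U ∈ B' := hmem
  -- compute mod B'
  have hqU : q U - ((m : ℤ) * (n : ℤ) ^ (m - 1)) • U ∈ B' := by
    have e1 : q U = ∑ i ∈ Finset.range m, (k ^ (m - 1 - i)) • (t ^ i) U := by
      have : q U = ∑ i ∈ Finset.range m, (t ^ i * (k : AddMonoid.End (Additive A)) ^ (m - 1 - i)) U := by
        exact AddMonoidHom.finset_sum_apply _ _ _
      rw [this]
      refine Finset.sum_congr rfl fun i _ => ?_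
      show (t ^ i) (((k : AddMonoid.End (Additive A)) ^ (m - 1 - i)) U) = _
      rw [← Nat.cast_pow, hcast, map_nsmul]
    have e2 : ((m : ℤ) * (n : ℤ) ^ (m - 1)) • U = ∑ i ∈ Finset.range m, ((n : ℤ) ^ (m - 1)) • U := by
      rw [Finset.sum_const, Finset.card_range, mul_smul, natCast_zsmul]
    rw [e1, e2, ← Finset.sum_sub_distrib]
    refine sum_mem fun i hi => ?_
    have him : i < m := Finset.mem_range.1 hi
    obtain ⟨z, hz⟩ : (p : ℤ) ∣ ((k : ℤ) ^ (m - 1 - i) - (n : ℤ) ^ (m - 1 - i)) := by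
      have := (hkn.pow (m - 1 - i)).symm.dvd
      push_cast at this
      exact this
    have e3 : k ^ (m - 1 - i) • (t ^ i) U - ((n : ℤ) ^ (m - 1)) • U =
        k ^ (m - 1 - i) • ((t ^ i) U - n ^ i • U) + z • (n ^ i • (p • U)) := by
      have e4 : (n : ℤ) ^ (m - 1) = n ^ (m - 1 - i) * n ^ i := by rw [← pow_add]; congr 1; omega
      rw [smul_sub, e4]
      have e5 : z • (n ^ i • (p • U)) = ((k : ℤ) ^ (m - 1 - i) - (n : ℤ) ^ (m - 1 - i)) • (n ^ i • U) := by
        rw [hz, ← natCast_zsmul U p, smul_comm (n ^ i) (p : ℤ) U, smul_smul, mul_comm z]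
      rw [e5, sub_smul, ← natCast_zsmul (n ^ i • U) (k ^ (m - 1 - i)), ← natCast_zsmul U (n ^ i), mul_smul]
      push_cast
      abel
    rw [e3]
    exact add_mem (nsmul_mem (h3 i U) _) (zsmul_mem (nsmul_mem (h2 U) _) _)
  have h5 : ((m : ℤ) * (n : ℤ) ^ (m - 1)) • U ∈ B' := by
    have := sub_mem hmem' hqU
    rwa [sub_sub_cancel] at this
  have h6 := hdiv _ h5
  have hpi := Nat.prime_iff_prime_int.1 hp.out
  rcases hpi.dvd_or_dvd h6 with h | h
  · exact hm (by exact_mod_cast h)
  · exact hn (by exact_mod_cast hpi.dvd_of_dvd_pow h)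

end H78.Zf
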