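import Cfsg.Agent.Lib.H51.Involves
import Cfsg.Prelude.Def_LocalEven

/-! Recognising the group `F(p)` from relations. -/

set_option autoImplicit false

namespace H78.Zf

open Cfsg Matrix

/-- the normal form matrices -/
def fm {p : ℕ} [Fact p.Prime] {ω ω' : ZMod p} (h : ω * ω' = 1) (i j k : ZMod p) (l : ℕ) : SpecialLinearGroup (Fin 3) (ZMod p) :=
  ⟨!![ω ^ l, k * ω' ^ l, j; 0, ω' ^ l, i; 0, 0, 1], by
    rw [Matrix.det_fin_three]
    simp [← mul_pow, h]⟩

theorem fm_mul {p : ℕ} [Fact p.Prime] {ω ω' : ZMod p} (h : ω * ω' = 1) (i j k i' j' k' : ZMod p) (l l' : ℕ) :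
    fm h i j k l * fm h i' j' k' l' = fm h (i + ω' ^ l * i') (ω ^ l * j' + k * ω' ^ l * i' + j) (k + (ω ^ 2) ^ l * k') (l + l') := by
  have h1 : ω ^ l * ω' ^ l = 1 := by rw [← mul_pow, h, one_pow]
  apply Subtype.ext
  show (fm h i j k l).1 * (fm h i' j' k' l').1 = _
  ext a b
  fin_cases a <;> fin_cases b <;> simp [fm, Matrix.mul_apply, Fin.sum_univ_three, pow_add]
  · rw [show ω ^ 2 = ω * ω by ring, mul_pow]
    linear_combination (-(ω ^ l) * k' * ω' ^ l') * h1
  · ring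

theorem involves_of_rel {G : Type*} [Group G] [Finite G] {p : ℕ} [hp : Fact p.Prime] {v0 w0 z y : G} {ω ω' : ℕ} {lam : ℕ}
    (hv : v0 ^ p = 1) (hw : w0 ^ p = 1) (hw1 : w0 ≠ 1) (hvw : v0 * w0 = w0 * v0) (hzw : z * w0 = w0 * z)
    (hzv : z * v0 = w0 * v0 * z) (hyw : y * w0 = w0 ^ ω * y) (hyv : y * v0 = v0 ^ ω' * y) (hyz : y * z = z ^ lam * y)
    (hω : (ω : ZMod p) * (ω' : ZMod p) = 1) (hlam : (lam : ZMod p) = (ω : ZMod p) ^ 2)
    (hgen : ∀ a : ZMod p, a ≠ 0 → ∃ l : ℕ, (ω : ZMod p) ^ l = a) (hω1 : (ω : ZMod p) ≠ 1)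
    (hcop : ∀ i j k l : ℕ, v0 ^ i * w0 ^ j * z ^ k * y ^ l = 1 → y ^ l = 1) :
    Involves ↥(fOver (ZMod p)) G := by
  classical
  have hpne : NeZero p := ⟨hp.out.ne_zero⟩
  have cz : ∀ (k : ℕ) , z ^ k * w0 = w0 * z ^ k := fun k => ((show Commute z w0 from hzw).pow_left k)
  -- basic commutation rules
  have r1 : ∀ i j : ℕ, w0 ^ j * v0 ^ i = v0 ^ i * w0 ^ j := fun i j => ((show Commute w0 v0 from hvw.symm).pow_pow j i)
  have r2 : ∀ j k : ℕ, z ^ k * w0 ^ j = w0 ^ j * z ^ k := fun j k => ((show Commute z w0 from hzw).pow_pow k j)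
  have r3 : ∀ k i : ℕ, z ^ k * v0 ^ i = v0 ^ i * w0 ^ (k * i) * z ^ k := by
    have a1 : ∀ i : ℕ, z * v0 ^ i = v0 ^ i * w0 ^ i * z := by
      intro i
      induction i with
      | zero => simp
      | succ i ih =>
        calc z * v0 ^ (i + 1) = (z * v0 ^ i) * v0 := by rw [pow_succ, mul_assoc]
          _ = v0 ^ i * w0 ^ i * (z * v0) := by rw [ih]; group
          _ = v0 ^ i * (w0 ^ (i + 1) * v0 ^ 1) * z := by rw [hzv, pow_succ w0, pow_one]; simp only [mul_assoc]
          _ = v0 ^ (i + 1) * w0 ^ (i + 1) * z := by rw [r1, pow_one, pow_succ v0]; simp only [mul_assoc]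
    intro k i
    induction k with
    | zero => simp
    | succ k ih =>
      calc z ^ (k + 1) * v0 ^ i = z * (z ^ k * v0 ^ i) := by rw [pow_succ', mul_assoc]
        _ = (z * v0 ^ i) * w0 ^ (k * i) * z ^ k := by rw [ih]; simp only [mul_assoc]
        _ = v0 ^ i * w0 ^ i * (z ^ 1 * w0 ^ (k * i)) * z ^ k := by rw [a1, pow_one]; simp only [mul_assoc]
        _ = v0 ^ i * (w0 ^ i * w0 ^ (k * i)) * (z * z ^ k) := by rw [r2, pow_one]; simp only [mul_assoc]
        _ = _ := by rw [← pow_add, ← pow_succ', show i + k * i = (k + 1) * i by ring]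
  have rgen : ∀ (t : G) (n : ℕ), y * t = t ^ n * y → ∀ l i : ℕ, y ^ l * t ^ i = t ^ (n ^ l * i) * y ^ l := by
    intro t n ht
    have a1 : ∀ i : ℕ, y * t ^ i = t ^ (n * i) * y := by
      intro i
      have : SemiconjBy y (t ^ i) ((t ^ n) ^ i) := (show SemiconjBy y t (t ^ n) from ht).pow_right i
      rw [pow_mul]; exact this
    intro l
    induction l with
    | zero => intro i; simp
    | succ l ih =>
      intro i
      rw [pow_succ y, mul_assoc, a1, ← mul_assoc, ih, mul_assoc, ← pow_succ y]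
      congr 2
      ring
  have r4 := rgen w0 ω hyw
  have r5 := rgen v0 ω' hyv
  have r6 := rgen z lam hyz
  have hmul : ∀ i j k l i' j' k' l' : ℕ, (v0 ^ i * w0 ^ j * z ^ k * y ^ l) * (v0 ^ i' * w0 ^ j' * z ^ k' * y ^ l') =
      v0 ^ (i + ω' ^ l * i') * w0 ^ (ω ^ l * j' + k * (ω' ^ l * i') + j) * z ^ (k + lam ^ l * k') * y ^ (l + l') := by
    intro i j k l i' j' k' l'
    calc (v0 ^ i * w0 ^ j * z ^ k * y ^ l) * (v0 ^ i' * w0 ^ j' * z ^ k' * y ^ l')
        = v0 ^ i * w0 ^ j * z ^ k * (y ^ l * v0 ^ i') * w0 ^ j' * z ^ k' * y ^ l' := by simp only [mul_assoc]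
      _ = v0 ^ i * w0 ^ j * z ^ k * v0 ^ (ω' ^ l * i') * (y ^ l * w0 ^ j') * z ^ k' * y ^ l' := by rw [r5]; simp only [mul_assoc]
      _ = v0 ^ i * w0 ^ j * z ^ k * v0 ^ (ω' ^ l * i') * w0 ^ (ω ^ l * j') * (y ^ l * z ^ k') * y ^ l' := by rw [r4]; simp only [mul_assoc]
      _ = v0 ^ i * w0 ^ j * (z ^ k * v0 ^ (ω' ^ l * i')) * w0 ^ (ω ^ l * j') * z ^ (lam ^ l * k') * (y ^ l * y ^ l') := by rw [r6]; simp only [mul_assoc]
      _ = v0 ^ i * (w0 ^ j * v0 ^ (ω' ^ l * i')) * w0 ^ (k * (ω' ^ l * i')) * (z ^ k * w0 ^ (ω ^ l * j')) * z ^ (lam ^ l * k') * (y ^ l * y ^ l') := by rw [r3]; simp only [mul_assoc]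
      _ = (v0 ^ i * v0 ^ (ω' ^ l * i')) * (w0 ^ j * w0 ^ (k * (ω' ^ l * i')) * w0 ^ (ω ^ l * j')) * (z ^ k * z ^ (lam ^ l * k')) * (y ^ l * y ^ l') := by
        rw [r1, r2]; simp only [mul_assoc]
      _ = _ := by
        rw [← pow_add, ← pow_add, ← pow_add, ← pow_add, ← pow_add]
        congr 4
        ring
  let F3 := SpecialLinearGroup (Fin 3) (ZMod p)
  let nf : G × F3 → Prop := fun x => ∃ i j k l : ℕ, x.1 = v0 ^ i * w0 ^ j * z ^ k * y ^ l ∧ x.2 = fm hω i j k l
  have nf1 : nf 1 := ⟨0, 0, 0, 0, by simp, by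
    apply Subtype.ext
    ext a b
    fin_cases a <;> fin_cases b <;> simp [fm]⟩
  have nfmul : ∀ x x' : G × F3, nf x → nf x' → nf (x * x') := by
    rintro ⟨g, M⟩ ⟨g', M'⟩ ⟨i, j, k, l, h1, h2⟩ ⟨i', j', k', l', h3, h4⟩
    dsimp only at h1 h2 h3 h4
    refine ⟨i + ω' ^ l * i', ω ^ l * j' + k * (ω' ^ l * i') + j, k + lam ^ l * k', l + l', ?_, ?_⟩
    · show g * g' = _
      rw [h1, h3, hmul]
    · show M * M' = _
      rw [h2, h4, fm_mul]
      push_cast
      rw [hlam]
      congr 1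
      ring
  have nfpow : ∀ (x : G × F3) (n : ℕ), nf x → nf (x ^ n) := by
    intro x n hx
    induction n with
    | zero => rw [pow_zero]; exact nf1
    | succ n ih => rw [pow_succ]; exact nfmul _ _ ih hx
  let Γ : Subgroup (G × F3) := {
    carrier := {x | nf x}
    one_mem' := nf1
    mul_mem' := fun {a b} ha hb => nfmul a b ha hb
    inv_mem' := by
      intro x hx
      have : x⁻¹ = x ^ (orderOf x - 1) := by
        rw [inv_eq_iff_mul_eq_one, ← pow_succ', Nat.sub_add_cancel (orderOf_pos x), pow_orderOf_eq_one]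
      rw [this]
      exact nfpow _ _ hx }
  have hw0p : ∀ i : ℕ, w0 ^ i = 1 → (i : ZMod p) = 0 := by
    intro i hi
    rw [ZMod.natCast_eq_zero_iff]
    have : orderOf w0 = p := orderOf_eq_prime hw hw1
    rw [← this]; exact orderOf_dvd_of_pow_eq_one hi
  have hpow : ∀ (t : G), t ^ p = 1 → ∀ i j : ℕ, (i : ZMod p) = j → t ^ i = t ^ j := by
    intro t ht i j hij
    rw [ZMod.natCast_eq_natCast_iff] at hij
    rw [← Nat.mod_add_div i p, ← Nat.mod_add_div j p, pow_add, pow_add, pow_mul, pow_mul, ht, one_pow, one_pow, mul_one, mul_one, hij]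
  have hinj : ∀ x : G × F3, nf x → x.1 = 1 → x.2 = 1 := by
    rintro ⟨g, M⟩ ⟨i, j, k, l, h1, h2⟩ hg
    dsimp only at h1 h2 hg ⊢
    rw [hg] at h1
    have hyl := hcop i j k l h1.symm
    -- ω ^ l = 1
    have hωl : (ω : ZMod p) ^ l = 1 := by
      have e1 := r4 l 1
      rw [hyl, one_mul, mul_one, mul_one, pow_one] at e1
      by_contra hne
      have h3 : w0 ^ (ω ^ l) * w0⁻¹ = 1 := by rw [← e1]; simp
      obtain ⟨c, hc⟩ : ∃ c : ℕ, (c : ZMod p) = (ω : ZMod p) ^ l - 1 := ⟨((ω : ZMod p) ^ l - 1).val, by simp⟩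
      have h4 : w0 ^ (c + 1) = w0 ^ (ω ^ l) := hpow w0 hw _ _ (by push_cast; rw [hc]; ring)
      rw [← e1, pow_succ] at h4
      have h5 : w0 ^ c = 1 := by simpa using h4
      have := hw0p c h5
      rw [hc, sub_eq_zero] at this
      exact hne this
    have hωl' : (ω' : ZMod p) ^ l = 1 := by
      have : ((ω : ZMod p) * ω') ^ l = 1 := by rw [hω, one_pow]
      rwa [mul_pow, hωl, one_mul] at this
    rw [hyl, mul_one] at h1
    -- i = 0
    have hi : (i : ZMod p) = 0 := by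
      have e1 : z * (v0 ^ i * w0 ^ j * z ^ k) = (v0 ^ i * w0 ^ j * z ^ k) * z := by rw [← h1]; simp
      have e2 : z * (v0 ^ i * w0 ^ j * z ^ k) = v0 ^ i * w0 ^ i * w0 ^ j * z ^ k * z := by
        have := r3 1 i
        rw [pow_one, one_mul] at this
        calc z * (v0 ^ i * w0 ^ j * z ^ k) = (z * v0 ^ i) * w0 ^ j * z ^ k := by simp only [mul_assoc]
          _ = v0 ^ i * w0 ^ i * (z * w0 ^ j) * z ^ k := by rw [this]; simp only [mul_assoc]
          _ = v0 ^ i * w0 ^ i * w0 ^ j * (z * z ^ k) := by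
            have h9 := r2 j 1
            rw [pow_one] at h9
            rw [h9]; simp only [mul_assoc]
          _ = _ := by rw [← pow_succ', pow_succ]; simp only [mul_assoc]
      rw [e2] at e1
      have e3 : w0 ^ i = 1 := by
        have := mul_right_cancel (mul_right_cancel (mul_right_cancel e1))
        simpa using this
      exact hw0p i e3
    have hvi : v0 ^ i = 1 := by
      have := hpow v0 hv i 0 (by rw [hi]; simp)
      simpa using this
    rw [hvi, one_mul] at h1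
    -- t = z^k = w0^{-j}
    have e4 : y * (w0 ^ j * z ^ k) = (w0 ^ j * z ^ k) * y := by rw [← h1]; simp
    have e5 : y * (w0 ^ j * z ^ k) = w0 ^ (ω * j) * z ^ (lam * k) * y := by
      have a1 := r4 1 j
      have a2 := r6 1 k
      rw [pow_one, pow_one] at a1 a2
      rw [← mul_assoc, a1, mul_assoc, a2, mul_assoc]
    have e6 : w0 ^ (ω * j) * z ^ (lam * k) = 1 := by
      rw [e5] at e4
      rw [mul_right_cancel e4, ← h1]
    have hj : (j : ZMod p) = 0 := by
      have e7 : (w0 ^ j * z ^ k) ^ lam = 1 := by rw [← h1, one_pow]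
      have e8 : (w0 ^ j * z ^ k) ^ lam = w0 ^ (j * lam) * z ^ (lam * k) := by
        rw [(show Commute (w0 ^ j) (z ^ k) from (r2 j k).symm).mul_pow, ← pow_mul, ← pow_mul, mul_comm k]
      rw [e8] at e7
      have e9 : w0 ^ (ω * j) = w0 ^ (j * lam) := mul_right_cancel (e6.trans e7.symm)
      obtain ⟨c, hc⟩ : ∃ c : ℕ, (c : ZMod p) = (ω : ZMod p) * j - j * lam := ⟨((ω : ZMod p) * j - j * lam).val, by simp⟩
      have h4 : w0 ^ (c + j * lam) = w0 ^ (ω * j) := hpow w0 hw _ _ (by push_cast; rw [hc]; ring)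
      rw [e9, pow_add] at h4
      have h5 : w0 ^ c = 1 := by simpa using h4
      have h6 := hw0p c h5
      rw [hc, hlam] at h6
      have h7 : (j : ZMod p) * ((ω : ZMod p) * (1 - ω)) = 0 := by linear_combination h6
      rcases mul_eq_zero.1 h7 with h | h
      · exact h
      · exfalso
        rcases mul_eq_zero.1 h with h | h
        · rw [h, zero_mul] at hω; exact zero_ne_one hω
        · exact hω1 (sub_eq_zero.1 h).symm
    have hwj : w0 ^ j = 1 := by
      have := hpow w0 hw j 0 (by rw [hj]; simp)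
      simpa using this
    rw [hwj, one_mul] at h1
    have hk : (k : ZMod p) = 0 := by
      have a1 := r3 k 1
      rw [← h1] at a1
      have : w0 ^ k = 1 := by simpa using a1
      exact hw0p k this
    rw [h2]
    apply Subtype.ext
    ext a b
    fin_cases a <;> fin_cases b <;> simp [fm, hi, hj, hk, hωl, hωl']
  -- conclusion
  let fst : Γ →* G := (MonoidHom.fst G F3).comp Γ.subtype
  have hfst : Function.Injective fst := by
    rw [injective_iff_map_eq_one]
    rintro ⟨x, hx⟩ h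
    have h1 : x.1 = 1 := h
    have h2 := hinj x hx h1
    apply Subtype.ext
    exact Prod.ext h1 h2
  have hmem : ∀ x : Γ, ((MonoidHom.snd G F3).comp Γ.subtype) x ∈ fOver (ZMod p) := by
    rintro ⟨⟨g, M⟩, i, j, k, l, h1, h2⟩
    apply Subgroup.subset_closure
    dsimp only at h2
    show M.1 1 0 = 0 ∧ M.1 2 0 = 0 ∧ M.1 2 1 = 0 ∧ M.1 2 2 = 1
    rw [h2]
    simp [fm]
  let snd : Γ →* ↥(fOver (ZMod p)) := ((MonoidHom.snd G F3).comp Γ.subtype).codRestrict _ hmem
  have hsnd : Function.Surjective snd := by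
    have hle : fOver (ZMod p) ≤ ((MonoidHom.snd G F3).comp Γ.subtype).range := by
      rw [fOver, Subgroup.closure_le]
      rintro M ⟨h10, h20, h21, h22⟩
      have hdet := M.2
      rw [Matrix.det_fin_three, h10, h20, h21, h22] at hdet
      have hd : M.1 0 0 * M.1 1 1 = 1 := by linear_combination hdet
      obtain ⟨l, hl⟩ := hgen (M.1 0 0) (left_ne_zero_of_mul_eq_one hd)
      have hl' : (ω' : ZMod p) ^ l = M.1 1 1 := by
        have : ((ω : ZMod p) * ω') ^ l = 1 := by rw [hω, one_pow]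
        rw [mul_pow, hl] at this
        calc (ω' : ZMod p) ^ l = (M.1 0 0 * M.1 1 1) * ω' ^ l := by rw [hd, one_mul]
          _ = (M.1 0 0 * ω' ^ l) * M.1 1 1 := by ring
          _ = _ := by rw [this, one_mul]
      let i := (M.1 1 2).val
      let j := (M.1 0 2).val
      let k := (M.1 0 1 * M.1 0 0).val
      have hi : (i : ZMod p) = M.1 1 2 := by simp [i]
      have hj : (j : ZMod p) = M.1 0 2 := by simp [j]
      have hk : (k : ZMod p) = M.1 0 1 * M.1 0 0 := by simp [k]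
      refine ⟨⟨(v0 ^ i * w0 ^ j * z ^ k * y ^ l, fm hω i j k l), i, j, k, l, rfl, rfl⟩, ?_⟩
      show fm hω i j k l = M
      apply Subtype.ext
      ext a b
      fin_cases a <;> fin_cases b <;> simp [fm, hi, hj, hk, hl, hl', h10, h20, h21, h22]
      rw [mul_assoc, hd, mul_one]
    rintro ⟨M, hM⟩
    obtain ⟨x, hx⟩ := hle hM
    exact ⟨x, Subtype.ext hx⟩
  exact H51.Involves.involves_of_injective fst hfst (H51.Involves.involves_of_hom snd hsnd (H51.Involves.involves_refl _))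

end H78.Zf
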