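import Cfsg.Agent.Lib.H78.ZfC
import Cfsg.Agent.Lib.H78.ZfD
import Cfsg.Agent.Lib.H38.Goldschmidt
import Cfsg.Agent.Lib.H1.Frat

/-! The section `F(p)`. -/

set_option autoImplicit false

namespace H78.Zf

open Cfsg H38.Basic

variable {G : Type*} [Group G] [Finite G] {p : ℕ} [hp : Fact p.Prime]

omit [Finite G] in
theorem pow_congr {t : G} (ht : t ^ p = 1) {i j : ℕ} (hij : (i : ZMod p) = j) : t ^ i = t ^ j := by
  rw [ZMod.natCast_eq_natCast_iff] at hij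
  rw [← Nat.mod_add_div i p, ← Nat.mod_add_div j p, pow_add, pow_add, pow_mul, pow_mul, ht, one_pow, one_pow, mul_one, mul_one, hij]

theorem cy {Q0 : Subgroup G} (hQ : IsPGroup p Q0) {y : G} (hy : y ∈ Subgroup.normalizer (Q0 : Set G)) {m : ℕ}
    (hm : ¬ p ∣ m) (hym : y ^ m = 1) (B : Subgroup G) {n : ℕ} (hn : ¬ p ∣ n)
    (hcomm : ∀ a ∈ Q0, ∀ b ∈ Q0, a * b * a⁻¹ * b⁻¹ ∈ B)
    (hB : ∀ a ∈ Q0, y * a * y⁻¹ * (a ^ n)⁻¹ ∈ B) (hpB : ∀ a ∈ Q0, a ^ p ∈ B) {u : G} (hu : u ∈ Q0) (hu' : u ∉ B) :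
    ∃ z ∈ Q0, z ∉ B ∧ ∃ k : ℕ, (k : ZMod p) = n ∧ y * z * y⁻¹ = z ^ k := by
  classical
  obtain ⟨Q, -, ⟨hQ0, hyQ, hQB⟩, hmin⟩ := (Set.toFinite {Q : Subgroup G | Q ≤ Q0 ∧ y ∈ Subgroup.normalizer (Q : Set G) ∧ ¬ Q ≤ B}).exists_le_minimal
    (show Q0 ∈ {Q : Subgroup G | Q ≤ Q0 ∧ y ∈ Subgroup.normalizer (Q : Set G) ∧ ¬ Q ≤ B} from ⟨le_rfl, hy, fun h => hu' (h hu)⟩)
  obtain ⟨q, hq, hqB⟩ := SetLike.not_le_iff_exists.1 hQB
  let α : MulAut Q := Q.normalizerMonoidHom ⟨y, hyQ⟩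
  have hα : ∀ a : Q, ((α a : Q) : G) = y * a * y⁻¹ := fun a => rfl
  have hαm : α ^ m = 1 := by
    rw [← map_pow]
    have : (⟨y, hyQ⟩ : Subgroup.normalizer (Q : Set G)) ^ m = 1 := Subtype.ext hym
    rw [this, map_one]
  let T : Abelianization Q ≃* Abelianization Q := MulEquiv.abelianizationCongr α
  have hT1 : ∀ a : Q, T (Abelianization.of a) = Abelianization.of (α a) := fun a => rfl
  have hTi : ∀ (i : ℕ) (a : Q), (T ^ i) (Abelianization.of a) = Abelianization.of ((α ^ i) a) := by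
    intro i
    induction i with
    | zero => intro a; rfl
    | succ i ih =>
      intro a
      rw [pow_succ, pow_succ]
      show (T ^ i) (T (Abelianization.of a)) = _
      rw [hT1, ih]; rfl
  have hsurj : Function.Surjective (Abelianization.of : Q →* Abelianization Q) := QuotientGroup.mk_surjective
  let B' : Subgroup (Abelianization Q) := (B.subgroupOf Q).map Abelianization.of
  have hker : commutator Q ≤ B.subgroupOf Q := by
    rw [commutator_def, Subgroup.commutator_le]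
    intro a _ b _
    rw [Subgroup.mem_subgroupOf]
    have := hcomm a (hQ0 a.2) b (hQ0 b.2)
    exact this
  have hB' : ∀ a : Q, Abelianization.of a ∈ B' ↔ (a : G) ∈ B := by
    intro a
    constructor
    · rintro ⟨b, hb, hab⟩
      have h1 : b⁻¹ * a ∈ commutator Q := by
        have : Abelianization.of (b⁻¹ * a) = 1 := by rw [map_mul, map_inv, hab, inv_mul_cancel]
        rwa [← MonoidHom.mem_ker, Abelianization.ker_of] at this
      have h2 := (B.subgroupOf Q).mul_mem hb (hker h1)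
      rw [mul_inv_cancel_left] at h2
      exact h2
    · intro h
      exact ⟨a, h, rfl⟩
  obtain ⟨c', hc', k, hk, hTc⟩ := avg (A := Abelianization Q) (p := p) ((hQ.to_le hQ0).of_surjective _ hsurj) T hm (by
      intro a
      obtain ⟨a, rfl⟩ := hsurj a
      rw [hTi, hαm]; rfl) B' hn (by
      intro a
      obtain ⟨a, rfl⟩ := hsurj a
      rw [hT1, ← map_pow, ← map_inv, ← map_mul, hB']
      exact hB a (hQ0 a.2)) (by
      intro a
      obtain ⟨a, rfl⟩ := hsurj a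
      rw [← map_pow, hB']
      exact hpB a (hQ0 a.2)) (u := Abelianization.of ⟨q, hq⟩) (by rw [hB']; exact hqB)
  obtain ⟨c, rfl⟩ := hsurj c'
  rw [hB'] at hc'
  -- the subgroup generated by c and Q'
  have hcl : Subgroup.zpowers c ⊔ commutator Q = ⊤ := by
    set Q1 := Subgroup.zpowers c ⊔ commutator Q with hQ1
    have h1 : (Q1.map Q.subtype) ≤ Q := Subgroup.map_subtype_le _
    have hα1 : Q1.map α.toMonoidHom ≤ Q1 := by
      rw [hQ1, Subgroup.map_sup, sup_le_iff]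
      constructor
      · rw [MonoidHom.map_zpowers, Subgroup.zpowers_le]
        have h2 : Abelianization.of ((c ^ k)⁻¹ * α c) = 1 := by
          rw [map_mul, map_inv, map_pow, ← hTc, hT1, inv_mul_cancel]
        have h3 : (c ^ k)⁻¹ * α c ∈ commutator Q := by rwa [← MonoidHom.mem_ker, Abelianization.ker_of] at h2
        have h4 := (Subgroup.zpowers c ⊔ commutator Q).mul_mem (Subgroup.mem_sup_left ((Subgroup.zpowers c).pow_mem (Subgroup.mem_zpowers c) k)) (Subgroup.mem_sup_right h3)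
        rw [mul_inv_cancel_left] at h4
        exact h4
      · refine le_trans ?_ le_sup_right
        rw [commutator_def, Subgroup.map_commutator]
        exact Subgroup.commutator_mono le_top le_top
    have hα2 : Q1.map α.toMonoidHom = Q1 := Subgroup.eq_of_le_of_card_ge hα1
      (by rw [Subgroup.card_map_of_injective (show Function.Injective α.toMonoidHom from α.injective)])
    have h2 : y ∈ Subgroup.normalizer ((Q1.map Q.subtype : Subgroup G) : Set G) := by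
      rw [mem_normalizer_iff', Subgroup.map_map]
      have : (MulAut.conj y).toMonoidHom.comp Q.subtype = Q.subtype.comp α.toMonoidHom := by
        ext a; rfl
      rw [this, ← Subgroup.map_map, hα2]
    have h3 := hmin ⟨h1.trans hQ0, h2, fun h => hc' (h ⟨c, Subgroup.mem_sup_left (Subgroup.mem_zpowers c), rfl⟩)⟩ h1
    rw [eq_top_iff]
    intro a _
    obtain ⟨b, hb, hab⟩ := h3 a.2
    have : b = a := Subtype.ext hab
    rwa [← this]
  have hnil : Group.IsNilpotent Q := (hQ.to_le hQ0).isNilpotent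
  have hz : Subgroup.zpowers c = ⊤ := by
    apply frattini_nongenerating
    rw [eq_top_iff, ← hcl]
    exact sup_le_sup_left H1.Frat.commutator_le_frattini _
  have h5 : α c ∈ Subgroup.zpowers c := by rw [hz]; trivial
  rw [mem_zpowers_iff_mem_range_orderOf] at h5
  obtain ⟨j, -, hj⟩ := Finset.mem_image.1 h5
  have hj' : y * (c : G) * y⁻¹ = (c : G) ^ j := by
    have := congrArg Subtype.val hj
    exact this.symm
  refine ⟨c, hQ0 c.2, hc', j, ?_, hj'⟩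
  -- j = n mod p
  have h6 := hB c (hQ0 c.2)
  rw [hj'] at h6
  by_contra hne
  obtain ⟨d, hd⟩ : ∃ d : ℕ, (d : ZMod p) = (j : ZMod p) - n := ⟨((j : ZMod p) - n).val, by have : NeZero p := ⟨hp.out.ne_zero⟩; simp⟩
  have hd0 : ¬ p ∣ d := by
    intro h
    rw [(ZMod.natCast_eq_zero_iff _ _).2 h] at hd
    exact hne (sub_eq_zero.1 hd.symm)
  have hcp := hpB c (hQ0 c.2)
  have h7 : (c : G) ^ d ∈ B := by
    have h8 : ((d + n : ℕ) : ZMod p) = j := by push_cast; rw [hd]; ring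
    rw [ZMod.natCast_eq_natCast_iff] at h8
    -- c^(d+n) c^{-j} ∈ B
    have h9 : (c : G) ^ ((d + n : ℕ) : ℤ) * ((c : G) ^ ((j : ℕ) : ℤ))⁻¹ ∈ B := by
      obtain ⟨w, hw⟩ := h8.symm.dvd
      rw [← zpow_neg, ← zpow_add, ← sub_eq_add_neg, hw, zpow_mul, zpow_natCast]
      exact B.zpow_mem hcp w
    have h10 := B.mul_mem h9 h6
    rw [zpow_natCast, zpow_natCast, pow_add] at h10
    have h11 : (c : G) ^ d * (c : G) ^ n * ((c : G) ^ j)⁻¹ * ((c : G) ^ j * ((c : G) ^ n)⁻¹) = (c : G) ^ d := by group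
    rwa [h11] at h10
  apply hc'
  have hcop : IsCoprime (d : ℤ) (p : ℤ) := by
    rw [Nat.isCoprime_iff_coprime]
    exact ((Nat.Prime.coprime_iff_not_dvd hp.out).2 hd0).symm
  obtain ⟨r, s, hrs⟩ := hcop
  have : (c : G) = ((c : G) ^ d) ^ r * ((c : G) ^ p) ^ s := by
    rw [← zpow_natCast, ← zpow_natCast, ← zpow_mul, ← zpow_mul, ← zpow_add, mul_comm (d : ℤ), mul_comm (p : ℤ), hrs, zpow_one]
  rw [this]
  exact B.mul_mem (B.zpow_mem h7 r) (B.zpow_mem hcp s)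

theorem exists_pprime_pow (y : G) : ∃ N m : ℕ, ¬ p ∣ m ∧ (y ^ p ^ N) ^ m = 1 := by
  obtain ⟨k, m, hm, hgm⟩ := Nat.exists_eq_pow_mul_and_not_dvd (orderOf_pos y).ne' p hp.out.ne_one
  exact ⟨k, m, hm, by rw [← pow_mul, ← hgm, pow_orderOf_eq_one]⟩

omit [Finite G] in
theorem pow_pow_p {t : G} (ht : t ^ p = 1) (ω N : ℕ) : t ^ ω ^ p ^ N = t ^ ω := by
  apply pow_congr ht
  push_cast
  rw [ZMod.pow_card_pow]

/-- the group `F(p)` from a torus element -/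
theorem involves_F {V A1 : Subgroup G} (hVn : V.Normal) (hA1n : A1.Normal) (hA1V : A1 ≤ V)
    (hVp : ∀ v ∈ V, v ^ p = 1) (hVc : ∀ v ∈ V, ∀ w ∈ V, v * w = w * v) {x y : G} (hx : IsPGroup p (Subgroup.zpowers x))
    (hxV : ∀ v ∈ V, x * v * x⁻¹ * v⁻¹ ∈ A1) (hxA : ∀ v ∈ V, v ∈ A1 ↔ x * v * x⁻¹ * v⁻¹ = 1) {v1 : G} (hv1 : v1 ∈ V)
    (hv1' : v1 ∉ A1) {ω : ℕ} (hω : ¬ p ∣ ω) (hgen : ∀ a : ZMod p, a ≠ 0 → ∃ l : ℕ, (ω : ZMod p) ^ l = a)
    (hω1 : (ω : ZMod p) ≠ 1) (hyA : ∀ a ∈ A1, y * a * y⁻¹ = a ^ ω) (hyV : ∀ v ∈ V, (y * v * y⁻¹) ^ ω * v⁻¹ ∈ A1) :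
    Involves ↥(fOver (ZMod p)) G := by
  classical
  have hpne : NeZero p := ⟨hp.out.ne_zero⟩
  have hω0 : (ω : ZMod p) ≠ 0 := fun h => hω ((ZMod.natCast_eq_zero_iff _ _).1 h)
  obtain ⟨ω', hω'⟩ : ∃ ω' : ℕ, (ω : ZMod p) * ω' = 1 := ⟨((ω : ZMod p)⁻¹).val, by simp [hω0]⟩
  have hω'0 : ¬ p ∣ ω' := by
    intro h
    rw [(ZMod.natCast_eq_zero_iff _ _).2 h, mul_zero] at hω'
    exact zero_ne_one hω'
  -- U
  let U : Subgroup G := {
    carrier := {g | (∀ v ∈ V, g * v * g⁻¹ * v⁻¹ ∈ A1) ∧ ∀ a ∈ A1, g * a * g⁻¹ = a}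
    one_mem' := ⟨fun v hv => by simp, fun a ha => by simp⟩
    mul_mem' := by
      rintro g h ⟨g1, g2⟩ ⟨h1, h2⟩
      refine ⟨fun v hv => ?_, fun a ha => ?_⟩
      · have e : g * h * v * (g * h)⁻¹ * v⁻¹ = (g * (h * v * h⁻¹ * v⁻¹) * g⁻¹) * (g * v * g⁻¹ * v⁻¹) := by group
        rw [e, g2 _ (h1 v hv)]
        exact A1.mul_mem (h1 v hv) (g1 v hv)
      · have e : g * h * a * (g * h)⁻¹ = g * (h * a * h⁻¹) * g⁻¹ := by group
        rw [e, h2 a ha, g2 a ha]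
    inv_mem' := by
      rintro g ⟨g1, g2⟩
      refine ⟨fun v hv => ?_, fun a ha => ?_⟩
      · have e : g⁻¹ * v * g⁻¹⁻¹ * v⁻¹ = g⁻¹ * (g * v * g⁻¹ * v⁻¹)⁻¹ * g⁻¹⁻¹ := by group
        rw [e]
        exact hA1n.conj_mem _ (A1.inv_mem (g1 v hv)) _
      · have := g2 a ha
        calc g⁻¹ * a * g⁻¹⁻¹ = g⁻¹ * (g * a * g⁻¹) * g⁻¹⁻¹ := by rw [this]
          _ = a := by group }
  have hUn : U.Normal := by
    constructor
    rintro u ⟨u1, u2⟩ n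
    refine ⟨fun v hv => ?_, fun a ha => ?_⟩
    · have h1 := u1 _ (hVn.conj_mem v hv n⁻¹)
      have e : n * u * n⁻¹ * v * (n * u * n⁻¹)⁻¹ * v⁻¹ = n * (u * (n⁻¹ * v * n⁻¹⁻¹) * u⁻¹ * (n⁻¹ * v * n⁻¹⁻¹)⁻¹) * n⁻¹ := by group
      rw [e]; exact hA1n.conj_mem _ h1 n
    · have h1 := u2 _ (hA1n.conj_mem a ha n⁻¹)
      have e : n * u * n⁻¹ * a * (n * u * n⁻¹)⁻¹ = n * (u * (n⁻¹ * a * n⁻¹⁻¹) * u⁻¹) * n⁻¹ := by group
      rw [e, h1]; group
  have hxU : x ∈ U := ⟨hxV, fun a ha => by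
    have := (hxA a (hA1V ha)).1 ha
    rw [mul_inv_eq_one] at this; exact this⟩
  obtain ⟨R, hR, hxR⟩ := exists_isSyl_ge (p := p) (Q := Subgroup.zpowers x) (H := U) hx (by rw [Subgroup.zpowers_le]; exact hxU)
  have hxR' : x ∈ R := hxR (Subgroup.mem_zpowers x)
  obtain ⟨m, hm, y1, hy1, hyy⟩ := H38.Goldschmidt.frattini (T := R) (M := U) (N := ⊤) hR (by rw [Subgroup.normalizer_eq_top])
    (x := y) trivial le_top
  have hy1A : ∀ a ∈ A1, y1 * a * y1⁻¹ = a ^ ω := by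
    intro a ha
    have h1 : y1 = m⁻¹ * y := by rw [hyy]; group
    have e : y1 * a * y1⁻¹ = m⁻¹ * (y * a * y⁻¹) * m⁻¹⁻¹ := by rw [h1]; group
    rw [e, hyA a ha, (U.inv_mem hm).2 _ (A1.pow_mem ha _)]
  have hy1V : ∀ v ∈ V, (y1 * v * y1⁻¹) ^ ω * v⁻¹ ∈ A1 := by
    intro v hv
    have h1 : y1 = m⁻¹ * y := by rw [hyy]; group
    have hw : (y * v * y⁻¹) ^ ω ∈ V := V.pow_mem (hVn.conj_mem v hv y) _
    have e : (y1 * v * y1⁻¹) ^ ω * v⁻¹ = (m⁻¹ * (y * v * y⁻¹) ^ ω * m⁻¹⁻¹ * ((y * v * y⁻¹) ^ ω)⁻¹) * ((y * v * y⁻¹) ^ ω * v⁻¹) := by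
      have e2 : y1 * v * y1⁻¹ = m⁻¹ * (y * v * y⁻¹) * m⁻¹⁻¹ := by rw [h1]; group
      rw [e2, conj_pow]; group
    rw [e]
    exact A1.mul_mem ((U.inv_mem hm).1 _ hw) (hyV v hv)
  -- powers
  have hpowA : ∀ i : ℕ, ∀ a ∈ A1, y1 ^ i * a * (y1 ^ i)⁻¹ = a ^ ω ^ i := by
    intro i
    induction i with
    | zero => intro a _; simp
    | succ i ih =>
      intro a ha
      have e : y1 ^ (i + 1) * a * (y1 ^ (i + 1))⁻¹ = y1 ^ i * (y1 * a * y1⁻¹) * (y1 ^ i)⁻¹ := by rw [pow_succ]; group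
      rw [e, hy1A a ha, ih _ (A1.pow_mem ha _), ← pow_mul, pow_succ']
  have hpowV : ∀ i : ℕ, ∀ v ∈ V, (y1 ^ i * v * (y1 ^ i)⁻¹) ^ ω ^ i * v⁻¹ ∈ A1 := by
    intro i
    induction i with
    | zero => intro v _; simp
    | succ i ih =>
      intro v hv
      have hw : y1 * v * y1⁻¹ ∈ V := hVn.conj_mem v hv y1
      have h1 := ih _ hw
      set s := y1 ^ i * (y1 * v * y1⁻¹) * (y1 ^ i)⁻¹ with hs
      have hsV : s ∈ V := hVn.conj_mem _ hw _
      have e : y1 ^ (i + 1) * v * (y1 ^ (i + 1))⁻¹ = s := by rw [hs, pow_succ]; group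
      rw [e, pow_succ, pow_mul]
      have e2 : (s ^ ω ^ i) ^ ω * v⁻¹ = (s ^ ω ^ i * (y1 * v * y1⁻¹)⁻¹) ^ ω * ((y1 * v * y1⁻¹) ^ ω * v⁻¹) := by
        have : Commute (s ^ ω ^ i) (y1 * v * y1⁻¹)⁻¹ := hVc _ (V.pow_mem hsV _) _ (V.inv_mem hw)
        rw [this.mul_pow, inv_pow]; group
      rw [e2]
      exact A1.mul_mem (A1.pow_mem h1 _) (hy1V v hv)
  obtain ⟨N, m', hm', hym'⟩ := exists_pprime_pow (p := p) y1
  set y2 := y1 ^ p ^ N with hy2
  have hy2A : ∀ a ∈ A1, y2 * a * y2⁻¹ = a ^ ω := by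
    intro a ha
    rw [hy2, hpowA _ a ha, pow_pow_p (hVp a (hA1V ha))]
  have hy2V : ∀ v ∈ V, (y2 * v * y2⁻¹) ^ ω * v⁻¹ ∈ A1 := by
    intro v hv
    have := hpowV (p ^ N) v hv
    rwa [pow_pow_p (hVp _ (hVn.conj_mem v hv _))] at this
  have hy2R : y2 ∈ Subgroup.normalizer (R : Set G) := Subgroup.pow_mem _ hy1.2 _
  have hVpg : IsPGroup p V := fun v => ⟨1, Subtype.ext (by rw [pow_one]; exact hVp v v.2)⟩
  -- v0
  obtain ⟨v0, hv0, hv0', k, hk, hyv0⟩ := cy (Q0 := V) hVpg (y := y2) (by rw [Subgroup.normalizer_eq_top]; trivial) hm' hym' A1 hω'0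
    (fun a ha b hb => by rw [hVc a ha b hb]; simp)
    (fun a ha => by
      have hw := hVn.conj_mem a ha y2
      have h1 := A1.pow_mem (hy2V a ha) ω'
      have h2 : ((y2 * a * y2⁻¹) ^ ω * a⁻¹) ^ ω' = (y2 * a * y2⁻¹) * (a ^ ω')⁻¹ := by
        have : Commute ((y2 * a * y2⁻¹) ^ ω) a⁻¹ := hVc _ (V.pow_mem hw _) _ (V.inv_mem ha)
        rw [this.mul_pow, inv_pow, ← pow_mul]
        congr 1
        have := pow_congr (hVp _ hw) (i := ω * ω') (j := 1) (by push_cast; exact hω')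
        rw [this, pow_one]
      rwa [h2] at h1)
    (fun a ha => by rw [hVp a ha]; exact A1.one_mem) hv1 hv1'
  set w0 := x * v0 * x⁻¹ * v0⁻¹ with hw0
  have hw0A : w0 ∈ A1 := hxV v0 hv0
  have hw01 : w0 ≠ 1 := fun h => hv0' ((hxA v0 hv0).2 h)
  let f : G → G := fun r => r * v0 * r⁻¹ * v0⁻¹
  have hfA : ∀ r ∈ U, f r ∈ A1 := fun r hr => hr.1 v0 hv0
  have hfmul : ∀ r ∈ U, ∀ s ∈ U, f (r * s) = f s * f r := by
    intro r hr s hs
    show r * s * v0 * (r * s)⁻¹ * v0⁻¹ = _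
    have e : r * s * v0 * (r * s)⁻¹ * v0⁻¹ = (r * (f s) * r⁻¹) * f r := by simp only [f]; group
    rw [e, hr.2 _ (hfA s hs)]
  have hAc : ∀ a ∈ A1, ∀ b ∈ A1, a * b = b * a := fun a ha b hb => hVc a (hA1V ha) b (hA1V hb)
  have hf1 : f 1 = 1 := by simp [f]
  have hfinv : ∀ r ∈ U, f r⁻¹ = (f r)⁻¹ := by
    intro r hr
    have := hfmul r hr r⁻¹ (U.inv_mem hr)
    rw [mul_inv_cancel, hf1] at this
    exact eq_inv_of_mul_eq_one_left this.symm
  have hfpow : ∀ r ∈ U, ∀ i : ℕ, f (r ^ i) = f r ^ i := by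
    intro r hr i
    induction i with
    | zero => rw [pow_zero, pow_zero, hf1]
    | succ i ih => rw [pow_succ, hfmul _ (U.pow_mem hr _) _ hr, ih, pow_succ']
  let R2 : Subgroup G := {
    carrier := {r | r ∈ R ∧ f r ∈ Subgroup.zpowers w0}
    one_mem' := ⟨R.one_mem, by rw [hf1]; exact Subgroup.one_mem _⟩
    mul_mem' := by
      rintro r s ⟨r1, r2⟩ ⟨s1, s2⟩
      exact ⟨R.mul_mem r1 s1, by rw [hfmul _ (hR.1 r1) _ (hR.1 s1)]; exact Subgroup.mul_mem _ s2 r2⟩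
    inv_mem' := by
      rintro r ⟨r1, r2⟩
      exact ⟨R.inv_mem r1, by rw [hfinv _ (hR.1 r1)]; exact Subgroup.inv_mem _ r2⟩ }
  let B : Subgroup G := {
    carrier := {r | r ∈ R ∧ f r = 1}
    one_mem' := ⟨R.one_mem, hf1⟩
    mul_mem' := by
      rintro r s ⟨r1, r2⟩ ⟨s1, s2⟩
      exact ⟨R.mul_mem r1 s1, by rw [hfmul _ (hR.1 r1) _ (hR.1 s1), r2, s2, mul_one]⟩
    inv_mem' := by
      rintro r ⟨r1, r2⟩
      exact ⟨R.inv_mem r1, by rw [hfinv _ (hR.1 r1), r2, inv_one]⟩ }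
  have hR2U : ∀ r ∈ R2, r ∈ U := fun r hr => hR.1 hr.1
  -- f(y r y⁻¹) = f r ^ ω²
  have hkω : ((k * ω : ℕ) : ZMod p) = 1 := by push_cast; rw [hk, mul_comm]; exact hω'
  have hfy : ∀ r ∈ U, f (y2 * r * y2⁻¹) = f r ^ (ω ^ 2) := by
    intro r hr
    have hyr : y2 * r * y2⁻¹ ∈ U := hUn.conj_mem r hr y2
    set s := y2 * r * y2⁻¹ with hs
    have e1 : y2 * (r * v0 * r⁻¹) * y2⁻¹ = s * (y2 * v0 * y2⁻¹) * s⁻¹ := by rw [hs]; group
    have e2 : r * v0 * r⁻¹ = f r * v0 := by simp only [f]; group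
    have e3 : s * v0 * s⁻¹ = f s * v0 := by simp only [f]; group
    have e4 : y2 * (r * v0 * r⁻¹) * y2⁻¹ = f r ^ ω * v0 ^ k := by
      have : y2 * (r * v0 * r⁻¹) * y2⁻¹ = (y2 * f r * y2⁻¹) * (y2 * v0 * y2⁻¹) := by rw [e2]; group
      rw [this, hy2A _ (hfA r hr), hyv0]
    have e5 : s * (y2 * v0 * y2⁻¹) * s⁻¹ = f s ^ k * v0 ^ k := by
      rw [hyv0, ← conj_pow, e3, (show Commute (f s) v0 from hVc _ (hA1V (hfA s hyr)) _ hv0).mul_pow]
    rw [e4, e5] at e1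
    have e6 : f r ^ ω = f s ^ k := mul_right_cancel e1
    have e7 : (f r ^ ω) ^ ω = (f s ^ k) ^ ω := by rw [e6]
    rw [← pow_mul, ← pow_mul, pow_congr (hVp _ (hA1V (hfA s hyr))) (i := k * ω) (j := 1) (by push_cast; push_cast at hkω; exact hkω), pow_one] at e7
    rw [← e7, sq]
  have hR2y : y2 ∈ Subgroup.normalizer (R2 : Set G) := by
    rw [mem_normalizer_iff']
    refine Subgroup.eq_of_le_of_card_ge ?_ (by rw [card_conj])
    intro s hs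
    rw [mem_conj] at hs
    have e : s = y2 * (y2⁻¹ * s * y2) * y2⁻¹ := by group
    rw [e]
    refine ⟨(Subgroup.mem_normalizer_iff.1 hy2R _).1 hs.1, ?_⟩
    rw [hfy _ (hR2U _ hs)]
    exact Subgroup.pow_mem _ hs.2 _
  have hR2p : IsPGroup p R2 := hR.2.1.to_le (fun r hr => hr.1)
  obtain ⟨z, hz, hzB, lam, hlam, hyz⟩ := cy (Q0 := R2) hR2p hR2y hm' hym' B (n := ω ^ 2)
    (fun h => hω (hp.out.dvd_of_dvd_pow h))
    (fun a ha b hb => by
      refine ⟨R.mul_mem (R.mul_mem (R.mul_mem ha.1 hb.1) (R.inv_mem ha.1)) (R.inv_mem hb.1), ?_⟩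
      have ha' := hR2U a ha
      have hb' := hR2U b hb
      rw [hfmul _ (U.mul_mem (U.mul_mem ha' hb') (U.inv_mem ha')) _ (U.inv_mem hb'), hfmul _ (U.mul_mem ha' hb') _ (U.inv_mem ha'),
        hfmul _ ha' _ hb', hfinv _ ha', hfinv _ hb', hAc (f b) (hfA b hb') (f a) (hfA a ha')]
      group)
    (fun a ha => by
      have ha' := hR2U a ha
      have h1 : y2 * a * y2⁻¹ ∈ R := (Subgroup.mem_normalizer_iff.1 hy2R _).1 ha.1
      refine ⟨R.mul_mem h1 (R.inv_mem (R.pow_mem ha.1 _)), ?_⟩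
      rw [hfmul _ (hR.1 h1) _ (U.inv_mem (U.pow_mem ha' _)), hfinv _ (U.pow_mem ha' _), hfpow _ ha', hfy _ ha', inv_mul_cancel])
    (fun a ha => ⟨R.pow_mem ha.1 _, by rw [hfpow _ (hR2U a ha), hVp _ (hA1V (hfA a (hR2U a ha)))]⟩)
    (u := x) ⟨hxR', Subgroup.mem_zpowers w0⟩ (fun h => hw01 h.2)
  have hzU := hR2U z hz
  have hfz : f z ≠ 1 := fun h => hzB ⟨hz.1, h⟩
  -- adjust z
  have hw0p : w0 ^ p = 1 := hVp _ (hA1V hw0A)
  obtain ⟨c, hc⟩ : ∃ c : ℕ, f z = w0 ^ c := by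
    have := hz.2
    rw [mem_zpowers_iff_mem_range_orderOf] at this
    obtain ⟨c, -, hc⟩ := Finset.mem_image.1 this
    exact ⟨c, hc.symm⟩
  have hc0 : (c : ZMod p) ≠ 0 := by
    intro h
    apply hfz
    rw [hc, pow_congr hw0p (j := 0) (by rw [h]; simp), pow_zero]
  obtain ⟨c', hc'⟩ : ∃ c' : ℕ, (c : ZMod p) * c' = 1 := ⟨((c : ZMod p)⁻¹).val, by simp [hc0]⟩
  set z' := z ^ c' with hz'
  have hz'U : z' ∈ U := U.pow_mem hzU _
  have hfz' : f z' = w0 := by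
    rw [hz', hfpow _ hzU, hc, ← pow_mul, pow_congr hw0p (j := 1) (by push_cast; exact hc'), pow_one]
  have hyz' : y2 * z' * y2⁻¹ = z' ^ lam := by
    rw [hz', ← conj_pow, hyz, ← pow_mul, ← pow_mul, mul_comm]
  have hPp : IsPGroup p ↥(V ⊔ Subgroup.zpowers z') := by
    refine IsPGroup.to_sup_of_normal_left hVpg (hR2p.to_le ?_)
    rw [Subgroup.zpowers_le]; exact R2.pow_mem hz _
  refine involves_of_rel (G := G) (p := p) (v0 := v0) (w0 := w0) (z := z') (y := y2) (ω := ω) (ω' := k) (lam := lam)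
    (hVp _ hv0) hw0p hw01 (hVc _ hv0 _ (hA1V hw0A)) ?_ ?_ ?_ ?_ ?_ ?_ ?_ hgen hω1 ?_
  · have := hz'U.2 _ hw0A
    exact mul_inv_eq_iff_eq_mul.1 this
  · have : z' * v0 * z'⁻¹ * v0⁻¹ = w0 := hfz'
    rw [← this]; group
  · exact mul_inv_eq_iff_eq_mul.1 (hy2A _ hw0A)
  · exact mul_inv_eq_iff_eq_mul.1 hyv0
  · exact mul_inv_eq_iff_eq_mul.1 hyz'
  · rw [hk]; exact hω'
  · rw [hlam]; push_cast; ring
  · intro i j k' l h
    have h1 : y2 ^ l = (v0 ^ i * w0 ^ j * z' ^ k')⁻¹ := (inv_eq_of_mul_eq_one_right h).symm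
    have h2 : y2 ^ l ∈ V ⊔ Subgroup.zpowers z' := by
      rw [h1]
      refine Subgroup.inv_mem _ (Subgroup.mul_mem _ (Subgroup.mul_mem _ ?_ ?_) ?_)
      · exact Subgroup.mem_sup_left (V.pow_mem hv0 _)
      · exact Subgroup.mem_sup_left (V.pow_mem (hA1V hw0A) _)
      · exact Subgroup.mem_sup_right (Subgroup.pow_mem _ (Subgroup.mem_zpowers _) _)
    obtain ⟨e, he⟩ := hPp ⟨_, h2⟩
    have he' : (y2 ^ l) ^ p ^ e = 1 := congrArg Subtype.val he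
    have h3 : (y2 ^ l) ^ m' = 1 := by rw [← pow_mul, mul_comm, pow_mul, hym', one_pow]
    have hcop : Nat.Coprime (p ^ e) m' := Nat.Coprime.pow_left _ ((Nat.Prime.coprime_iff_not_dvd hp.out).2 hm')
    have h4 : orderOf (y2 ^ l) ∣ 1 := by
      rw [← hcop.gcd_eq_one]
      exact Nat.dvd_gcd (orderOf_dvd_of_pow_eq_one he') (orderOf_dvd_of_pow_eq_one h3)
    rwa [Nat.dvd_one, orderOf_eq_one_iff] at h4

end H78.Zf
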