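import Cfsg.Agent.Lib.H78.ZfE

/-! The subgroup `C` of order `p` with `|N_H(C) : C_H(C)| = p − 1`. -/

set_option autoImplicit false

namespace H78.Zf

open Cfsg H38.Basic

variable {G : Type*} [Group G] [Finite G] {p : ℕ} [hp : Fact p.Prime]

theorem exists_C {W A1 Vb H : Subgroup G} (hWc : ∀ a ∈ W, ∀ b ∈ W, a * b = b * a) (hWp : IsPGroup p W)
    (hHW : H ≤ Subgroup.normalizer (W : Set G)) {h : G} (hh : h ∈ H) (hA1 : h ∈ Subgroup.normalizer (A1 : Set G))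
    (hVb : h ∈ Subgroup.normalizer (Vb : Set G)) {ω : ℕ} (hω : ¬ p ∣ ω)
    (hgen : ∀ a : ZMod p, a ≠ 0 → ∃ l : ℕ, (ω : ZMod p) ^ l = a)
    (hhA : ∀ a ∈ A1, h * a * h⁻¹ * (a ^ ω)⁻¹ ∈ Vb) (hpA : ∀ a ∈ A1, a ^ p ∈ Vb) {u : G} (huW : u ∈ W) (huA : u ∈ A1)
    (huB : u ∉ Vb) : ∃ C : Subgroup G, C ≤ W ∧ Nat.card C = p ∧
      (H ⊓ Subgroup.centralizer (C : Set G)).relIndex (H ⊓ Subgroup.normalizer (C : Set G)) = p - 1 := by
  classical
  have hpow : ∀ i : ℕ, ∀ a ∈ A1, h ^ i * a * (h ^ i)⁻¹ * (a ^ ω ^ i)⁻¹ ∈ Vb := by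
    intro i
    induction i with
    | zero => intro a _; simp
    | succ i ih =>
      intro a ha
      have e : h ^ (i + 1) * a * (h ^ (i + 1))⁻¹ * (a ^ ω ^ (i + 1))⁻¹ =
          (h ^ i * (h * a * h⁻¹ * (a ^ ω)⁻¹) * (h ^ i)⁻¹) * (h ^ i * (a ^ ω) * (h ^ i)⁻¹ * ((a ^ ω) ^ ω ^ i)⁻¹) := by
        rw [← pow_mul, ← pow_succ']
        rw [pow_succ h]; group
      rw [e]
      exact Vb.mul_mem ((Subgroup.mem_normalizer_iff.1 (Subgroup.pow_mem _ hVb i) _).1 (hhA a ha)) (ih _ (A1.pow_mem ha _))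
  obtain ⟨N, m, hm, hym⟩ := exists_pprime_pow (p := p) h
  set y := h ^ p ^ N with hy
  have hyH : y ∈ H := H.pow_mem hh _
  have hyQ : y ∈ Subgroup.normalizer ((W ⊓ A1 : Subgroup G) : Set G) := by
    have h1 := mem_normalizer_iff'.1 (hHW hyH)
    have h2 := mem_normalizer_iff'.1 (Subgroup.pow_mem _ hA1 (p ^ N))
    rw [mem_normalizer_iff', conj_inf, h1, h2]
  obtain ⟨z, hz, hzB, k, hk, hyz⟩ := cy (Q0 := W ⊓ A1) (hWp.to_le inf_le_left) hyQ hm hym Vb (n := ω ^ p ^ N)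
    (fun h' => hω (hp.out.dvd_of_dvd_pow h'))
    (fun a ha b hb => by rw [hWc a ha.1 b hb.1]; simp)
    (fun a ha => hpow _ a ha.2) (fun a ha => hpA a ha.2) ⟨huW, huA⟩ huB
  have hkω : (k : ZMod p) = ω := by rw [hk]; push_cast; rw [ZMod.pow_card_pow]
  -- the element of order p
  obtain ⟨j, hj⟩ := (hWp.to_le (show Subgroup.zpowers z ≤ W by rw [Subgroup.zpowers_le]; exact hz.1)).exists_card_eq
  rw [Nat.card_zpowers] at hj
  have hj0 : j ≠ 0 := by
    rintro rfl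
    rw [pow_zero, orderOf_eq_one_iff] at hj
    exact hzB (by rw [hj]; exact Vb.one_mem)
  obtain ⟨i, rfl⟩ := Nat.exists_eq_succ_of_ne_zero hj0
  set c0 := z ^ p ^ i with hc0
  have hoc : orderOf c0 = p := by
    rw [hc0, orderOf_pow, hj, Nat.succ_eq_add_one, pow_succ, Nat.gcd_eq_right (Dvd.intro _ rfl)]
    exact Nat.mul_div_cancel_left _ (pow_pos hp.out.pos _)
  have hyc : y * c0 * y⁻¹ = c0 ^ k := by
    rw [hc0, ← conj_pow, hyz, ← pow_mul, ← pow_mul, mul_comm]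
  have hcp : c0 ^ p = 1 := by rw [← hoc]; exact pow_orderOf_eq_one _
  have hk0 : (k : ZMod p) ≠ 0 := by
    rw [hkω]; exact fun h' => hω ((ZMod.natCast_eq_zero_iff _ _).1 h')
  set C := Subgroup.zpowers c0 with hC
  have hcC : c0 ∈ C := Subgroup.mem_zpowers c0
  have hcardC : Nat.card C = p := by rw [hC, Nat.card_zpowers, hoc]
  refine ⟨C, by rw [hC, Subgroup.zpowers_le]; exact W.pow_mem hz.1 _, hcardC, ?_⟩
  have hyC : y ∈ Subgroup.normalizer (C : Set G) := by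
    rw [mem_normalizer_iff']
    refine Subgroup.eq_of_le_of_card_ge ?_ (by rw [card_conj])
    rw [hC, MonoidHom.map_zpowers, Subgroup.zpowers_le]
    show y * c0 * y⁻¹ ∈ _
    rw [hyc]
    exact Subgroup.pow_mem _ hcC _
  set N' := H ⊓ Subgroup.normalizer (C : Set G) with hN'
  let f : N' →* MulAut C := C.normalizerMonoidHom.comp (Subgroup.inclusion inf_le_right)
  have hfapp : ∀ (n : N') (c : C), ((f n c : C) : G) = n * c * (n : G)⁻¹ := fun n c => rfl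
  have hker : (H ⊓ Subgroup.centralizer (C : Set G)).subgroupOf N' = f.ker := by
    ext n
    rw [Subgroup.mem_subgroupOf, MonoidHom.mem_ker]
    constructor
    · intro hn
      ext c
      rw [hfapp]
      have := (Subgroup.mem_centralizer_iff.1 hn.2) c c.2
      show (n : G) * c * (n : G)⁻¹ = c
      rw [← this]; group
    · intro hn
      refine ⟨n.2.1, Subgroup.mem_centralizer_iff.2 fun c hc => ?_⟩
      have h1 := hfapp n ⟨c, hc⟩
      rw [hn] at h1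
      have h2 : c = n * c * (n : G)⁻¹ := h1
      calc c * n = (n * c * (n : G)⁻¹) * n := by rw [← h2]
        _ = n * c := by group
  have hsurj : Function.Surjective f := by
    intro α
    have hα : α ⟨c0, hcC⟩ ∈ (⊤ : Subgroup C) := trivial
    obtain ⟨e, he⟩ : ∃ e : ℕ, ((α ⟨c0, hcC⟩ : C) : G) = c0 ^ e := by
      have : ((α ⟨c0, hcC⟩ : C) : G) ∈ Subgroup.zpowers c0 := (α ⟨c0, hcC⟩).2
      rw [mem_zpowers_iff_mem_range_orderOf] at this
      obtain ⟨e, -, he⟩ := Finset.mem_image.1 this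
      exact ⟨e, he.symm⟩
    have he0 : (e : ZMod p) ≠ 0 := by
      intro h0
      have h1 : c0 ^ e = 1 := by rw [pow_congr hcp (j := 0) (by rw [h0]; simp), pow_zero]
      rw [h1] at he
      have h2 : α ⟨c0, hcC⟩ = 1 := Subtype.ext he
      have h3 : (⟨c0, hcC⟩ : C) = 1 := by
        apply α.injective
        rw [h2, map_one]
      have h4 : c0 = 1 := congrArg Subtype.val h3
      rw [h4, orderOf_one] at hoc
      exact hp.out.one_lt.ne hoc
    obtain ⟨l, hl⟩ := hgen _ he0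
    refine ⟨⟨y ^ l, H.pow_mem hyH l, Subgroup.pow_mem _ hyC l⟩, ?_⟩
    have hyl : ∀ i : ℕ, y ^ i * c0 * (y ^ i)⁻¹ = c0 ^ (k ^ i) := by
      intro i
      induction i with
      | zero => simp
      | succ i ih =>
        have e1 : y ^ (i + 1) * c0 * (y ^ (i + 1))⁻¹ = y * (y ^ i * c0 * (y ^ i)⁻¹) * y⁻¹ := by rw [pow_succ' y]; group
        rw [e1, ih, ← conj_pow, hyc, ← pow_mul, pow_succ']
    have h1 : f ⟨y ^ l, H.pow_mem hyH l, Subgroup.pow_mem _ hyC l⟩ ⟨c0, hcC⟩ = α ⟨c0, hcC⟩ := by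
      apply Subtype.ext
      rw [hfapp, he]
      show y ^ l * c0 * (y ^ l)⁻¹ = _
      rw [hyl]
      exact pow_congr hcp (by push_cast; rw [hkω, hl])
    ext ⟨c, hc⟩
    obtain ⟨n, hn⟩ := Subgroup.mem_zpowers_iff.1 (show c ∈ Subgroup.zpowers c0 from hc)
    have hcn : (⟨c, hc⟩ : C) = ⟨c0, hcC⟩ ^ n := Subtype.ext hn.symm
    rw [hcn, map_zpow, map_zpow, h1]
  have h1 : (H ⊓ Subgroup.centralizer (C : Set G)).relIndex N' = Nat.card (MulAut C) := by
    rw [Subgroup.relIndex, hker, Subgroup.index_ker, MonoidHom.range_eq_top.2 hsurj]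
    exact Subgroup.card_top
  have hcyc : IsCyclic C := by rw [hC]; infer_instance
  rw [h1, IsCyclic.card_mulAut, hcardC, Nat.totient_prime hp.out]

end H78.Zf
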