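import Mathlib
import Cfsg.Agent.Lib.H38.Goldschmidt

/-! The pair lemma. -/

set_option autoImplicit false

namespace H78.Zf

open Cfsg H38.Basic

variable {G : Type*} [Group G] [Finite G] {p : ℕ} [hp : Fact p.Prime]

theorem lemN {J E : Subgroup G} (hJ : IsPGroup p J) {Q : Set G} (hQ : ∀ n ∈ J, ∀ x ∈ Q, n * x * n⁻¹ ∈ Q)
    (hJg : J ≤ Subgroup.closure (Q ∩ J)) (hEJ : E < J) (hEg : E ≤ Subgroup.closure (Q ∩ E)) :
    ∃ x ∈ Q, x ∈ J ∧ x ∉ E ∧ x ∈ Subgroup.normalizer (E : Set G) := by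
  by_cases h : J ≤ Subgroup.normalizer (E : Set G)
  · by_contra hcon
    push Not at hcon
    apply hEJ.not_ge
    refine hJg.trans ((Subgroup.closure_le _).2 ?_)
    rintro x ⟨hx1, hx2⟩
    by_contra hx3
    exact hcon x hx1 hx2 hx3 (h hx2)
  · set N := J ⊓ Subgroup.normalizer (E : Set G) with hN
    have hNJ : N < J := lt_of_le_of_ne inf_le_left (fun h' => h (by rw [← h']; exact inf_le_right))
    have hlt := lt_inf_normalizer hJ hNJ
    obtain ⟨n, hn, hnN⟩ := SetLike.exists_of_lt hlt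
    have hnE : n ∉ Subgroup.normalizer (E : Set G) := fun h' => hnN ⟨hn.1, h'⟩
    have h1 : ∃ x ∈ Q, x ∈ E ∧ n * x * n⁻¹ ∉ E := by
      by_contra hcon
      push Not at hcon
      apply hnE
      rw [mem_normalizer_iff']
      refine Subgroup.eq_of_le_of_card_ge ?_ (by rw [card_conj])
      refine (Subgroup.map_mono hEg).trans ?_
      exact closure_conj_le (fun a ha => hcon a ha.1 ha.2)
    obtain ⟨x, hx, hxE, hnx⟩ := h1
    have hEN : E ≤ N := le_inf hEJ.le Subgroup.le_normalizer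
    have h2 : n * x * n⁻¹ ∈ N := (Subgroup.mem_normalizer_iff.1 hn.2 x).1 (hEN hxE)
    exact ⟨n * x * n⁻¹, hQ n hn.1 x hx, h2.1, hnx, h2.2⟩

theorem pair {K P M : Subgroup G} (hP : IsSyl p P K) (hPM : P ≤ M) (hMK : M < K) {Q : Set G}
    (hQ : ∀ n ∈ K, ∀ x ∈ Q, n * x * n⁻¹ ∈ Q)
    (hJ : ∀ n ∈ K, n ∈ Subgroup.normalizer (Subgroup.closure (Q ∩ P) : Set G) → n ∈ M) :
    ∃ (x1 x2 : G) (E : Subgroup G), x1 ∈ Q ∧ x1 ∈ P ∧ x2 ∈ Q ∧ x2 ∈ K ∧ x2 ∉ M ∧
      x1 ∈ Subgroup.normalizer (E : Set G) ∧ x2 ∈ Subgroup.normalizer (E : Set G) ∧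
      ∀ R : Subgroup G, IsPGroup p R → R ≤ K → R ≤ Subgroup.normalizer (E : Set G) → x1 ∈ R → R ≤ M ∧
        ∀ n ∈ K, n ∈ Subgroup.normalizer (R : Set G) → n ∈ Subgroup.normalizer (E : Set G) → n ∈ M := by
  classical
  obtain ⟨g0, hg0K, hg0M⟩ := SetLike.exists_of_lt hMK
  let Ef : G → Subgroup G := fun g => Subgroup.closure (Q ∩ P ∩ (P.map (MulAut.conj g).toMonoidHom : Subgroup G))
  obtain ⟨g, ⟨hgK, hgM⟩, hmax⟩ := Set.exists_max_image {g : G | g ∈ K ∧ g ∉ M} (fun g => Nat.card (Ef g)) (Set.toFinite _)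
    ⟨g0, hg0K, hg0M⟩
  set E := Ef g with hE
  set J := Subgroup.closure (Q ∩ P) with hJdef
  have hJP : J ≤ P := (Subgroup.closure_le _).2 fun x hx => hx.2
  have hEJ : E ≤ J := Subgroup.closure_mono fun x hx => hx.1
  have hEP : E ≤ P := hEJ.trans hJP
  have hEgP : E ≤ P.map (MulAut.conj g).toMonoidHom := (Subgroup.closure_le _).2 fun x hx => hx.2
  have hconjQ : ∀ n ∈ K, ∀ x, n⁻¹ * x * n ∈ Q → x ∈ Q := by
    intro n hn x hx
    have := hQ n hn _ hx
    have e : n * (n⁻¹ * x * n) * n⁻¹ = x := by group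
    rwa [e] at this
  have hJg : J.map (MulAut.conj g).toMonoidHom ≤ Subgroup.closure (Q ∩ (P.map (MulAut.conj g).toMonoidHom : Subgroup G)) := by
    rw [hJdef]
    refine closure_conj_le fun a ha => Subgroup.subset_closure ⟨hQ g hgK a ha.1, conj_mem_conj.2 ha.2⟩
  have hJg' : Subgroup.closure (Q ∩ (P.map (MulAut.conj g).toMonoidHom : Subgroup G)) ≤ J.map (MulAut.conj g).toMonoidHom := by
    rw [Subgroup.closure_le]
    rintro x ⟨hx1, hx2⟩
    rw [SetLike.mem_coe, mem_conj]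
    refine Subgroup.subset_closure ⟨?_, mem_conj.1 hx2⟩
    have := hQ g⁻¹ (K.inv_mem hgK) x hx1
    rwa [inv_inv] at this
  have hne : E ≠ J := by
    intro h
    apply hgM
    apply hJ g hgK
    rw [mem_normalizer_iff']
    symm
    refine Subgroup.eq_of_le_of_card_ge ?_ (by rw [card_conj])
    refine le_trans ?_ hJg'
    rw [hJdef]
    refine Subgroup.closure_mono fun x hx => ⟨hx.1, hEgP (h ▸ Subgroup.subset_closure hx)⟩
  have hEJlt : E < J := lt_of_le_of_ne hEJ hne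
  have hEgen : E ≤ Subgroup.closure (Q ∩ E) := by
    rw [Subgroup.closure_le]
    intro x hx
    exact Subgroup.subset_closure ⟨hx.1.1, Subgroup.subset_closure hx⟩
  obtain ⟨x1, hx1Q, hx1J, hx1E, hx1N⟩ := lemN (hP.2.1.to_le hJP) (E := E) (Q := Q) (fun n hn => hQ n (hP.1 (hJP hn)))
    (by
      rw [hJdef]
      exact Subgroup.closure_mono fun x hx => ⟨hx.1, Subgroup.subset_closure hx⟩) hEJlt hEgen
  have hgJp : IsPGroup p ↥(J.map (MulAut.conj g).toMonoidHom) := isPGroup_conj (hP.2.1.to_le hJP) g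
  have hgJP : J.map (MulAut.conj g).toMonoidHom ≤ P.map (MulAut.conj g).toMonoidHom := conj_mono hJP g
  have hgPK : P.map (MulAut.conj g).toMonoidHom ≤ K := by
    have := conj_mono hP.1 g
    rwa [conj_eq_of_mem hgK] at this
  have hEgJ : E ≤ J.map (MulAut.conj g).toMonoidHom := by
    refine le_trans ?_ hJg'
    exact Subgroup.closure_mono fun x hx => ⟨hx.1.1, hx.2⟩
  obtain ⟨x2, hx2Q, hx2J, hx2E, hx2N⟩ := lemN hgJp (E := E) (Q := Q) (fun n hn => hQ n (hgPK (hgJP hn)))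
    (by
      refine hJg.trans (Subgroup.closure_mono fun x hx => ⟨hx.1, ?_⟩)
      exact hJg' (Subgroup.subset_closure hx)) (lt_of_le_of_ne hEgJ fun h => by
        have h1 : Nat.card E = Nat.card J := by rw [h, card_conj]
        exact hne (Subgroup.eq_of_le_of_card_ge hEJ h1.ge)) hEgen
  -- key
  have key : ∀ a ∈ K, ∀ b ∈ K, ∀ x ∈ Q, x ∉ E → E ≤ P.map (MulAut.conj a).toMonoidHom → E ≤ P.map (MulAut.conj b).toMonoidHom →
      x ∈ P.map (MulAut.conj a).toMonoidHom → x ∈ P.map (MulAut.conj b).toMonoidHom → a⁻¹ * b ∈ M := by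
    intro a ha b hb x hx hxE h1 h2 h3 h4
    by_contra hcon
    have hc := hmax (a⁻¹ * b) ⟨K.mul_mem (K.inv_mem ha) hb, hcon⟩
    have hin : ∀ y ∈ Q, y ∈ P.map (MulAut.conj a).toMonoidHom → y ∈ P.map (MulAut.conj b).toMonoidHom →
        a⁻¹ * y * a⁻¹⁻¹ ∈ Ef (a⁻¹ * b) := by
      intro y hy hy1 hy2
      refine Subgroup.subset_closure ⟨⟨hQ a⁻¹ (K.inv_mem ha) y hy, ?_⟩, ?_⟩
      · have := mem_conj.1 hy1
        rwa [← inv_inv a, inv_inv a⁻¹] at this
      · rw [SetLike.mem_coe, mem_conj]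
        have := mem_conj.1 hy2
        have e : (a⁻¹ * b)⁻¹ * (a⁻¹ * y * a⁻¹⁻¹) * (a⁻¹ * b) = b⁻¹ * y * b := by group
        rwa [e]
    have hle : E.map (MulAut.conj a⁻¹).toMonoidHom ≤ Ef (a⁻¹ * b) := by
      rw [hE]
      refine closure_conj_le fun y hy => hin y hy.1.1 (h1 (Subgroup.subset_closure hy)) (h2 (Subgroup.subset_closure hy))
    have heq := Subgroup.eq_of_le_of_card_ge hle (by rw [card_conj]; exact hc)
    have h5 := hin x hx h3 h4
    rw [← heq, conj_mem_conj] at h5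
    exact hxE h5
  have hx1P : x1 ∈ P := hJP hx1J
  have hx2K : x2 ∈ K := hgPK (hgJP hx2J)
  have hPsyl : IsSyl p P M := hP.of_le hPM hMK.le
  -- E R is in a conjugate of P
  have hER : ∀ (R : Subgroup G), IsPGroup p R → R ≤ Subgroup.normalizer (E : Set G) → IsPGroup p ↥(R ⊔ E) := by
    intro R hR hRN
    exact IsPGroup.to_sup_of_normal_right' hR (hP.2.1.to_le hEP) hRN
  refine ⟨x1, x2, E, hx1Q, hx1P, hx2Q, hx2K, ?_, hx1N, hx2N, ?_⟩
  · intro hx2M
    have hz : IsPGroup p (Subgroup.zpowers x2) := (hgJp.to_le (by rw [Subgroup.zpowers_le]; exact hx2J))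
    have h1 := hER _ hz (by rw [Subgroup.zpowers_le]; exact hx2N)
    obtain ⟨m, hm, hmP⟩ := hPsyl.exists_conj_le h1 (sup_le (by rw [Subgroup.zpowers_le]; exact hx2M) (hEP.trans hPM))
    have h2 : Subgroup.zpowers x2 ⊔ E ≤ P.map (MulAut.conj m⁻¹).toMonoidHom := by rwa [← conj_le_iff]
    have h3 := key m⁻¹ (K.inv_mem (hMK.le hm)) g hgK x2 hx2Q hx2E (le_sup_right.trans h2) hEgP
      (h2 (Subgroup.mem_sup_left (Subgroup.mem_zpowers _))) (hgJP hx2J)
    rw [inv_inv] at h3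
    apply hgM
    have := M.mul_mem (M.inv_mem hm) h3
    rwa [inv_mul_cancel_left] at this
  · intro R hR hRK hRN hx1R
    have h1 := hER R hR hRN
    have h1K : R ⊔ E ≤ K := sup_le hRK (hEP.trans hP.1)
    obtain ⟨a, ha, haP⟩ := hP.exists_conj_le h1 h1K
    have h2 : R ⊔ E ≤ P.map (MulAut.conj a⁻¹).toMonoidHom := by rwa [← conj_le_iff]
    have h3 := key 1 K.one_mem a⁻¹ (K.inv_mem ha) x1 hx1Q hx1E (by rw [conj_one]; exact hEP) (le_sup_right.trans h2)
      (by rw [conj_one]; exact hx1P) (h2 (Subgroup.mem_sup_left hx1R))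
    rw [inv_one, one_mul] at h3
    have haM : a ∈ M := by have := M.inv_mem h3; rwa [inv_inv] at this
    refine ⟨?_, ?_⟩
    · refine le_sup_left.trans (h2.trans ?_)
      have := conj_mono hPM a⁻¹
      rwa [conj_eq_of_mem h3] at this
    · intro n hnK hnR hnE
      have h4 : (R ⊔ E).map (MulAut.conj n).toMonoidHom = R ⊔ E := by
        rw [conj_sup, mem_normalizer_iff'.1 hnR, mem_normalizer_iff'.1 hnE]
      have h5 : R ⊔ E ≤ P.map (MulAut.conj (n * a⁻¹)).toMonoidHom := by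
        rw [← h4, ← conj_conj]
        exact conj_mono h2 n
      have h6 := key 1 K.one_mem (n * a⁻¹) (K.mul_mem hnK (K.inv_mem ha)) x1 hx1Q hx1E (by rw [conj_one]; exact hEP)
        (le_sup_right.trans h5) (by rw [conj_one]; exact hx1P) (h5 (Subgroup.mem_sup_left hx1R))
      rw [inv_one, one_mul] at h6
      have := M.mul_mem h6 haM
      rwa [inv_mul_cancel_right] at this

end H78.Zf
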