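import Cfsg.Agent.Lib.H78.ZfB
import Cfsg.Agent.Lib.H51.QuadL2

/-! The section lemma for a group acting on an abelian `p`-subgroup. -/

set_option autoImplicit false

namespace H78.Zf

open Cfsg H38.Basic H51.QuadL2

attribute [local instance] H51.QuadL2.cgV

theorem ml {Γ : Type*} [Group Γ] [Finite Γ] {p : ℕ} [hp : Fact p.Prime] (hp2 : p ≠ 2) {V : Subgroup Γ}
    (hVc : ∀ a ∈ V, ∀ b ∈ V, a * b = b * a) (hVp : IsPGroup p V) {x1 x2 : Γ}
    (h1 : x1 ∈ Subgroup.normalizer (V : Set Γ)) (h2 : x2 ∈ Subgroup.normalizer (V : Set Γ))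
    (hq1 : ∀ v ∈ V, x1 * (x1 * v * x1⁻¹ * v⁻¹) * x1⁻¹ * (x1 * v * x1⁻¹ * v⁻¹)⁻¹ = 1)
    (hq2 : ∀ v ∈ V, x2 * (x2 * v * x2⁻¹ * v⁻¹) * x2⁻¹ * (x2 * v * x2⁻¹ * v⁻¹)⁻¹ = 1) {ω : ℕ} (hω : ¬ p ∣ ω)
    {g : Γ} (hg : g ∈ Subgroup.closure {x1, x2}) {m : ℕ} (hm : ¬ p ∣ m) (hgm : g ^ m = 1) {u : Γ} (hu : u ∈ V)
    (hgu : g * u * g⁻¹ ≠ u) :
    ∃ Va Vb : Subgroup Γ, Vb ≤ Va ∧ Va ≤ V ∧ (x1 ∈ Subgroup.normalizer (Va : Set Γ) ∧ x2 ∈ Subgroup.normalizer (Va : Set Γ)) ∧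
      (x1 ∈ Subgroup.normalizer (Vb : Set Γ) ∧ x2 ∈ Subgroup.normalizer (Vb : Set Γ)) ∧ u ∈ Va ∧ u ∉ Vb ∧
      (∀ v ∈ Va, v ^ p ∈ Vb) ∧ (∃ v ∈ Va, x1 * v * x1⁻¹ * v⁻¹ ∉ Vb) ∧ ∃ t ∈ Subgroup.closure {x1, x2},
        (∀ v ∈ Va, x1 * v * x1⁻¹ * v⁻¹ ∈ Vb → t * v * t⁻¹ * (v ^ ω)⁻¹ ∈ Vb) ∧
        ∀ v ∈ Va, x1 * ((t * v * t⁻¹) ^ ω * v⁻¹) * x1⁻¹ * ((t * v * t⁻¹) ^ ω * v⁻¹)⁻¹ ∈ Vb := by
  classical
  have hcomm : IsMulCommutative V := ⟨⟨fun a b => Subtype.ext (hVc a a.2 b b.2)⟩⟩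
  let R := rho V
  let n1 : Subgroup.normalizer (V : Set Γ) := ⟨x1, h1⟩
  let n2 : Subgroup.normalizer (V : Set Γ) := ⟨x2, h2⟩
  let a : AddMonoid.End (Additive V) := R n1 - 1
  let b : AddMonoid.End (Additive V) := R n2 - 1
  have hab1 : 1 + a = R n1 := by simp [a]
  have hab2 : 1 + b = R n2 := by simp [b]
  have ha : ∀ w : Additive V, ((a w).toMul : Γ) = x1 * (w.toMul : Γ) * x1⁻¹ * (w.toMul : Γ)⁻¹ := by
    intro w
    have e : a w = R n1 w - w := rfl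
    rw [e, sub_eq_add_neg]
    rfl
  have hb : ∀ w : Additive V, ((b w).toMul : Γ) = x2 * (w.toMul : Γ) * x2⁻¹ * (w.toMul : Γ)⁻¹ := by
    intro w
    have e : b w = R n2 w - w := rfl
    rw [e, sub_eq_add_neg]
    rfl
  have haa : ∀ w, a (a w) = 0 := by
    intro w
    have e : ((a (a w)).toMul : Γ) = 1 := by rw [ha, ha]; exact hq1 _ w.toMul.2
    exact Subtype.ext e
  have hbb : ∀ w, b (b w) = 0 := by
    intro w
    have e : ((b (b w)).toMul : Γ) = 1 := by rw [hb, hb]; exact hq2 _ w.toMul.2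
    exact Subtype.ext e
  have hLN : Subgroup.closure {x1, x2} ≤ Subgroup.normalizer (V : Set Γ) := by
    rw [Subgroup.closure_le]
    rintro x (rfl | rfl)
    · exact h1
    · exact h2
  have hgR : ∀ g, g ∈ Subgroup.closure {x1, x2} → ∀ hg' : g ∈ Subgroup.normalizer (V : Set Γ), R ⟨g, hg'⟩ ∈ Submonoid.closure {1 + a, 1 + b} := by
    intro g hg
    induction hg using Subgroup.closure_induction with
    | mem x hx =>
      intro hx'
      rcases hx with rfl | rfl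
      · rw [hab1]; exact Submonoid.subset_closure (Or.inl rfl)
      · rw [hab2]; exact Submonoid.subset_closure (Or.inr rfl)
    | one => intro h'; have : R ⟨1, h'⟩ = 1 := map_one R; rw [this]; exact one_mem _
    | mul x y hx hy h1 h2 =>
      intro h'
      have : R ⟨x * y, h'⟩ = R ⟨x, hLN hx⟩ * R ⟨y, hLN hy⟩ := by rw [← map_mul]; rfl
      rw [this]; exact mul_mem (h1 _) (h2 _)
    | inv x hx h1 =>
      intro h'
      have : R ⟨x⁻¹, h'⟩ = R ⟨x, hLN hx⟩ ^ (orderOf x - 1) := by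
        rw [← map_pow]
        congr 1
        apply Subtype.ext
        show x⁻¹ = x ^ (orderOf x - 1)
        rw [inv_eq_iff_mul_eq_one, ← pow_succ', Nat.sub_add_cancel (orderOf_pos x), pow_orderOf_eq_one]
      rw [this]; exact pow_mem (h1 _) _
  have htR : ∀ τ ∈ Submonoid.closure {1 + a, 1 + b}, ∃ t, t ∈ Subgroup.closure {x1, x2} ∧ ∃ ht : t ∈ Subgroup.normalizer (V : Set Γ), τ = R ⟨t, ht⟩ := by
    intro τ hτ
    induction hτ using Submonoid.closure_induction with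
    | mem x hx =>
      rcases hx with rfl | rfl
      · exact ⟨x1, Subgroup.subset_closure (by simp), h1, hab1⟩
      · exact ⟨x2, Subgroup.subset_closure (by simp), h2, hab2⟩
    | one => exact ⟨1, one_mem _, one_mem _, (map_one R).symm⟩
    | mul x y hx hy h1 h2 =>
      obtain ⟨t, ht, ht', rfl⟩ := h1
      obtain ⟨s, hs, hs', rfl⟩ := h2
      exact ⟨t * s, mul_mem ht hs, mul_mem ht' hs', by rw [← map_mul]; rfl⟩
  have hfinA : Finite (Additive V) := inferInstanceAs (Finite V)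
  obtain ⟨Va', Vb', hVba, hVai, hVbi, hua, hub, hpV, ⟨v0, hv0, hv0'⟩, τ, hτ, hτ1, hτ2⟩ := sec (A := Additive V) (p := p) hp2 (a := a) (b := b)
    (by
      intro v
      obtain ⟨k, hk⟩ := hVp v.toMul
      exact ⟨k, hk⟩) haa hbb hω (g := R ⟨g, hLN hg⟩) (hgR g hg (hLN hg)) hm (by
      rw [← map_pow]
      have : (⟨g, hLN hg⟩ : Subgroup.normalizer (V : Set Γ)) ^ m = 1 := Subtype.ext hgm
      rw [this, map_one]) (u := Additive.ofMul ⟨u, hu⟩) (by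
      intro h
      apply hgu
      exact congrArg (fun w : Additive V => (w.toMul : Γ)) h)
  obtain ⟨t, ht, htN, rfl⟩ := htR τ hτ
  let toS : AddSubgroup (Additive V) → Subgroup Γ := fun N => (AddSubgroup.toSubgroup N).map V.subtype
  have htoS : ∀ (N : AddSubgroup (Additive V)) (v : Γ), v ∈ toS N ↔ ∃ hv : v ∈ V, Additive.ofMul (⟨v, hv⟩ : V) ∈ N := by
    intro N v
    constructor
    · rintro ⟨⟨w, hw⟩, hw1, rfl⟩
      exact ⟨hw, hw1⟩
    · rintro ⟨hv, hv1⟩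
      exact ⟨⟨v, hv⟩, hv1, rfl⟩
  have hnorm : ∀ (N : AddSubgroup (Additive V)), Inv2 a b N → x1 ∈ Subgroup.normalizer (toS N : Set Γ) ∧ x2 ∈ Subgroup.normalizer (toS N : Set Γ) := by
    intro N hN
    constructor
    · rw [mem_normalizer_iff']
      refine Subgroup.eq_of_le_of_card_ge ?_ (by rw [card_conj])
      rintro _ ⟨v, hv, rfl⟩
      obtain ⟨hv1, hv2⟩ := (htoS N v).1 hv
      refine (htoS N _).2 ⟨(Subgroup.mem_normalizer_iff.1 h1 v).1 hv1, ?_⟩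
      have := N.add_mem (hN.1 _ hv2) hv2
      have e : a (Additive.ofMul ⟨v, hv1⟩) + Additive.ofMul ⟨v, hv1⟩ = R n1 (Additive.ofMul ⟨v, hv1⟩) := by
        have e1 : a (Additive.ofMul ⟨v, hv1⟩) = R n1 (Additive.ofMul ⟨v, hv1⟩) - Additive.ofMul ⟨v, hv1⟩ := rfl
        rw [e1, sub_add_cancel]
      rw [e] at this
      exact this
    · rw [mem_normalizer_iff']
      refine Subgroup.eq_of_le_of_card_ge ?_ (by rw [card_conj])
      rintro _ ⟨v, hv, rfl⟩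
      obtain ⟨hv1, hv2⟩ := (htoS N v).1 hv
      refine (htoS N _).2 ⟨(Subgroup.mem_normalizer_iff.1 h2 v).1 hv1, ?_⟩
      have := N.add_mem (hN.2 _ hv2) hv2
      have e : b (Additive.ofMul ⟨v, hv1⟩) + Additive.ofMul ⟨v, hv1⟩ = R n2 (Additive.ofMul ⟨v, hv1⟩) := by
        have e1 : b (Additive.ofMul ⟨v, hv1⟩) = R n2 (Additive.ofMul ⟨v, hv1⟩) - Additive.ofMul ⟨v, hv1⟩ := rfl
        rw [e1, sub_add_cancel]
      rw [e] at this
      exact this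
  have hval : ∀ (N : AddSubgroup (Additive V)) (w : Additive V), w ∈ N ↔ (w.toMul : Γ) ∈ toS N := by
    intro N w
    rw [htoS]
    constructor
    · intro h; exact ⟨w.toMul.2, h⟩
    · rintro ⟨_, h⟩; exact h
  refine ⟨toS Va', toS Vb', ?_, ?_, hnorm _ hVai, hnorm _ hVbi, (htoS _ _).2 ⟨hu, hua⟩, ?_, ?_, ?_, t, ht, ?_, ?_⟩
  · intro v hv
    obtain ⟨hv1, hv2⟩ := (htoS _ v).1 hv
    exact (htoS _ _).2 ⟨hv1, hVba hv2⟩
  · intro v hv
    exact ((htoS _ v).1 hv).1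
  · intro h
    exact hub ((htoS _ _).1 h).2
  · intro v hv
    obtain ⟨hv1, hv2⟩ := (htoS _ v).1 hv
    exact (htoS _ _).2 ⟨V.pow_mem hv1 _, hpV _ hv2⟩
  · refine ⟨(v0.toMul : Γ), (hval _ _).1 hv0, fun h => hv0' ?_⟩
    rw [hval, ha]; exact h
  · intro v hv hx
    obtain ⟨hv1, hv2⟩ := (htoS _ v).1 hv
    have h3 := hτ1 _ hv2 (by rw [hval, ha]; exact hx)
    rw [hval, sub_eq_add_neg] at h3
    exact h3
  · intro v hv
    obtain ⟨hv1, hv2⟩ := (htoS _ v).1 hv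
    have h3 := hτ2 _ hv2
    rw [hval, ha, sub_eq_add_neg] at h3
    exact h3

end H78.Zf
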