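import Cfsg.Agent.Lib.H78.ZfG
import Cfsg.Agent.Lib.H78.ZfH

/-! The section data from a quadratic pair. -/

set_option autoImplicit false

namespace H78.Zf

open Cfsg H38.Basic

structure DatP (p ω : ℕ) {G : Type*} [Group G] (Va A1 Vb : Subgroup G) (x t u : G) : Prop where
  hVbA : Vb ≤ A1
  hA1V : A1 ≤ Va
  comm : ∀ v ∈ Va, ∀ w ∈ Va, v * w * v⁻¹ * w⁻¹ ∈ Vb
  pw : ∀ v ∈ Va, v ^ p ∈ Vb
  xVb : x ∈ Subgroup.normalizer (Vb : Set G)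
  xV : ∀ v ∈ Va, x * v * x⁻¹ * v⁻¹ ∈ A1
  xA : ∀ v ∈ Va, v ∈ A1 ↔ x * v * x⁻¹ * v⁻¹ ∈ Vb
  v1 : ∃ v ∈ Va, v ∉ A1
  tVa : t ∈ Subgroup.normalizer (Va : Set G)
  tVb : t ∈ Subgroup.normalizer (Vb : Set G)
  tA : ∀ a ∈ A1, t * a * t⁻¹ * (a ^ ω)⁻¹ ∈ Vb
  tV : ∀ v ∈ Va, (t * v * t⁻¹) ^ ω * v⁻¹ ∈ A1
  uA : u ∈ A1
  uB : u ∉ Vb

section

variable {G : Type*} [Group G] [Finite G] {p : ℕ} [hp : Fact p.Prime]

theorem mem_norm_of_le {A : Subgroup G} {g : G} (h : ∀ a ∈ A, g * a * g⁻¹ ∈ A) : g ∈ Subgroup.normalizer (A : Set G) := by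
  rw [mem_normalizer_iff']
  refine Subgroup.eq_of_le_of_card_ge ?_ (by rw [card_conj])
  rintro _ ⟨a, ha, rfl⟩
  exact h a ha

theorem le_op_sup {L R : Subgroup G} (hR : IsSyl p R L) : L ≤ Subgroup.closure {g | g ∈ L ∧ ¬ p ∣ orderOf g} ⊔ R := by
  set N := Subgroup.closure {g | g ∈ L ∧ ¬ p ∣ orderOf g} with hN
  have hNL : N ≤ L := (Subgroup.closure_le _).2 fun x hx => hx.1
  have hle : N ⊔ R ≤ L := sup_le hNL hR.1
  rw [← Subgroup.relIndex_eq_one]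
  by_contra hne
  obtain ⟨q, hq, hqd⟩ := Nat.exists_prime_and_dvd hne
  have := Fact.mk hq
  by_cases hqp : q = p
  · subst hqp
    apply hR.2.2
    rw [← Subgroup.relIndex_mul_relIndex R (N ⊔ R) L le_sup_right hle]
    exact hqd.mul_left _
  · obtain ⟨Q, hQ⟩ := exists_isSyl (p := q) L
    have hQN : Q ≤ N := by
      intro x hx
      refine Subgroup.subset_closure ⟨hQ.1 hx, ?_⟩
      obtain ⟨k, hk⟩ := (IsPGroup.iff_orderOf.1 hQ.2.1) ⟨x, hx⟩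
      rw [Subgroup.orderOf_mk] at hk
      rw [hk]
      intro h
      exact hqp ((Nat.prime_dvd_prime_iff_eq hp.out hq).1 (hp.out.dvd_of_dvd_pow h)).symm
    apply hQ.2.2
    rw [← Subgroup.relIndex_mul_relIndex Q (N ⊔ R) L (hQN.trans le_sup_left) hle]
    exact hqd.mul_left _

/-- quadratic elements -/
def Qs (K V D0 : Subgroup G) : Set G :=
  {x | x ∈ K ∧ ∀ v ∈ V, x * (x * v * x⁻¹ * v⁻¹) * x⁻¹ * (x * v * x⁻¹ * v⁻¹)⁻¹ ∈ D0}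

theorem core_dat (hp2 : p ≠ 2) {D0 K V P M Zs : Subgroup G} [hD0 : D0.Normal] (hD0V : D0 ≤ V) (hVP : V ≤ P)
    (hKV : K ≤ Subgroup.normalizer (V : Set G)) (hVc : ∀ a ∈ V, ∀ b ∈ V, a * b * a⁻¹ * b⁻¹ ∈ D0) (hZV : Zs ≤ V)
    (hPZ : ∀ x ∈ P, ∀ z ∈ Zs, x * z * x⁻¹ * z⁻¹ ∈ D0) (hP : IsSyl p P K) (hPM : P ≤ M) (hMK : M < K)
    (hMc : ∀ g ∈ K, (∀ z ∈ Zs, g * z * g⁻¹ * z⁻¹ ∈ D0) → g ∈ M)
    (hJ : ∀ n ∈ K, n ∈ Subgroup.normalizer (Subgroup.closure (Qs K V D0 ∩ P) : Set G) → n ∈ M) {ω : ℕ} (hω : ¬ p ∣ ω) :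
    ∃ (Va A1 Vb : Subgroup G) (x t u : G), DatP p ω Va A1 Vb x t u ∧ Va ≤ V ∧ x ∈ P ∧ t ∈ M ∧ u ∈ Zs := by
  classical
  have hQ : ∀ n ∈ K, ∀ x ∈ Qs K V D0, n * x * n⁻¹ ∈ Qs K V D0 := by
    rintro n hn x ⟨hx, hxq⟩
    refine ⟨K.mul_mem (K.mul_mem hn hx) (K.inv_mem hn), fun v hv => ?_⟩
    have hv' : n⁻¹ * v * n ∈ V := by
      have := (Subgroup.mem_normalizer_iff.1 (Subgroup.inv_mem _ (hKV hn)) v).1 hv
      rwa [inv_inv] at this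
    have h1 := hD0.conj_mem _ (hxq _ hv') n
    have e : n * x * n⁻¹ * (n * x * n⁻¹ * v * (n * x * n⁻¹)⁻¹ * v⁻¹) * (n * x * n⁻¹)⁻¹ * (n * x * n⁻¹ * v * (n * x * n⁻¹)⁻¹ * v⁻¹)⁻¹ =
        n * (x * (x * (n⁻¹ * v * n) * x⁻¹ * (n⁻¹ * v * n)⁻¹) * x⁻¹ * (x * (n⁻¹ * v * n) * x⁻¹ * (n⁻¹ * v * n)⁻¹)⁻¹) * n⁻¹ := by group
    rw [e]; exact h1
  obtain ⟨x1, x2, E, hx1Q, hx1P, hx2Q, hx2K, hx2M, hx1E, hx2E, hpr⟩ := pair hP hPM hMK hQ hJ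
  have hx1K : x1 ∈ K := hP.1 hx1P
  set L := Subgroup.closure {x1, x2} with hL
  have hLK : L ≤ K := by
    rw [hL, Subgroup.closure_le]
    rintro x (rfl | rfl)
    · exact hx1K
    · exact hx2K
  have hLE : L ≤ Subgroup.normalizer (E : Set G) := by
    rw [hL, Subgroup.closure_le]
    rintro x (rfl | rfl)
    · exact hx1E
    · exact hx2E
  have hx1L : x1 ∈ L := Subgroup.subset_closure (by simp)
  have hx2L : x2 ∈ L := Subgroup.subset_closure (by simp)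
  have hx1p : IsPGroup p (Subgroup.zpowers x1) := hP.2.1.to_le (by rw [Subgroup.zpowers_le]; exact hx1P)
  have hne : ∃ g ∈ L, ¬ p ∣ orderOf g ∧ ∃ z ∈ Zs, g * z * g⁻¹ * z⁻¹ ∉ D0 := by
    by_contra hcon
    push Not at hcon
    obtain ⟨R, hR, hxR⟩ := exists_isSyl_ge (p := p) (Q := Subgroup.zpowers x1) (H := L) hx1p (by rw [Subgroup.zpowers_le]; exact hx1L)
    have h1 := (hpr R hR.2.1 (hR.1.trans hLK) (hR.1.trans hLE) (hxR (Subgroup.mem_zpowers _))).1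
    have h2 : L ≤ M := by
      refine (le_op_sup hR).trans (sup_le ?_ h1)
      rw [Subgroup.closure_le]
      rintro g ⟨hg1, hg2⟩
      exact hMc g (hLK hg1) (hcon g hg1 hg2)
    exact hx2M (h2 hx2L)
  obtain ⟨g, hgL, hgp, z, hz, hgz⟩ := hne
  -- the quotient
  let π := QuotientGroup.mk' D0
  have hπ : ∀ a : G, π a = 1 ↔ a ∈ D0 := by
    intro a
    rw [QuotientGroup.mk'_apply, QuotientGroup.eq_one_iff]
  have hnormV : ∀ k ∈ K, π k ∈ Subgroup.normalizer ((V.map π : Subgroup (G ⧸ D0)) : Set (G ⧸ D0)) := by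
    intro k hk
    apply mem_norm_of_le
    rintro _ ⟨v, hv, rfl⟩
    exact ⟨k * v * k⁻¹, (Subgroup.mem_normalizer_iff.1 (hKV hk) v).1 hv, by simp⟩
  have hVp : IsPGroup p V := hP.2.1.to_le hVP
  obtain ⟨Vaq, Vbq, hba, haV, hnVa, hnVb, huq, hubq, hpq, ⟨v1q, hv1q, hv1q'⟩, tq, htq, ht1q, ht2q⟩ := ml (p := p) hp2 (V := V.map π) (x1 := π x1) (x2 := π x2)
    (by
      rintro _ ⟨a, ha, rfl⟩ _ ⟨b, hb, rfl⟩
      have := (hπ _).2 (hVc a ha b hb)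
      rw [map_mul, map_mul, map_mul, map_inv, map_inv] at this
      rw [mul_inv_eq_one] at this
      exact mul_inv_eq_iff_eq_mul.1 this)
    (hVp.map π) (hnormV x1 hx1K) (hnormV x2 hx2K)
    (by
      rintro _ ⟨v, hv, rfl⟩
      have := (hπ _).2 (hx1Q.2 v hv)
      simpa only [map_mul, map_inv] using this)
    (by
      rintro _ ⟨v, hv, rfl⟩
      have := (hπ _).2 (hx2Q.2 v hv)
      simpa only [map_mul, map_inv] using this) hω (g := π g)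
    (by
      have : Subgroup.closure {π x1, π x2} = L.map π := by
        rw [hL, MonoidHom.map_closure, Set.image_pair]
      rw [this]; exact ⟨g, hgL, rfl⟩) hgp (by rw [← map_pow, pow_orderOf_eq_one, map_one]) (u := π z) ⟨z, hZV hz, rfl⟩
    (by
      intro h
      apply hgz
      rw [← hπ, map_mul, map_mul, map_mul, map_inv, map_inv, h, mul_inv_cancel])
  have hclo : Subgroup.closure {π x1, π x2} = L.map π := by
    rw [hL, MonoidHom.map_closure, Set.image_pair]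
  rw [hclo] at htq
  obtain ⟨t0, ht0L, rfl⟩ := htq
  have hπs : Function.Surjective π := QuotientGroup.mk'_surjective D0
  set Va := Vaq.comap π with hVa
  set Vb := Vbq.comap π with hVb
  have hVaV : Va ≤ V := by
    intro v hv
    obtain ⟨w, hw, hwv⟩ := haV hv
    have h1 : w⁻¹ * v ∈ D0 := by rw [← hπ, map_mul, map_inv, hwv, inv_mul_cancel]
    have := V.mul_mem hw (hD0V h1)
    rwa [mul_inv_cancel_left] at this
  have hVba : Vb ≤ Va := fun v hv => hba hv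
  have hD0Vb : D0 ≤ Vb := by
    intro d hd
    show π d ∈ Vbq
    rw [(hπ d).2 hd]; exact one_mem _
  have hnorm : ∀ (N : Subgroup (G ⧸ D0)) (g : G), π g ∈ Subgroup.normalizer (N : Set (G ⧸ D0)) → g ∈ Subgroup.normalizer ((N.comap π : Subgroup G) : Set G) := by
    intro N g hg
    apply mem_norm_of_le
    intro a ha
    show π (g * a * g⁻¹) ∈ N
    rw [map_mul, map_mul, map_inv]
    exact (Subgroup.mem_normalizer_iff.1 hg _).1 ha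
  have hLVa : L ≤ Subgroup.normalizer (Va : Set G) := by
    rw [hL, Subgroup.closure_le]
    rintro x (rfl | rfl)
    · exact hnorm _ _ hnVa.1
    · exact hnorm _ _ hnVa.2
  have hLVb : L ≤ Subgroup.normalizer (Vb : Set G) := by
    rw [hL, Subgroup.closure_le]
    rintro x (rfl | rfl)
    · exact hnorm _ _ hnVb.1
    · exact hnorm _ _ hnVb.2
  have hVVb : ∀ v ∈ V, v ∈ Subgroup.normalizer (Vb : Set G) := by
    intro v hv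
    apply mem_norm_of_le
    intro b hb
    have h1 := hD0Vb (hVc v hv b (hVaV (hVba hb)))
    have := Vb.mul_mem h1 hb
    rwa [inv_mul_cancel_right] at this
  let A1 : Subgroup G := {
    carrier := {v | v ∈ Va ∧ x1 * v * x1⁻¹ * v⁻¹ ∈ Vb}
    one_mem' := ⟨Va.one_mem, by simp [Vb.one_mem]⟩
    mul_mem' := by
      rintro v w ⟨hv1, hv2⟩ ⟨hw1, hw2⟩
      refine ⟨Va.mul_mem hv1 hw1, ?_⟩
      have e : x1 * (v * w) * x1⁻¹ * (v * w)⁻¹ = (x1 * v * x1⁻¹ * v⁻¹) * (v * (x1 * w * x1⁻¹ * w⁻¹) * v⁻¹) := by group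
      rw [e]
      exact Vb.mul_mem hv2 ((Subgroup.mem_normalizer_iff.1 (hVVb v (hVaV hv1)) _).1 hw2)
    inv_mem' := by
      rintro v ⟨hv1, hv2⟩
      refine ⟨Va.inv_mem hv1, ?_⟩
      have e : x1 * v⁻¹ * x1⁻¹ * v⁻¹⁻¹ = v⁻¹ * (x1 * v * x1⁻¹ * v⁻¹)⁻¹ * v⁻¹⁻¹ := by group
      rw [e]
      exact (Subgroup.mem_normalizer_iff.1 (hVVb v⁻¹ (V.inv_mem (hVaV hv1))) _).1 (Vb.inv_mem hv2) }
  have hA1 : ∀ v, v ∈ A1 ↔ v ∈ Va ∧ x1 * v * x1⁻¹ * v⁻¹ ∈ Vb := fun v => Iff.rfl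
  have hVbA : Vb ≤ A1 := by
    intro b hb
    refine ⟨hVba hb, ?_⟩
    exact Vb.mul_mem ((Subgroup.mem_normalizer_iff.1 (hLVb hx1L) b).1 hb) (Vb.inv_mem hb)
  have hA1V : A1 ≤ Va := fun v hv => hv.1
  have ht1 : ∀ v ∈ A1, t0 * v * t0⁻¹ * (v ^ ω)⁻¹ ∈ Vb := by
    rintro v ⟨hv1, hv2⟩
    have hv3 : π (x1 * v * x1⁻¹ * v⁻¹) ∈ Vbq := hv2
    have := ht1q (π v) hv1 (by simpa only [map_mul, map_inv] using hv3)
    show π _ ∈ Vbq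
    simpa only [map_mul, map_inv, map_pow] using this
  have hVaconj : ∀ l ∈ L, ∀ v ∈ Va, l * v * l⁻¹ ∈ Va := fun l hl v hv => (Subgroup.mem_normalizer_iff.1 (hLVa hl) v).1 hv
  have ht2 : ∀ v ∈ Va, (t0 * v * t0⁻¹) ^ ω * v⁻¹ ∈ A1 := by
    intro v hv
    refine ⟨Va.mul_mem (Va.pow_mem (hVaconj t0 ht0L v hv) _) (Va.inv_mem hv), ?_⟩
    have := ht2q (π v) hv
    show π _ ∈ Vbq
    simpa only [map_mul, map_inv, map_pow] using this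
  have ht0A : t0 ∈ Subgroup.normalizer (A1 : Set G) := by
    apply mem_norm_of_le
    intro a ha
    have := A1.mul_mem (hVbA (ht1 a ha)) (A1.pow_mem ha ω)
    rwa [inv_mul_cancel_right] at this
  have hx1A : ∀ v ∈ Va, x1 * v * x1⁻¹ * v⁻¹ ∈ A1 := by
    intro v hv
    exact ⟨Va.mul_mem (hVaconj x1 hx1L v hv) (Va.inv_mem hv), hD0Vb (hx1Q.2 v (hVaV hv))⟩
  have hx1NA : x1 ∈ Subgroup.normalizer (A1 : Set G) := by
    apply mem_norm_of_le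
    intro a ha
    have := A1.mul_mem (hx1A a (hA1V ha)) ha
    rwa [inv_mul_cancel_right] at this
  -- U_B
  set L' := L ⊓ Subgroup.normalizer (A1 : Set G) with hL'
  have hAconj : ∀ l ∈ L', ∀ a ∈ A1, l * a * l⁻¹ ∈ A1 := fun l hl a ha => (Subgroup.mem_normalizer_iff.1 hl.2 a).1 ha
  have hBconj : ∀ l ∈ L', ∀ b ∈ Vb, l * b * l⁻¹ ∈ Vb := fun l hl a ha => (Subgroup.mem_normalizer_iff.1 (hLVb hl.1) a).1 ha
  let UB : Subgroup G := {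
    carrier := {l | l ∈ L' ∧ (∀ v ∈ Va, l * v * l⁻¹ * v⁻¹ ∈ A1) ∧ ∀ a ∈ A1, l * a * l⁻¹ * a⁻¹ ∈ Vb}
    one_mem' := ⟨L'.one_mem, fun v _ => by simp [A1.one_mem], fun v _ => by simp [Vb.one_mem]⟩
    mul_mem' := by
      rintro l m ⟨l0, l1, l2⟩ ⟨m0, m1, m2⟩
      refine ⟨L'.mul_mem l0 m0, fun v hv => ?_, fun a ha => ?_⟩
      · have e : l * m * v * (l * m)⁻¹ * v⁻¹ = (l * (m * v * m⁻¹ * v⁻¹) * l⁻¹) * (l * v * l⁻¹ * v⁻¹) := by group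
        rw [e]; exact A1.mul_mem (hAconj l l0 _ (m1 v hv)) (l1 v hv)
      · have e : l * m * a * (l * m)⁻¹ * a⁻¹ = (l * (m * a * m⁻¹ * a⁻¹) * l⁻¹) * (l * a * l⁻¹ * a⁻¹) := by group
        rw [e]; exact Vb.mul_mem (hBconj l l0 _ (m2 a ha)) (l2 a ha)
    inv_mem' := by
      rintro l ⟨l0, l1, l2⟩
      refine ⟨L'.inv_mem l0, fun v hv => ?_, fun a ha => ?_⟩
      · have e : l⁻¹ * v * l⁻¹⁻¹ * v⁻¹ = l⁻¹ * (l * v * l⁻¹ * v⁻¹)⁻¹ * l⁻¹⁻¹ := by group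
        rw [e]; exact hAconj _ (L'.inv_mem l0) _ (A1.inv_mem (l1 v hv))
      · have e : l⁻¹ * a * l⁻¹⁻¹ * a⁻¹ = l⁻¹ * (l * a * l⁻¹ * a⁻¹)⁻¹ * l⁻¹⁻¹ := by group
        rw [e]; exact hBconj _ (L'.inv_mem l0) _ (Vb.inv_mem (l2 a ha)) }
  have hUBL : UB ≤ L' := fun l hl => hl.1
  have hx1U : x1 ∈ UB := ⟨⟨hx1L, hx1NA⟩, hx1A, fun a ha => ha.2⟩
  have hLU : L' ≤ Subgroup.normalizer (UB : Set G) := by
    intro n hn
    apply mem_norm_of_le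
    rintro l ⟨l0, l1, l2⟩
    have hn' := L'.inv_mem hn
    refine ⟨L'.mul_mem (L'.mul_mem hn l0) hn', fun v hv => ?_, fun a ha => ?_⟩
    · have e : n * l * n⁻¹ * v * (n * l * n⁻¹)⁻¹ * v⁻¹ = n * (l * (n⁻¹ * v * n⁻¹⁻¹) * l⁻¹ * (n⁻¹ * v * n⁻¹⁻¹)⁻¹) * n⁻¹ := by group
      rw [e]; exact hAconj n hn _ (l1 _ (hVaconj _ hn'.1 v hv))
    · have e : n * l * n⁻¹ * a * (n * l * n⁻¹)⁻¹ * a⁻¹ = n * (l * (n⁻¹ * a * n⁻¹⁻¹) * l⁻¹ * (n⁻¹ * a * n⁻¹⁻¹)⁻¹) * n⁻¹ := by group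
      rw [e]; exact hBconj n hn _ (l2 _ (hAconj _ hn' a ha))
  obtain ⟨R, hR, hxR⟩ := exists_isSyl_ge (p := p) (Q := Subgroup.zpowers x1) (H := UB) hx1p (by rw [Subgroup.zpowers_le]; exact hx1U)
  obtain ⟨m, hm, n, hn, hmn⟩ := H38.Goldschmidt.frattini (T := R) (M := UB) (N := L') hR hLU (x := t0) ⟨ht0L, ht0A⟩ hUBL
  have hRL : R ≤ L := hR.1.trans (hUBL.trans inf_le_left)
  have hnM : n ∈ M := (hpr R hR.2.1 (hRL.trans hLK) (hRL.trans hLE) (hxR (Subgroup.mem_zpowers _))).2 n (hLK hn.1.1) hn.2 (hLE hn.1.1)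
  have hm' := UB.inv_mem hm
  have hnt : n = m⁻¹ * t0 := by rw [hmn]; group
  refine ⟨Va, A1, Vb, x1, n, z, ⟨hVbA, hA1V, ?_, ?_, hLVb hx1L, hx1A, ?_, ?_, hLVa hn.1.1, hLVb hn.1.1, ?_, ?_, ?_, ?_⟩, hVaV, hx1P, hnM, hz⟩
  · intro v hv w hw
    exact hD0Vb (hVc v (hVaV hv) w (hVaV hw))
  · intro v hv
    show π _ ∈ Vbq
    rw [map_pow]
    exact hpq _ hv
  · intro v hv
    exact ⟨fun h => h.2, fun h => ⟨hv, h⟩⟩
  · obtain ⟨v1, rfl⟩ := hπs v1q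
    refine ⟨v1, hv1q, fun h => hv1q' ?_⟩
    have : π (x1 * v1 * x1⁻¹ * v1⁻¹) ∈ Vbq := h.2
    simpa only [map_mul, map_inv] using this
  · intro a ha
    have e : n * a * n⁻¹ * (a ^ ω)⁻¹ = (m⁻¹ * (t0 * a * t0⁻¹ * (a ^ ω)⁻¹) * m⁻¹⁻¹) * (m⁻¹ * (a ^ ω) * m⁻¹⁻¹ * (a ^ ω)⁻¹) := by rw [hnt]; group
    rw [e]
    exact Vb.mul_mem (hBconj _ hm'.1 _ (ht1 a ha)) (hm'.2.2 _ (A1.pow_mem ha _))
  · intro v hv
    have hw : (t0 * v * t0⁻¹) ^ ω ∈ Va := Va.pow_mem (hVaconj t0 ht0L v hv) _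
    have e : (n * v * n⁻¹) ^ ω * v⁻¹ = (m⁻¹ * (t0 * v * t0⁻¹) ^ ω * m⁻¹⁻¹ * ((t0 * v * t0⁻¹) ^ ω)⁻¹) * ((t0 * v * t0⁻¹) ^ ω * v⁻¹) := by
      have e2 : n * v * n⁻¹ = m⁻¹ * (t0 * v * t0⁻¹) * m⁻¹⁻¹ := by rw [hnt]; group
      rw [e2, conj_pow]; group
    rw [e]
    exact A1.mul_mem (hm'.2.1 _ hw) (ht2 v hv)
  · exact ⟨huq, hD0Vb (hPZ x1 hx1P z hz)⟩
  · exact hubq

end

end H78.Zf
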