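import Cfsg.Agent.Lib.H78.ZfF
import Cfsg.Agent.Lib.H78.ZfI

/-! The conclusion from the section data. -/

set_option autoImplicit false

namespace H78.Zf

open Cfsg H38.Basic

section

variable {G : Type*} [Group G] [Finite G] {p : ℕ} [hp : Fact p.Prime]

theorem DatP.congr {ω : ℕ} {Va A1 Vb : Subgroup G} {x t u h : G} (d : DatP p ω Va A1 Vb x t u)
    (hh : ∀ v ∈ Va, h * v * h⁻¹ = t * v * t⁻¹) : DatP p ω Va A1 Vb x h u where
  hVbA := d.hVbA
  hA1V := d.hA1V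
  comm := d.comm
  pw := d.pw
  xVb := d.xVb
  xV := d.xV
  xA := d.xA
  v1 := d.v1
  tVa := mem_norm_of_le fun a ha => by rw [hh a ha]; exact (Subgroup.mem_normalizer_iff.1 d.tVa a).1 ha
  tVb := mem_norm_of_le fun a ha => by rw [hh a (d.hA1V (d.hVbA ha))]; exact (Subgroup.mem_normalizer_iff.1 d.tVb a).1 ha
  tA := fun a ha => by rw [hh a (d.hA1V ha)]; exact d.tA a ha
  tV := fun v hv => by rw [hh v hv]; exact d.tV v hv
  uA := d.uA
  uB := d.uB

theorem DatP.map {G' : Type*} [Group G'] [Finite G'] {ω : ℕ} {Va A1 Vb : Subgroup G} {x t u : G} (d : DatP p ω Va A1 Vb x t u)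
    (f : G →* G') (hf : Function.Injective f) : DatP p ω (Va.map f) (A1.map f) (Vb.map f) (f x) (f t) (f u) := by
  have hm : ∀ (A : Subgroup G) (a : G), f a ∈ A.map f ↔ a ∈ A := fun A a => Subgroup.mem_map_iff_mem hf
  have hn : ∀ (A : Subgroup G) (a : G), a ∈ Subgroup.normalizer (A : Set G) → f a ∈ Subgroup.normalizer ((A.map f : Subgroup G') : Set G') := by
    intro A a ha
    apply mem_norm_of_le
    rintro _ ⟨b, hb, rfl⟩
    exact ⟨a * b * a⁻¹, (Subgroup.mem_normalizer_iff.1 ha b).1 hb, by simp⟩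
  refine ⟨Subgroup.map_mono d.hVbA, Subgroup.map_mono d.hA1V, ?_, ?_, hn _ _ d.xVb, ?_, ?_, ?_, hn _ _ d.tVa, hn _ _ d.tVb, ?_, ?_, ?_, ?_⟩
  · rintro _ ⟨v, hv, rfl⟩ _ ⟨w, hw, rfl⟩
    exact ⟨_, d.comm v hv w hw, by simp⟩
  · rintro _ ⟨v, hv, rfl⟩
    exact ⟨_, d.pw v hv, by simp⟩
  · rintro _ ⟨v, hv, rfl⟩
    exact ⟨_, d.xV v hv, by simp⟩
  · rintro _ ⟨v, hv, rfl⟩
    rw [hm, d.xA v hv, ← hm Vb]
    simp only [map_mul, map_inv]
  · obtain ⟨v, hv, hv1⟩ := d.v1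
    exact ⟨f v, ⟨v, hv, rfl⟩, by rw [hm]; exact hv1⟩
  · rintro _ ⟨v, hv, rfl⟩
    exact ⟨_, d.tA v hv, by simp⟩
  · rintro _ ⟨v, hv, rfl⟩
    exact ⟨_, d.tV v hv, by simp⟩
  · exact ⟨_, d.uA, rfl⟩
  · rw [hm]; exact d.uB

theorem DatP.involves {ω : ℕ} {Va A1 Vb : Subgroup G} {x t u : G} (d : DatP p ω Va A1 Vb x t u)
    {H : Subgroup G} (hVaH : Va ≤ H) (hxH : x ∈ H) (htH : t ∈ H) (hx : IsPGroup p (Subgroup.zpowers x))
    (hω : ¬ p ∣ ω) (hgen : ∀ a : ZMod p, a ≠ 0 → ∃ l : ℕ, (ω : ZMod p) ^ l = a) (hω1 : (ω : ZMod p) ≠ 1) :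
    Involves ↥(fOver (ZMod p)) ↥H := by
  classical
  set X := H ⊓ Subgroup.normalizer (Va : Set G) ⊓ Subgroup.normalizer (A1 : Set G) ⊓ Subgroup.normalizer (Vb : Set G) with hX
  have hVbV := d.hVbA.trans d.hA1V
  have hVaX : Va ≤ X := by
    intro v hv
    refine ⟨⟨⟨hVaH hv, Subgroup.le_normalizer hv⟩, ?_⟩, ?_⟩
    · apply mem_norm_of_le
      intro a ha
      have := A1.mul_mem (d.hVbA (d.comm v hv a (d.hA1V ha))) ha
      rwa [inv_mul_cancel_right] at this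
    · apply mem_norm_of_le
      intro a ha
      have := Vb.mul_mem (d.comm v hv a (hVbV ha)) ha
      rwa [inv_mul_cancel_right] at this
  have hxX : x ∈ X := by
    refine ⟨⟨⟨hxH, ?_⟩, ?_⟩, d.xVb⟩
    · apply mem_norm_of_le
      intro a ha
      have := Va.mul_mem (d.hA1V (d.xV a ha)) ha
      rwa [inv_mul_cancel_right] at this
    · apply mem_norm_of_le
      intro a ha
      have := A1.mul_mem (d.xV a (d.hA1V ha)) ha
      rwa [inv_mul_cancel_right] at this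
  have htX : t ∈ X := by
    refine ⟨⟨⟨htH, d.tVa⟩, ?_⟩, d.tVb⟩
    apply mem_norm_of_le
    intro a ha
    have := A1.mul_mem (d.hVbA (d.tA a ha)) (A1.pow_mem ha ω)
    rwa [inv_mul_cancel_right] at this
  have hXn : ∀ (A : Subgroup G), A ≤ X → X ≤ Subgroup.normalizer (A : Set G) → (A.subgroupOf X).Normal := by
    intro A hA h
    exact (Subgroup.normal_subgroupOf_iff_le_normalizer hA).2 h
  have hVbX : Vb ≤ X := hVbV.trans hVaX
  have hAX : A1 ≤ X := d.hA1V.trans hVaX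
  have nVb : (Vb.subgroupOf X).Normal := hXn _ hVbX inf_le_right
  have nVa : (Va.subgroupOf X).Normal := hXn _ hVaX (inf_le_left.trans (inf_le_left.trans inf_le_right))
  have nA : (A1.subgroupOf X).Normal := hXn _ hAX (inf_le_left.trans inf_le_right)
  let D := Vb.subgroupOf X
  let π := QuotientGroup.mk' D
  have hπs : Function.Surjective π := QuotientGroup.mk'_surjective D
  have hπ1 : ∀ a : X, π a = 1 ↔ (a : G) ∈ Vb := by
    intro a
    rw [QuotientGroup.mk'_apply, QuotientGroup.eq_one_iff, Subgroup.mem_subgroupOf]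
  have hπm : ∀ (A : Subgroup G), Vb ≤ A → ∀ a : X, π a ∈ (A.subgroupOf X).map π ↔ (a : G) ∈ A := by
    intro A hA a
    constructor
    · rintro ⟨b, hb, hab⟩
      have h1 : ((b⁻¹ * a : X) : G) ∈ Vb := by rw [← hπ1, map_mul, map_inv, hab, inv_mul_cancel]
      have h2 := A.mul_mem (show (b : G) ∈ A from hb) (hA h1)
      have e : (b : G) * ((b⁻¹ * a : X) : G) = a := by simp
      rwa [e] at h2
    · intro ha
      exact ⟨a, ha, rfl⟩
  have hinv : Involves ↥(fOver (ZMod p)) (X ⧸ D) := by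
    obtain ⟨v1, hv1, hv1'⟩ := d.v1
    refine involves_F (p := p) (V := (Va.subgroupOf X).map π) (A1 := (A1.subgroupOf X).map π) (nVa.map π hπs) (nA.map π hπs)
      (Subgroup.map_mono (Subgroup.comap_mono d.hA1V)) ?_ ?_ (x := π ⟨x, hxX⟩) (y := π ⟨t, htX⟩) ?_ ?_ ?_ (v1 := π ⟨v1, hVaX hv1⟩) ?_ ?_
      hω hgen hω1 ?_ ?_
    · rintro _ ⟨v, hv, rfl⟩
      rw [← map_pow, hπ1]
      exact d.pw v hv
    · rintro _ ⟨v, hv, rfl⟩ _ ⟨w, hw, rfl⟩
      have : π (v * w * v⁻¹ * w⁻¹) = 1 := by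
        rw [hπ1]; exact d.comm v hv w hw
      rw [map_mul, map_mul, map_mul, map_inv, map_inv, mul_inv_eq_one] at this
      exact mul_inv_eq_iff_eq_mul.1 this
    · rintro ⟨y, hy⟩
      obtain ⟨n, rfl⟩ := Subgroup.mem_zpowers_iff.1 hy
      obtain ⟨k, hk⟩ := hx ⟨x, Subgroup.mem_zpowers x⟩
      have hk' : x ^ p ^ k = 1 := congrArg Subtype.val hk
      refine ⟨k, Subtype.ext ?_⟩
      show (π ⟨x, hxX⟩ ^ n) ^ p ^ k = 1
      have : (⟨x, hxX⟩ : X) ^ p ^ k = 1 := Subtype.ext hk'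
      rw [← zpow_natCast, ← zpow_mul, mul_comm, zpow_mul, zpow_natCast, ← map_pow, this, map_one, one_zpow]
    · rintro _ ⟨v, hv, rfl⟩
      rw [← map_inv, ← map_inv, ← map_mul, ← map_mul, ← map_mul, hπm A1 d.hVbA]
      exact d.xV v hv
    · rintro _ ⟨v, hv, rfl⟩
      rw [← map_inv, ← map_inv, ← map_mul, ← map_mul, ← map_mul, hπm A1 d.hVbA, hπ1]
      exact d.xA v hv
    · exact ⟨_, hv1, rfl⟩
    · rw [hπm A1 d.hVbA]; exact hv1'
    · rintro _ ⟨v, hv, rfl⟩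
      rw [← mul_inv_eq_one, ← map_inv, ← map_pow, ← map_inv, ← map_mul, ← map_mul, ← map_mul, hπ1]
      exact d.tA v hv
    · rintro _ ⟨v, hv, rfl⟩
      rw [← map_inv, ← map_mul, ← map_mul, ← map_inv, ← map_pow, ← map_mul, hπm A1 d.hVbA]
      exact d.tV v hv
  have h2 : Involves ↥(fOver (ZMod p)) X := H51.Involves.involves_of_hom π hπs hinv
  have hXH : X ≤ H := inf_le_left.trans (inf_le_left.trans inf_le_left)
  exact H51.Involves.involves_of_injective (Subgroup.inclusion hXH) (Subgroup.inclusion_injective hXH) h2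

end

end H78.Zf
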